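import Cfsg.Agent.QuadPair.Unipotent

/-!
The set of `a` with `a² = 0` and `1 + k a ⊆ G`, minimal rank, and pairs `⟨1 + k a, 1 + k b⟩`.
-/

set_option autoImplicit false

open Cfsg

namespace CfsgLib.QuadPair

variable {k : Type*} [Field k] {M : Type*} [AddCommGroup M] [Module k M]

local notation "GL" => LinearMap.GeneralLinearGroup k M
local notation "𝔼" => Module.End k M

/-- The endomorphisms `a` with `a² = 0` whose whole line gives elements `1 + c a` of `G`. -/
def gset (G : Subgroup (LinearMap.GeneralLinearGroup k M)) : Set (Module.End k M) :=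
  {a | a * a = 0 ∧ ∀ c : k, ∃ g ∈ G, dl g = c • a}

/-- The rank of an endomorphism. -/
noncomputable def rk (a : Module.End k M) : ℕ := Module.finrank k (LinearMap.range a)

/-- Nonzero members of `gset G` of minimal rank. -/
structure IsMin (G : Subgroup (LinearMap.GeneralLinearGroup k M)) (a : Module.End k M) : Prop where
  mem : a ∈ gset G
  ne : a ≠ 0
  le : ∀ b ∈ gset G, b ≠ 0 → rk a ≤ rk b

variable {G : Subgroup (LinearMap.GeneralLinearGroup k M)} {a b : Module.End k M}
  {σ τ : LinearMap.GeneralLinearGroup k M}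

/-- The unit `1 + a`, for `a² = 0`. -/
def one_add (a : Module.End k M) (ha : a * a = 0) : LinearMap.GeneralLinearGroup k M where
  val := 1 + a
  inv := 1 - a
  val_inv := by rw [add_mul, one_mul, mul_sub, mul_one, ha, sub_zero, sub_add_cancel]
  inv_val := by rw [sub_mul, one_mul, mul_add, mul_one, ha, add_zero, add_sub_cancel_right]

lemma dl_one_add (ha : a * a = 0) : dl (one_add a ha) = a := add_sub_cancel_left _ _

lemma smul_sq (ha : a * a = 0) (c : k) : (c • a) * (c • a) = 0 := by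
  rw [smul_mul_smul_comm, ha, smul_zero]

lemma gset_mem (h : a ∈ gset G) (c : k) : one_add (c • a) (smul_sq h.1 c) ∈ G := by
  obtain ⟨g, hg, e⟩ := h.2 c
  have : g = one_add (c • a) (smul_sq h.1 c) := dl_injective (by rw [e, dl_one_add])
  exact this ▸ hg

lemma gset_zero : (0 : 𝔼) ∈ gset G := ⟨mul_zero _, fun c => ⟨1, G.one_mem, by simp [dl_one]⟩⟩

lemma gset_smul (h : a ∈ gset G) (c : k) : c • a ∈ gset G :=
  ⟨smul_sq h.1 c, fun d => by
    obtain ⟨g, hg, e⟩ := h.2 (d * c)
    exact ⟨g, hg, by rw [e, smul_smul]⟩⟩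

lemma gset_neg (h : a ∈ gset G) : -a ∈ gset G := by simpa using gset_smul h (-1)

lemma gset_conj (h : a ∈ gset G) {g : GL} (hg : g ∈ G) :
    (g : 𝔼) * a * ((g⁻¹ : GL) : 𝔼) ∈ gset G := by
  refine ⟨?_, fun c => ?_⟩
  · calc (g : 𝔼) * a * ((g⁻¹ : GL) : 𝔼) * ((g : 𝔼) * a * ((g⁻¹ : GL) : 𝔼))
        = (g : 𝔼) * a * (((g⁻¹ : GL) : 𝔼) * (g : 𝔼)) * a * ((g⁻¹ : GL) : 𝔼) := by simp only [mul_assoc]
      _ = 0 := by rw [Units.inv_mul, mul_one, mul_assoc (g : 𝔼), h.1, mul_zero, zero_mul]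
  · obtain ⟨x, hx, e⟩ := h.2 c
    exact ⟨g * x * g⁻¹, G.mul_mem (G.mul_mem hg hx) (G.inv_mem hg), by
      rw [dl_conj, e, mul_smul_comm, smul_mul_assoc]⟩

lemma mem_quadratic_iff : σ ∈ quadraticElements G ↔ dl σ ∈ gset G ∧ dl σ ≠ 0 := by
  constructor
  · intro h
    refine ⟨⟨h.2.1.1, fun c => ?_⟩, h.2.1.2⟩
    refine ⟨one_add (c • dl σ) (smul_sq h.2.1.1 c), h.2.2 ⟨c, rfl⟩, dl_one_add _⟩
  · rintro ⟨h, h0⟩
    refine ⟨?_, ⟨h.1, h0⟩, ?_⟩
    · obtain ⟨g, hg, e⟩ := h.2 1
      exact (dl_injective (by rw [e, one_smul]) : g = σ) ▸ hg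
    · rintro τ ⟨c, hc⟩
      obtain ⟨g, hg, e⟩ := h.2 c
      have : g = τ := dl_injective (by rw [e]; show _ = (τ : 𝔼) - 1; rw [show (τ : 𝔼) = _ from hc, add_sub_cancel_left]; rfl)
      exact this ▸ hg

lemma isMin_of_minimal (h : σ ∈ minimalQuadraticElements G) : IsMin G (dl σ) := by
  refine ⟨(mem_quadratic_iff.1 h.1).1, (mem_quadratic_iff.1 h.1).2, fun b hb hb0 => ?_⟩
  have hq : one_add b hb.1 ∈ quadraticElements G :=
    mem_quadratic_iff.2 ⟨by rwa [dl_one_add], by rwa [dl_one_add]⟩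
  have := h.2 _ hq
  rw [show commutatorRank (one_add b hb.1) = rk b from congrArg rk (dl_one_add hb.1)] at this
  exact this

lemma minimal_of_isMin (h : IsMin G (dl σ)) : σ ∈ minimalQuadraticElements G :=
  ⟨mem_quadratic_iff.2 ⟨h.mem, h.ne⟩, fun _ hτ => h.le _ (mem_quadratic_iff.1 hτ).1 (mem_quadratic_iff.1 hτ).2⟩

lemma minimal_iff : σ ∈ minimalQuadraticElements G ↔ IsMin G (dl σ) := ⟨isMin_of_minimal, minimal_of_isMin⟩

lemma range_eq_of_le [FiniteDimensional k M] (ha : IsMin G a) (hb : b ∈ gset G) (hb0 : b ≠ 0)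
    (h : LinearMap.range b ≤ LinearMap.range a) : LinearMap.range b = LinearMap.range a :=
  Submodule.eq_of_le_of_finrank_le h (ha.le b hb hb0)

/-- The group generated by `1 + k a` and `1 + k b`. -/
def pairGrp (a b : Module.End k M) : Subgroup (LinearMap.GeneralLinearGroup k M) :=
  Subgroup.closure ({g | ∃ c : k, dl g = c • a} ∪ {g | ∃ c : k, dl g = c • b})

lemma scalarFamily_eq (σ : GL) : scalarFamily σ = {g : GL | ∃ c : k, dl g = c • dl σ} := by
  ext g
  exact exists_congr fun c => ⟨fun h => by rw [dl, show (g : 𝔼) = _ from h, add_sub_cancel_left]; rfl,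
    fun h => by show (g : 𝔼) = _; rw [val_eq g, h]; rfl⟩

lemma pairGrp_eq (σ τ : GL) :
    pairGrp (dl σ) (dl τ) = Subgroup.closure (scalarFamily σ ∪ scalarFamily τ) := by
  rw [pairGrp, scalarFamily_eq, scalarFamily_eq]

lemma pairGrp_le (ha : a ∈ gset G) (hb : b ∈ gset G) : pairGrp a b ≤ G := by
  rw [pairGrp, Subgroup.closure_le]
  rintro g (⟨c, hc⟩ | ⟨c, hc⟩)
  · obtain ⟨x, hx, e⟩ := ha.2 c
    exact (dl_injective (e.trans hc.symm) : x = g) ▸ hx
  · obtain ⟨x, hx, e⟩ := hb.2 c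
    exact (dl_injective (e.trans hc.symm) : x = g) ▸ hx

/-- The powers `≥ j` of `span {a, b}`. -/
def pw (a b : Module.End k M) (j : ℕ) : Submodule k (Module.End k M) :=
  ⨆ i : ℕ, Submodule.span k {a, b} ^ (i + j)

lemma pw_mul (a b : 𝔼) (i j : ℕ) : pw a b i * pw a b j ≤ pw a b (i + j) := by
  rw [pw, Submodule.iSup_mul]
  refine iSup_le fun x => ?_
  rw [pw, Submodule.mul_iSup]
  refine iSup_le fun y => ?_
  rw [← pow_add, pw, show x + i + (y + j) = x + y + (i + j) by omega]
  exact le_iSup (fun z => Submodule.span k {a, b} ^ (z + (i + j))) (x + y)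

lemma pw_anti (a b : 𝔼) {i j : ℕ} (h : i ≤ j) : pw a b j ≤ pw a b i := iSup_le fun x => by
  rw [show x + j = x + (j - i) + i by omega]
  exact le_iSup (fun z => Submodule.span k {a, b} ^ (z + i)) (x + (j - i))

lemma mem_pw_one_left (a b : 𝔼) : a ∈ pw a b 1 := by
  refine Submodule.mem_iSup_of_mem 0 ?_
  rw [zero_add, Submodule.pow_one]
  exact Submodule.subset_span (Set.mem_insert _ _)

lemma mem_pw_one_right (a b : 𝔼) : b ∈ pw a b 1 := by
  refine Submodule.mem_iSup_of_mem 0 ?_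
  rw [zero_add, Submodule.pow_one]
  exact Submodule.subset_span (Set.mem_insert_of_mem _ rfl)

lemma exists_pw_eq_bot (ha : a * a = 0) (hb : b * b = 0) (hs : IsNilpotent (a * b + b * a)) :
    ∃ n, pw a b n = ⊥ := by
  obtain ⟨n, hn⟩ := hs
  set s := a * b + b * a with hs'
  have key : ∀ (a b : 𝔼), a * a = 0 → a * b + b * a = s → ∀ i, s ^ i * (a * b) = (a * b) ^ (i + 1) := by
    intro a b ha he i
    induction i with
    | zero => simp
    | succ i ih =>
      rw [pow_succ', mul_assoc, ih, ← he, add_mul, pow_succ' (a * b) (i + 1), pow_succ' (a * b) i]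
      have : b * a * (a * b * (a * b) ^ i) = b * (a * a) * b * (a * b) ^ i := by noncomm_ring
      rw [this, ha]; noncomm_ring
  have hab : (a * b) ^ (n + 1) = 0 := by rw [← key a b ha rfl n, hn, zero_mul]
  have hba : (b * a) ^ (n + 1) = 0 := by rw [← key b a hb (by rw [hs', add_comm]) n, hn, zero_mul]
  set P := Submodule.span k ({a, b} : Set 𝔼)
  have hPP : P * P ≤ Submodule.span k {a * b, b * a} := by
    rw [Submodule.span_mul_span, Submodule.span_le]
    rintro _ ⟨x, hx, y, hy, rfl⟩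
    rcases hx with rfl | rfl <;> rcases hy with rfl | rfl
    · simp [ha]
    · exact Submodule.subset_span (Or.inl rfl)
    · exact Submodule.subset_span (Or.inr rfl)
    · simp [hb]
  have hQ : ∀ m, (P * P) ^ (m + 1) ≤ Submodule.span k {(a * b) ^ (m + 1), (b * a) ^ (m + 1)} := by
    intro m
    induction m with
    | zero => simpa using hPP
    | succ m ih =>
      rw [pow_succ]
      refine (mul_le_mul' ih hPP).trans ?_
      rw [Submodule.span_mul_span, Submodule.span_le]
      rintro _ ⟨x, hx, y, hy, rfl⟩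
      rcases hx with rfl | rfl <;> rcases hy with rfl | rfl
      · exact Submodule.subset_span (Or.inl (pow_succ _ _).symm)
      · have : (a * b) ^ (m + 1) * (b * a) = 0 := by
          rw [pow_succ, show (a * b) ^ m * (a * b) * (b * a) = (a * b) ^ m * a * (b * b) * a by noncomm_ring,
            hb]; noncomm_ring
        simp [this]
      · have : (b * a) ^ (m + 1) * (a * b) = 0 := by
          rw [pow_succ, show (b * a) ^ m * (b * a) * (a * b) = (b * a) ^ m * b * (a * a) * b by noncomm_ring,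
            ha]; noncomm_ring
        simp [this]
      · exact Submodule.subset_span (Or.inr (pow_succ _ _).symm)
  have hbot : (P * P) ^ (n + 1) = ⊥ := by
    refine le_bot_iff.1 ((hQ n).trans ?_)
    simp [hab, hba]
  refine ⟨2 * (n + 1), le_bot_iff.1 (iSup_le fun i => ?_)⟩
  rw [pow_add, pow_mul, sq, hbot, Submodule.mul_bot]

lemma pw_one_nilpotent (ha : a * a = 0) (hb : b * b = 0) (hs : IsNilpotent (a * b + b * a)) :
    ∃ n, pw a b 1 ^ n = ⊥ := by
  obtain ⟨n, hn⟩ := exists_pw_eq_bot ha hb hs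
  have h : ∀ i, pw a b 1 ^ (i + 1) ≤ pw a b (i + 1) := by
    intro i
    induction i with
    | zero => simp
    | succ i ih => rw [pow_succ]; exact (mul_le_mul' ih le_rfl).trans (pw_mul a b _ _)
  exact ⟨n + 1, le_bot_iff.1 ((h n).trans ((pw_anti a b n.le_succ).trans hn.le))⟩

lemma dl_mem_of_family {H : Subgroup GL} {a : 𝔼} (ha : a * a = 0) (h : ∀ g : GL, (∃ c : k, dl g = c • a) → g ∈ H) :
    a ∈ alg H := by
  have := dl_mem (h (one_add a ha) ⟨1, by rw [dl_one_add, one_smul]⟩)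
  rwa [dl_one_add] at this

theorem unipotent_pair_iff (ha : a * a = 0) (hb : b * b = 0) :
    IsUnipotentOn (pairGrp a b) ↔ IsNilpotent (a * b + b * a) := by
  constructor
  · intro h
    obtain ⟨n, hn⟩ := isUnipotentOn_iff.1 h
    have h1 := dl_mem_of_family ha (H := pairGrp a b) fun g hg => Subgroup.subset_closure (Or.inl hg)
    have h2 := dl_mem_of_family hb (H := pairGrp a b) fun g hg => Subgroup.subset_closure (Or.inr hg)
    have hs : a * b + b * a ∈ alg (pairGrp a b) :=
      add_mem (alg_mul _ (Submodule.mul_mem_mul h1 h2)) (alg_mul _ (Submodule.mul_mem_mul h2 h1))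
    exact ⟨n, (Submodule.mem_bot k).1 (hn ▸ Submodule.pow_mem_pow _ hs n)⟩
  · intro hs
    refine unipotent_closure ((pw_mul a b 1 1).trans (pw_anti a b one_le_two)) (pw_one_nilpotent ha hb hs) ?_
    rintro g (⟨c, hc⟩ | ⟨c, hc⟩) <;> rw [hc]
    · exact Submodule.smul_mem _ c (mem_pw_one_left a b)
    · exact Submodule.smul_mem _ c (mem_pw_one_right a b)

end CfsgLib.QuadPair
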