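import Cfsg.Agent.QuadPair.Unipotent

/-!
A conjugation invariant family of subgroups that are pairwise unipotent generates a unipotent subgroup.
-/

set_option autoImplicit false

open Cfsg

namespace CfsgLib.QuadPair

variable {k : Type*} [Field k] {M : Type*} [AddCommGroup M] [Module k M] [FiniteDimensional k M]
variable {W : Set (Subgroup (LinearMap.GeneralLinearGroup k M))}

local notation "GL" => LinearMap.GeneralLinearGroup k M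

private def Good (W 𝒳 : Set (Subgroup (LinearMap.GeneralLinearGroup k M))) : Prop :=
  𝒳 ⊆ W ∧ IsUnipotentOn (⨆ A ∈ 𝒳, A)

private noncomputable def meas (𝒳 : Set (Subgroup (LinearMap.GeneralLinearGroup k M))) : ℕ :=
  Module.finrank k (alg (⨆ A ∈ 𝒳, A))

private lemma meas_le (𝒳 : Set (Subgroup GL)) : meas 𝒳 ≤ Module.finrank k (Module.End k M) :=
  Submodule.finrank_le _

private lemma exists_maximal_meas (P : Set (Subgroup GL) → Prop) {𝒳 : Set (Subgroup GL)} (h : P 𝒳) :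
    ∃ 𝒴, P 𝒴 ∧ ∀ 𝒵, P 𝒵 → meas 𝒵 ≤ meas 𝒴 := by
  classical
  have hbdd : ∀ n ∈ {n | ∃ 𝒴, P 𝒴 ∧ meas 𝒴 = n}, n ≤ Module.finrank k (Module.End k M) := by
    rintro n ⟨𝒴, -, rfl⟩; exact meas_le 𝒴
  obtain ⟨n, ⟨⟨𝒴, h1, rfl⟩, hn⟩⟩ : ∃ n, n ∈ {n | ∃ 𝒴, P 𝒴 ∧ meas 𝒴 = n} ∧
      ∀ m ∈ {n | ∃ 𝒴, P 𝒴 ∧ meas 𝒴 = n}, m ≤ n :=
    ⟨_, Nat.sSup_mem ⟨_, 𝒳, h, rfl⟩ ⟨_, hbdd⟩, fun m hm => le_csSup ⟨_, hbdd⟩ hm⟩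
  exact ⟨𝒴, h1, fun 𝒵 hz => hn _ ⟨𝒵, hz, rfl⟩⟩

private lemma exists_good_maximal {𝒳 : Set (Subgroup GL)} (h : Good W 𝒳) :
    ∃ 𝒴, Good W 𝒴 ∧ 𝒳 ⊆ 𝒴 ∧ (∀ A ∈ W, alg A ≤ alg (⨆ B ∈ 𝒴, B) → A ∈ 𝒴) ∧
      ∀ 𝒵, Good W 𝒵 → 𝒴 ⊆ 𝒵 → 𝒵 = 𝒴 := by
  obtain ⟨𝒴, ⟨hY, hXY⟩, hmax⟩ := exists_maximal_meas (fun 𝒴 => Good W 𝒴 ∧ 𝒳 ⊆ 𝒴) (𝒳 := 𝒳) ⟨h, le_rfl⟩
  obtain ⟨n, hn⟩ := isUnipotentOn_iff.1 hY.2
  have hN := alg_mul (⨆ B ∈ 𝒴, B)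
  set 𝒴' := {A | A ∈ W ∧ alg A ≤ alg (⨆ B ∈ 𝒴, B)} with hY'
  have hle : (⨆ A ∈ 𝒴', A) ≤ grp _ hN ⟨n, hn⟩ := iSup₂_le fun A hA g hg => hA.2 (dl_mem hg)
  have hsub : 𝒴 ⊆ 𝒴' := fun A hA => ⟨hY.1 hA, alg_mono (le_iSup₂ (f := fun B _ => B) A hA)⟩
  have halg : alg (⨆ A ∈ 𝒴', A) = alg (⨆ B ∈ 𝒴, B) := le_antisymm
    (Submodule.span_le.2 (by rintro _ ⟨g, hg, rfl⟩; exact hle hg))
    (alg_mono (biSup_mono hsub))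
  have hgood : Good W 𝒴' := ⟨fun A hA => hA.1, unipotent_of_alg_le ⟨n, hn⟩ halg.le⟩
  refine ⟨𝒴', hgood, hXY.trans hsub, fun A hA hle' => ⟨hA, halg ▸ hle'⟩, fun 𝒵 hZ hsubZ => ?_⟩
  refine Set.Subset.antisymm (fun A hA => ⟨hZ.1 hA, ?_⟩) hsubZ
  have h1 : alg (⨆ B ∈ 𝒴, B) ≤ alg (⨆ B ∈ 𝒵, B) := alg_mono (biSup_mono (hsub.trans hsubZ))
  rw [Submodule.eq_of_le_of_finrank_le h1 (hmax 𝒵 ⟨hZ, (hXY.trans hsub).trans hsubZ⟩)]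
  exact alg_mono (le_iSup₂ (f := fun B _ => B) A hA)

omit [FiniteDimensional k M] in
private lemma exists_normalizing {D : Subgroup GL} {𝒳 : Set (Subgroup GL)}
    (hX : IsUnipotentOn (⨆ A ∈ 𝒳, A))
    (hD : D = ⨆ A ∈ {A | A ∈ 𝒳 ∧ A ≤ D}, A) (hconj : ∀ A ∈ 𝒳, ∀ g ∈ ⨆ B ∈ 𝒳, B, conjBy A g ∈ 𝒳)
    (hne : ∃ A ∈ 𝒳, ¬ A ≤ D) :
    ∃ B ∈ 𝒳, ¬ B ≤ D ∧ B ≤ Subgroup.normalizer (D : Set GL) := by
  by_contra hno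
  push Not at hno
  set X := ⨆ A ∈ 𝒳, A
  set P := X ⊓ Subgroup.normalizer (D : Set GL) with hP
  have hAX : ∀ A ∈ 𝒳, A ≤ X := fun A hA => le_iSup₂ (f := fun B _ => B) A hA
  have hmem : ∀ A ∈ 𝒳, A ≤ P → A ≤ D := fun A hA hAP => by
    by_contra hAD
    exact hno A hA hAD (hAP.trans inf_le_right)
  have hPX : P < X := lt_of_le_of_ne inf_le_left fun e => by
    obtain ⟨A, hA, hAD⟩ := hne
    exact hAD (hmem A hA (e ▸ hAX A hA))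
  obtain ⟨g, hgX, hgP, hgN⟩ := exists_mem_normalizer hX hPX
  have key : ∀ h ∈ X, h ∈ Subgroup.normalizer (P : Set GL) → ∀ d ∈ D, h * d * h⁻¹ ∈ D := by
    intro h hhX hhP d hd
    have hle : conjBy D h ≤ D := by
      conv_lhs => rw [hD]
      rw [conjBy, Subgroup.map_iSup]
      refine iSup_le fun A => ?_
      rw [Subgroup.map_iSup]
      refine iSup_le fun hA => hmem _ (hconj A hA.1 h hhX) ?_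
      rintro _ ⟨a, ha, rfl⟩
      exact (Subgroup.mem_normalizer_iff.1 hhP a).1 ⟨hAX A hA.1 ha, Subgroup.le_normalizer (hA.2 ha)⟩
    exact hle ⟨d, hd, rfl⟩
  refine hgP ⟨hgX, Subgroup.mem_normalizer_iff.2 fun d => ⟨key g hgX hgN d, fun hd => ?_⟩⟩
  have := key g⁻¹ (inv_mem hgX) (inv_mem hgN) _ hd
  simpa [mul_assoc] using this

/-- A `G`-invariant family of subgroups of `G` which are pairwise unipotent generates a unipotent subgroup. -/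
theorem unipotent_iSup {G : Subgroup (LinearMap.GeneralLinearGroup k M)} (hWG : ∀ A ∈ W, A ≤ G)
    (hWW : ∀ A ∈ W, ∀ B ∈ W, IsUnipotentOn (A ⊔ B)) (hWconj : ∀ A ∈ W, ∀ g ∈ G, conjBy A g ∈ W) :
    IsUnipotentOn (⨆ A ∈ W, A) := by
  have hbot : Good W (∅ : Set (Subgroup GL)) := ⟨Set.empty_subset _, by simpa using unipotent_bot⟩
  set MX := {𝒳 | Good W 𝒳 ∧ (∀ A ∈ W, alg A ≤ alg (⨆ B ∈ 𝒳, B) → A ∈ 𝒳) ∧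
    ∀ 𝒵, Good W 𝒵 → 𝒳 ⊆ 𝒵 → 𝒵 = 𝒳}
  have hext : ∀ {𝒳}, Good W 𝒳 → ∃ 𝒴 ∈ MX, 𝒳 ⊆ 𝒴 := fun h => by
    obtain ⟨𝒴, h1, h2, h3, h4⟩ := exists_good_maximal h
    exact ⟨𝒴, ⟨h1, h3, h4⟩, h2⟩
  obtain ⟨𝒳₀, hX₀, -⟩ := hext hbot
  by_cases huniq : ∀ 𝒳 ∈ MX, 𝒳 = 𝒳₀
  · refine unipotent_mono (iSup₂_le fun A hA => ?_) hX₀.1.2
    obtain ⟨𝒴, hY, hAY⟩ := hext (𝒳 := {A}) ⟨Set.singleton_subset_iff.2 hA, by simpa using hWW A hA A hA⟩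
    exact le_iSup₂ (f := fun B _ => B) A (huniq 𝒴 hY ▸ hAY rfl)
  exfalso
  push Not at huniq
  obtain ⟨𝒳₁, hX₁, hne₁⟩ := huniq
  set P : Set (Subgroup GL) → Prop := fun 𝒟 => ∃ 𝒳 ∈ MX, ∃ 𝒴 ∈ MX, 𝒳 ≠ 𝒴 ∧ 𝒟 = 𝒳 ∩ 𝒴
  obtain ⟨_, ⟨𝒳, hX, 𝒴, hY, hne, rfl⟩, hmax⟩ := exists_maximal_meas P (𝒳 := 𝒳₁ ∩ 𝒳₀)
    ⟨𝒳₁, hX₁, 𝒳₀, hX₀, hne₁, rfl⟩
  set D := ⨆ A ∈ 𝒳 ∩ 𝒴, A with hDdef
  have hDX : D ≤ ⨆ A ∈ 𝒳, A := biSup_mono fun A hA => hA.1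
  have hDY : D ≤ ⨆ A ∈ 𝒴, A := biSup_mono fun A hA => hA.2
  have hout : ∀ {A}, A ∈ W → alg A ≤ alg D → A ∈ 𝒳 ∧ A ∈ 𝒴 := fun hA hle =>
    ⟨hX.2.1 _ hA (hle.trans (alg_mono hDX)), hY.2.1 _ hA (hle.trans (alg_mono hDY))⟩
  have key : ∀ {U V : Set (Subgroup GL)}, U ∈ MX → V ∈ MX → U ≠ V → (∀ A, A ∈ U ∧ A ∈ V ↔ A ∈ 𝒳 ∧ A ∈ 𝒴) →
      ∃ B ∈ U, B ∉ V ∧ B ≤ Subgroup.normalizer (D : Set GL) := by
    intro U V hU hV hUV heq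
    obtain ⟨A₀, hA₀U, hA₀V⟩ : ∃ A ∈ U, A ∉ V := by
      by_contra hno
      push Not at hno
      exact hUV (hU.2.2 V hV.1 hno).symm
    have hDalg : ∀ {A}, A ∈ W → A ≤ D → A ∈ V := fun hA hle =>
      ((heq _).2 (hout hA (alg_mono hle))).2
    have hconjU : ∀ A ∈ U, ∀ g ∈ ⨆ B ∈ U, B, conjBy A g ∈ U := fun A hA g hg => by
      refine hU.2.1 _ (hWconj A (hU.1.1 hA) g ((iSup₂_le fun B hB => hWG B (hU.1.1 hB) :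
        (⨆ B ∈ U, B) ≤ G) hg)) (alg_mono ?_)
      rintro _ ⟨a, ha, rfl⟩
      exact mul_mem (mul_mem hg (le_iSup₂ (f := fun B _ => B) A hA ha)) (inv_mem hg)
    obtain ⟨B, hBU, hBD, hBN⟩ := exists_normalizing (D := D) hU.1.2
      (le_antisymm (iSup₂_le fun A hA => by
          have hAD : A ≤ D := le_iSup₂ (f := fun B _ => B) A hA
          exact le_iSup₂ (f := fun B _ => B) A (show A ∈ {A | A ∈ U ∧ A ≤ D} from ⟨((heq A).2 hA).1, hAD⟩))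
        (iSup₂_le fun A hA => hA.2))
      hconjU ⟨A₀, hA₀U, fun h => hA₀V (hDalg (hU.1.1 hA₀U) h)⟩
    refine ⟨B, hBU, fun hBV => hBD ?_, hBN⟩
    exact le_iSup₂ (f := fun B _ => B) B ((heq B).1 ⟨hBU, hBV⟩)
  obtain ⟨B, hBX, hBY, hBN⟩ := key hX hY hne fun A => Iff.rfl
  obtain ⟨C, hCY, hCX, hCN⟩ := key hY hX hne.symm fun A => and_comm
  have hu : IsUnipotentOn (D ⊔ (B ⊔ C)) :=
    unipotent_sup (unipotent_mono hDX hX.1.2) (hWW B (hX.1.1 hBX) C (hY.1.1 hCY)) (sup_le hBN hCN)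
  have hgood : Good W (insert B (insert C (𝒳 ∩ 𝒴))) := by
    refine ⟨Set.insert_subset (hX.1.1 hBX) (Set.insert_subset (hY.1.1 hCY) fun A hA => hX.1.1 hA.1), ?_⟩
    refine unipotent_mono (iSup₂_le fun A hA => ?_) hu
    rcases hA with rfl | rfl | hA
    · exact le_sup_left.trans le_sup_right
    · exact le_sup_right.trans le_sup_right
    · exact (le_iSup₂ (f := fun B _ => B) A hA).trans le_sup_left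
  obtain ⟨𝒵, hZ, hsubZ⟩ := hext hgood
  have hXZ : 𝒳 ≠ 𝒵 := fun e => hCX (e ▸ hsubZ (Or.inr (Or.inl rfl)))
  have hle : alg D ≤ alg (⨆ A ∈ 𝒳 ∩ 𝒵, A) :=
    alg_mono (biSup_mono fun A hA => ⟨hA.1, hsubZ (Or.inr (Or.inr hA))⟩)
  have heq : alg D = alg (⨆ A ∈ 𝒳 ∩ 𝒵, A) :=
    Submodule.eq_of_le_of_finrank_le hle (hmax _ ⟨𝒳, hX, 𝒵, hZ, hXZ, rfl⟩)
  exact hBY (hout (hX.1.1 hBX) (heq ▸ alg_mono (le_iSup₂ (f := fun A _ => A) B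
    (show B ∈ 𝒳 ∩ 𝒵 from ⟨hBX, hsubZ (Or.inl rfl)⟩)))).2

end CfsgLib.QuadPair
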