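import Cfsg.Agent.QuadPair.RingFinite

/-!
The main statement on `⟨u(c), l(c s)⟩ ≤ SL₂(R)`, `R = k[s]`: deep commutators contain a scaled family `u(k r)` with
`r ≠ 0`, and `r` can be taken a non-unit when `R` is not a field.
-/

set_option autoImplicit false

open Matrix
open scoped commutatorElement

namespace CfsgLib.QuadPair

variable {k R : Type*} [Field k] [CommRing R] [Algebra k R]

/-- Reduction modulo an ideal. -/
abbrev red (I : Ideal R) : SpecialLinearGroup (Fin 2) R →* SpecialLinearGroup (Fin 2) (R ⧸ I) :=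
  SpecialLinearGroup.map (Ideal.Quotient.mk I)

lemma red_apply (I : Ideal R) (g : SpecialLinearGroup (Fin 2) R) (i j : Fin 2) :
    (red I g).1 i j = Ideal.Quotient.mk I (g.1 i j) := rfl

lemma red_uR (I : Ideal R) (r : R) : red I (uR r) = uR (Ideal.Quotient.mk I r) := by
  apply sl2_ext <;> simp

lemma red_lR (I : Ideal R) (r : R) : red I (lR r) = lR (Ideal.Quotient.mk I r) := by
  apply sl2_ext <;> simp

/-- The Weyl element. -/
def wR {S : Type*} [CommRing S] : SpecialLinearGroup (Fin 2) S := ⟨!![0, 1; -1, 0], by simp⟩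

@[simp] lemma wR_coe {S : Type*} [CommRing S] : ((wR : SpecialLinearGroup (Fin 2) S) : Matrix (Fin 2) (Fin 2) S) = !![0, 1; -1, 0] := rfl

lemma map_red_gens (s : R) (I : Ideal R) : (gens k s).map (red I) = gens k (Ideal.Quotient.mk I s) := by
  rw [gens, gens, MonoidHom.map_closure, Set.image_union, ← Set.range_comp, ← Set.range_comp]
  congr 3
  · funext c
    simp only [Function.comp_apply, red_uR]
    rfl
  · funext c
    simp only [Function.comp_apply, red_lR, map_mul]
    rfl

lemma adjoin_red {s : R} (hgen : Algebra.adjoin k {s} = ⊤) (I : Ideal R) :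
    Algebra.adjoin k {Ideal.Quotient.mk I s} = ⊤ := by
  have h := congrArg (Subalgebra.map (Ideal.Quotient.mkₐ k I)) hgen
  rw [AlgHom.map_adjoin_singleton, Algebra.map_top,
    (AlgHom.range_eq_top _).2 (Ideal.Quotient.mkₐ_surjective k I)] at h
  exact h

lemma red_gens_top [Module.Finite k R] (h2 : (2 : k) ≠ 0) (h3 : Nat.card k ≠ 3) {s : R} (hs : IsUnit s)
    (hgen : Algebra.adjoin k {s} = ⊤) (m : Ideal R) [m.IsMaximal] (n : ℕ) :
    (lcsIn (gens k s) n).map (red m) = ⊤ := by
  let : Field (R ⧸ m) := Ideal.Quotient.field m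
  rw [lcsIn_map, map_red_gens]
  exact lcsIn_gens_field h2 h3 (hs.map (Ideal.Quotient.mk m)).ne_zero (adjoin_red hgen m) n

section Finite

variable [Finite k] [Module.Finite k R] [Nontrivial R]

lemma exists_uR_of_dvd (h2 : (2 : k) ≠ 0) {p : ℕ} [Fact p.Prime] [CharP R p] {s : R} (m : Ideal R) [m.IsMaximal]
    (N : Subgroup (SpecialLinearGroup (Fin 2) R)) (hN : N ≤ gens k s)
    (hnorm : ∀ g ∈ gens k s, ∀ x ∈ N, g * x * g⁻¹ ∈ N) (hker : N ≤ (red m).ker) (hdvd : p ∣ Nat.card N) :
    ∃ r, r ≠ 0 ∧ r ∈ m ∧ uR r ∈ N := by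
  have : Finite R := Module.finite_of_finite k
  have hp2 : p ≠ 2 := fun e => by
    subst e
    refine h2 ((algebraMap k R).injective ?_)
    rw [map_zero, map_ofNat]
    exact_mod_cast CharP.cast_eq_zero R 2
  have hp : Odd p := (Fact.out : p.Prime).odd_of_ne_two hp2
  have : (N.subgroupOf (gens k s)).Normal := ⟨fun x hx g => hnorm g g.2 x hx⟩
  have hu1 : uR (1 : R) ∈ gens k s := by simpa using uR_mem_gens s (1 : k)
  have hupow : ∀ n : ℕ, uR (1 : R) ^ n = uR (n : R) := fun n => by
    induction n with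
    | zero => simp [uR_zero]
    | succ n ih => rw [pow_succ, ih, ← uR_add]; congr 1; push_cast; ring
  obtain ⟨g, hg, hg1, ⟨j, hj⟩, hc⟩ := exists_fixed_of_dvd (p := p) (N.subgroupOf (gens k s)) (u := ⟨uR 1, hu1⟩)
    (Subtype.ext (by rw [SubmonoidClass.coe_pow, hupow, CharP.cast_eq_zero R p, uR_zero]; rfl))
    (by rwa [Nat.card_congr (Subgroup.subgroupOfEquivOfLe hN).toEquiv])
  obtain ⟨r, hr⟩ := exists_eq_uR (g := (g : SpecialLinearGroup (Fin 2) R)) hp
    ⟨j, by simpa using congrArg Subtype.val hj⟩ (congrArg Subtype.val hc)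
  refine ⟨r, fun e => hg1 (Subtype.ext (by rw [hr, e, uR_zero]; rfl)), ?_, hr ▸ hg⟩
  have h01 := congrArg (fun x : SpecialLinearGroup (Fin 2) (R ⧸ m) => x.1 0 1) (MonoidHom.mem_ker.1 (hker hg))
  simp only [red_apply] at h01
  simpa [hr, Ideal.Quotient.eq_zero_iff_mem] using h01

set_option maxHeartbeats 2000000 in
theorem exists_uR_finite (h2 : (2 : k) ≠ 0) (h3 : Nat.card k ≠ 3) {s : R} (hs : IsUnit s)
    (hgen : Algebra.adjoin k {s} = ⊤) (hnf : ¬ IsField R) (n : ℕ) :
    ∃ r, r ≠ 0 ∧ ¬ IsUnit r ∧ uR r ∈ lcsIn (gens k s) n := by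
  classical
  have : Finite R := Module.finite_of_finite k
  have := Fintype.ofFinite k
  obtain ⟨p, hpk⟩ := CharP.exists k
  have hpf : Fact p.Prime := ⟨(CharP.char_is_prime_or_zero k p).resolve_right fun h => by
    subst h
    have := CharP.charP_to_charZero k
    have : Infinite k := Infinite.of_injective (Nat.cast : ℕ → k) Nat.cast_injective
    exact _root_.not_finite k⟩
  have hpR : CharP R p := (RingHom.charP_iff _ (algebraMap k R).injective p).1 hpk
  have hp2 : p ≠ 2 := fun e => by subst e; exact h2 (by exact_mod_cast CharP.cast_eq_zero k 2)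
  have hp : Odd p := hpf.out.odd_of_ne_two hp2
  have hk4 : 4 ≤ Nat.card k := by
    rcases lt_or_ge (Nat.card k) 4 with h | h
    · exfalso
      have h1 : 1 < Nat.card k := Finite.one_lt_card
      obtain ⟨a, -, ha⟩ := FiniteField.card k p
      rw [← Nat.card_eq_fintype_card] at ha
      have : Nat.card k = 2 := by omega
      rw [this] at ha
      exact hp2 ((Nat.prime_dvd_prime_iff_eq hpf.out Nat.prime_two).1 (ha ▸ dvd_pow_self p a.pos.ne'))
    · exact h
  have hF2 : ∀ (m : Ideal R) [m.IsMaximal], (2 : R ⧸ m) ≠ 0 := fun m _ e => by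
    let : Field (R ⧸ m) := Ideal.Quotient.field m
    exact h2 ((algebraMap k (R ⧸ m)).injective (by rw [map_zero, map_ofNat, e]))
  have hcent : ∀ (m : Ideal R) [m.IsMaximal] (N : Subgroup (SpecialLinearGroup (Fin 2) R)),
      (∀ g ∈ gens k s, ∀ x ∈ N, g * x * g⁻¹ ∈ N) → ¬ p ∣ Nat.card N → ∀ x ∈ N, red m x = 1 ∨ red m x = -1 := by
    intro m _ N hnorm hdvd x hx
    let : Field (R ⧸ m) := Ideal.Quotient.field m
    have : Finite (R ⧸ m) := Finite.of_surjective _ Ideal.Quotient.mk_surjective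
    have : CharP (R ⧸ m) p := (RingHom.charP_iff _ (algebraMap k (R ⧸ m)).injective p).1 hpk
    have : (N.map (red m)).Normal := ⟨fun _ hy g => by
      obtain ⟨g', hg', rfl⟩ : g ∈ (gens k s).map (red m) := by
        have := red_gens_top h2 h3 hs hgen m 0
        rw [lcsIn] at this
        rw [this]; trivial
      obtain ⟨y, hy, rfl⟩ := hy
      exact ⟨_, hnorm g' hg' y hy, by simp⟩⟩
    exact center_of_normal_coprime (hk4.trans (Nat.card_le_card_of_injective _ (algebraMap k (R ⧸ m)).injective))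
      (N.map (red m)) (fun h => hdvd (h.trans (Subgroup.card_map_dvd N (red m)))) ⟨x, hx, rfl⟩
  obtain ⟨m, hm⟩ := Ideal.exists_maximal R
  have hnonunit : ∀ {r : R}, r ∈ m → ¬ IsUnit r := fun hr hu => hm.ne_top (Ideal.eq_top_of_isUnit_mem m hr hu)
  have hkerconj : ∀ g x : SpecialLinearGroup (Fin 2) R, x ∈ (red m).ker → g * x * g⁻¹ ∈ (red m).ker :=
    fun g x hx => (MonoidHom.normal_ker _).conj_mem x hx g
  set KD := lcsIn (gens k s) n ⊓ (red m).ker with hKD
  have hKDnorm : ∀ g ∈ gens k s, ∀ x ∈ KD, g * x * g⁻¹ ∈ KD := fun g hg x hx =>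
    ⟨conj_mem_lcsIn hg hx.1, hkerconj g x hx.2⟩
  by_cases hd : p ∣ Nat.card KD
  · obtain ⟨r, hr0, hrm, hr⟩ := exists_uR_of_dvd h2 (p := p) m KD
      (inf_le_left.trans (lcsIn_le _ n)) hKDnorm inf_le_right hd
    exact ⟨r, hr0, hnonunit hrm, hr.1⟩
  exfalso
  set KH := gens k s ⊓ (red m).ker with hKH
  have hKHnorm : ∀ g ∈ gens k s, ∀ x ∈ KH, g * x * g⁻¹ ∈ KH := fun g hg x hx =>
    ⟨Subgroup.mul_mem _ (Subgroup.mul_mem _ hg hx.1) (Subgroup.inv_mem _ hg), hkerconj g x hx.2⟩
  have hnil : ∃ N, nilradical R ^ N = ⊥ := IsArtinianRing.isNilpotent_nilradical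
  have hKHd : ¬ p ∣ Nat.card KH := by
    intro h
    obtain ⟨r, hr0, -, hr⟩ := exists_uR_of_dvd h2 (p := p) m KH inf_le_left hKHnorm inf_le_right h
    have hz : ∀ d ∈ lcsIn (gens k s) n, ⁅uR r, d⁆ ∈ KD := fun d hd' => by
      rw [commutatorElement_def]
      refine ⟨Subgroup.mul_mem _ (conj_mem_lcsIn hr.1 hd') (Subgroup.inv_mem _ hd'), ?_⟩
      rw [show uR r * d * (uR r)⁻¹ * d⁻¹ = uR r * (d * (uR r)⁻¹ * d⁻¹) by group]
      exact Subgroup.mul_mem _ hr.2 (hkerconj d _ (Subgroup.inv_mem _ hr.2))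
    have hlift : ∀ (j : Ideal R) [j.IsMaximal], ∃ d ∈ lcsIn (gens k s) n,
        red j d = wR := fun j _ => by
      have := red_gens_top h2 h3 hs hgen j n
      exact (this ▸ Subgroup.mem_top _ : _ ∈ (lcsIn (gens k s) n).map (red j))
    by_cases hrn : r ∈ nilradical R
    · obtain ⟨j, hj, hle⟩ := Ideal.exists_le_maximal (LinearMap.ker (LinearMap.mulRight R r))
        (fun e => hr0 (by simpa using (show (1 : R) ∈ LinearMap.ker (LinearMap.mulRight R r) by rw [e]; trivial)))
      obtain ⟨d, hd', hdw⟩ := hlift j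
      have hone : red (nilradical R) ⁅uR r, d⁆ = 1 := by
        have hu : red (nilradical R) (uR r) = 1 := by
          rw [red_uR, Ideal.Quotient.eq_zero_iff_mem.2 hrn, uR_zero]
        rw [commutatorElement_def, map_mul, map_mul, map_mul, hu, map_inv, map_inv, hu]; simp
      obtain ⟨i, hi⟩ := exists_pow_eq_one_of_nilpotent_entries (p := p) hnil (g := ⁅uR r, d⁆) fun a b => by
        have := congrArg (fun x : SpecialLinearGroup (Fin 2) (R ⧸ nilradical R) => x.1 a b) hone
        simp only [red_apply] at this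
        rw [← Ideal.Quotient.eq_zero_iff_mem, Matrix.sub_apply, map_sub, this]
        fin_cases a <;> fin_cases b <;> simp
      have ho : orderOf (⟨_, hz d hd'⟩ : KD) ∣ p ^ i := orderOf_dvd_of_pow_eq_one (Subtype.ext hi)
      have hcop : Nat.Coprime (p ^ i) (Nat.card KD) :=
        ((Nat.Prime.coprime_iff_not_dvd hpf.out).2 hd).pow_left i
      have h1 := Nat.eq_one_of_dvd_coprimes hcop ho (orderOf_dvd_natCard _)
      have hcomm := congrArg Subtype.val (orderOf_eq_one_iff.1 h1)
      simp only [OneMemClass.coe_one, commutatorElement_eq_one_iff_mul_comm] at hcomm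
      have hann : d.1 1 0 ∈ j := hle (by simpa using neg_comm_uR hcomm.symm)
      have e := congrArg (fun x : SpecialLinearGroup (Fin 2) (R ⧸ j) => x.1 1 0) hdw
      simp only [red_apply] at e
      rw [Ideal.Quotient.eq_zero_iff_mem.2 hann] at e
      simp at e
    · rw [nilradical_eq_sInf, Ideal.mem_sInf] at hrn
      push Not at hrn
      obtain ⟨j, hj, hrj⟩ := hrn
      have : j.IsMaximal := IsArtinianRing.isPrime_iff_isMaximal j |>.1 hj
      obtain ⟨d, hd', hdw⟩ := hlift j
      let : Field (R ⧸ j) := Ideal.Quotient.field j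
      have hzc := hcent j KD hKDnorm hd _ (hz d hd')
      rw [commutatorElement_def, map_mul, map_mul, map_mul, map_inv, map_inv, mul_inv_eq_iff_eq_mul,
        mul_inv_eq_iff_eq_mul, mul_inv_eq_iff_eq_mul, mul_inv_eq_iff_eq_mul, hdw, red_uR] at hzc
      have hr' : Ideal.Quotient.mk j r ≠ 0 := fun e => hrj (Ideal.Quotient.eq_zero_iff_mem.1 e)
      rcases hzc with e | e
      · have e00 := congrArg (fun x : SpecialLinearGroup (Fin 2) (R ⧸ j) => x.1 0 0) e
        simp only [mul_e] at e00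
        simp at e00
        exact hr' e00
      · have e01 := congrArg (fun x : SpecialLinearGroup (Fin 2) (R ⧸ j) => x.1 0 1) e
        simp only [mul_e, SpecialLinearGroup.coe_neg, Matrix.neg_apply] at e01
        simp at e01
        exact hF2 j (by linear_combination e01)
  by_cases huniq : ∀ j : Ideal R, j.IsMaximal → j = m
  · have : IsLocalRing R := IsLocalRing.of_unique_max_ideal ⟨m, hm, huniq⟩
    have hmn : m = nilradical R := le_antisymm
      (by rw [nilradical_eq_sInf]; exact le_sInf fun j hj => (huniq j ((IsArtinianRing.isPrime_iff_isMaximal j).1 hj)).ge)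
      (nilradical_le_prime m)
    let : Field (R ⧸ m) := Ideal.Quotient.field m
    have : Finite (R ⧸ m) := Finite.of_surjective _ Ideal.Quotient.mk_surjective
    have : CharP (R ⧸ m) p := (RingHom.charP_iff _ (algebraMap k (R ⧸ m)).injective p).1 hpk
    have hKH1 : KH = ⊥ := by
      rw [Subgroup.eq_bot_iff_forall]
      intro x hx
      obtain ⟨i, hi⟩ := exists_pow_eq_one_of_nilpotent_entries (p := p) hnil (g := x) fun a b => by
        rw [← hmn]
        have := congrArg (fun x : SpecialLinearGroup (Fin 2) (R ⧸ m) => x.1 a b) (MonoidHom.mem_ker.1 hx.2)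
        simp only [red_apply] at this
        rw [← Ideal.Quotient.eq_zero_iff_mem, Matrix.sub_apply, map_sub, this]
        fin_cases a <;> fin_cases b <;> simp
      have ho : orderOf (⟨x, hx⟩ : KH) ∣ p ^ i := orderOf_dvd_of_pow_eq_one (Subtype.ext hi)
      have h1 := Nat.eq_one_of_dvd_coprimes (((Nat.Prime.coprime_iff_not_dvd hpf.out).2 hKHd).pow_left i) ho
        (orderOf_dvd_natCard _)
      simpa using congrArg Subtype.val (orderOf_eq_one_iff.1 h1)
    set sb := Ideal.Quotient.mk m s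
    have hsb : sb ≠ 0 := (hs.map (Ideal.Quotient.mk m)).ne_zero
    obtain ⟨c, hc0, hc⟩ : ∃ c : k, c ≠ 0 ∧ algebraMap k (R ⧸ m) c * sb ≠ -4 := by
      by_cases h : sb = -4
      · refine ⟨-1, by simp, fun e => hsb ?_⟩
        rw [map_neg, map_one] at e
        exact (mul_eq_zero.1 (show (2 : R ⧸ m) * sb = 0 by linear_combination h - e)).resolve_left (hF2 m)
      · exact ⟨1, one_ne_zero, by simpa using h⟩
    set x := uR (algebraMap k R c) * lR s with hx
    have hxH : x ∈ gens k s := mul_mem (uR_mem_gens s c) (by simpa using lR_mem_gens s (1 : k))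
    set t := 2 + algebraMap k R c * s with ht
    have hxt : x.1 0 0 + x.1 1 1 = t := by
      rw [hx, mul_e, mul_e]; simp [ht]; ring
    have htr : CfsgLib.SL2.tr (red m x) = Ideal.Quotient.mk m t := by
      rw [CfsgLib.SL2.tr, red_apply, red_apply, ← map_add, hxt]
    have h4 : CfsgLib.SL2.tr (red m x) ^ 2 ≠ 4 := by
      rw [htr]
      intro e
      have e' : algebraMap k (R ⧸ m) c * sb * (algebraMap k (R ⧸ m) c * sb + 4) = 0 := by
        have : Ideal.Quotient.mk m t = 2 + algebraMap k (R ⧸ m) c * sb := by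
          rw [ht, map_add, map_mul, map_ofNat]; rfl
        rw [this] at e; linear_combination e
      rcases mul_eq_zero.1 e' with h | h
      · rcases mul_eq_zero.1 h with h | h
        · exact hc0 ((algebraMap k (R ⧸ m)).injective (by rw [h, map_zero]))
        · exact hsb h
      · exact hc (eq_neg_of_add_eq_zero_left h)
    have : Finite (R ⧸ m) := Finite.of_surjective _ Ideal.Quotient.mk_surjective
    have := Fintype.ofFinite (R ⧸ m)
    have hinj : ∀ g ∈ gens k s, red m g = 1 → g = 1 := fun g hg he => by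
      have : g ∈ KH := ⟨hg, he⟩
      rwa [hKH1, Subgroup.mem_bot] at this
    obtain ⟨N, hN1, hN⟩ : ∃ N, Nat.Coprime (Nat.card k) N ∧ x ^ N = 1 := by
      obtain ⟨a, -, ha⟩ := FiniteField.card k p
      obtain ⟨b, -, hb⟩ := FiniteField.card (R ⧸ m) p
      rw [← Nat.card_eq_fintype_card] at ha hb
      have hpq : p ∣ Nat.card (R ⧸ m) := hb ▸ dvd_pow_self p b.pos.ne'
      have hq1 : 1 ≤ Nat.card (R ⧸ m) := Nat.card_pos
      have key : ∀ N, ¬ p ∣ N → red m x ^ N = 1 → ∃ N, Nat.Coprime (Nat.card k) N ∧ x ^ N = 1 := fun N h1 h2 =>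
        ⟨N, ha ▸ ((hpf.out.coprime_iff_not_dvd).2 h1).pow_left _, hinj _ (pow_mem hxH N) (by rw [map_pow, h2])⟩
      rcases CfsgLib.SL2.type_cases (g := red m x) with h | ⟨-, r, hr⟩ | ⟨-, hell⟩
      · exfalso; apply h4; rcases h with h | h <;> rw [h] <;> norm_num
      · refine key _ (fun h => ?_) (CfsgLib.SL2.pow_split h4 hr)
        have := Nat.dvd_sub hpq h
        rw [Nat.sub_sub_self hq1] at this
        exact hpf.out.not_dvd_one this
      · refine key _ (fun h => ?_) (CfsgLib.SL2.pow_elliptic hell)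
        exact hpf.out.not_dvd_one ((Nat.dvd_add_right hpq).1 h)
    set e := Nat.totient N
    have hN0 : 0 < N := by
      rcases Nat.eq_zero_or_pos N with h | h
      · rw [h, Nat.coprime_zero_right] at hN1; omega
      · exact h
    have he0 : 0 < e := Nat.totient_pos.2 hN0
    set Q := Nat.card k ^ e with hQ
    obtain ⟨a, -, ha⟩ := FiniteField.card k p
    rw [← Nat.card_eq_fintype_card] at ha
    have hQp : Q = p ^ ((a : ℕ) * e) := by rw [hQ, ha, pow_mul]
    have hxQ : x ^ Q = x := by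
      obtain ⟨q, hq⟩ : N ∣ Q - 1 :=
        (Nat.modEq_iff_dvd' (Nat.one_le_pow _ _ (by omega))).1 (Nat.ModEq.pow_totient hN1).symm
      have hQ1 : Q = N * q + 1 := by
        have : 1 ≤ Q := Nat.one_le_pow _ _ (by omega)
        omega
      rw [hQ1, pow_succ, pow_mul, hN, one_pow, one_mul]
    have hcQ : ∀ c : k, algebraMap k R c ^ Q = algebraMap k R c := fun c => by
      rw [← map_pow, hQ, Nat.card_eq_fintype_card, FiniteField.pow_card_pow]
    have hsum : (x : Matrix (Fin 2) (Fin 2) R) + ((x⁻¹ : SpecialLinearGroup (Fin 2) R) : Matrix (Fin 2) (Fin 2) R) =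
        t • (1 : Matrix (Fin 2) (Fin 2) R) := by
      show x.1 + adjugate x.1 = _
      rw [adjugate_fin_two]
      ext i j
      fin_cases i <;> fin_cases j <;> simp [← hxt, add_comm]
    have hcomm : Commute (x : Matrix (Fin 2) (Fin 2) R) ((x⁻¹ : SpecialLinearGroup (Fin 2) R) : Matrix (Fin 2) (Fin 2) R) :=
      congrArg Subtype.val ((mul_inv_cancel x).trans (inv_mul_cancel x).symm)
    have : ExpChar R p := ExpChar.prime hpf.out
    have : CharP (Matrix (Fin 2) (Fin 2) R) p := inferInstance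
    have : ExpChar (Matrix (Fin 2) (Fin 2) R) p := ExpChar.prime hpf.out
    have htQ : t ^ Q = t := by
      have h1 := add_pow_expChar_pow_of_commute p ((a : ℕ) * e) hcomm
      have hp1 : (x : Matrix (Fin 2) (Fin 2) R) ^ Q = (x : Matrix (Fin 2) (Fin 2) R) :=
        (Matrix.SpecialLinearGroup.coe_pow x Q).symm.trans (congrArg Subtype.val hxQ)
      have hp2 : ((x⁻¹ : SpecialLinearGroup (Fin 2) R) : Matrix (Fin 2) (Fin 2) R) ^ Q =
          ((x⁻¹ : SpecialLinearGroup (Fin 2) R) : Matrix (Fin 2) (Fin 2) R) :=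
        (Matrix.SpecialLinearGroup.coe_pow x⁻¹ Q).symm.trans (congrArg Subtype.val (by rw [inv_pow, hxQ]))
      rw [← hQp, hsum, smul_pow, one_pow, hp1, hp2, hsum] at h1
      simpa using congrArg (fun M : Matrix (Fin 2) (Fin 2) R => M 0 0) h1
    have hfrob : ∀ u v : R, (u + v) ^ Q = u ^ Q + v ^ Q := fun u v => by rw [hQp]; exact add_pow_expChar_pow u v _ _
    have hsQ : s ^ Q = s := by
      have h2' : (2 : R) ^ Q = 2 := by simpa only [map_ofNat] using hcQ 2
      rw [ht, hfrob, mul_pow, h2', hcQ, add_right_inj] at htQ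
      exact ((Ne.isUnit hc0).map (algebraMap k R)).mul_left_cancel htQ
    have hall : ∀ z : R, z ^ Q = z := fun z => by
      have : z ∈ Algebra.adjoin k {s} := hgen ▸ Algebra.mem_top
      induction this using Algebra.adjoin_induction with
      | mem z hz => rw [Set.mem_singleton_iff.1 hz]; exact hsQ
      | algebraMap c => exact hcQ c
      | add u v _ _ hu hv => rw [hfrob, hu, hv]
      | mul u v _ _ hu hv => rw [mul_pow, hu, hv]
    have : IsReduced R := ⟨fun z ⟨i, hi⟩ => by
      have hiter : ∀ j, z ^ Q ^ j = z := fun j => by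
        induction j with
        | zero => simp
        | succ j ih => rw [pow_succ, pow_mul, ih, hall]
      have hQ2 : 1 < Q := Nat.one_lt_pow he0.ne' (by omega)
      rw [← hiter i]
      exact pow_eq_zero_of_le (Nat.lt_pow_self hQ2).le hi⟩
    exact hnf (IsArtinianRing.isField_of_isReduced_of_isLocalRing R)
  push Not at huniq
  obtain ⟨j, hj, hjm⟩ := huniq
  let : Field (R ⧸ m) := Ideal.Quotient.field m
  let : Field (R ⧸ j) := Ideal.Quotient.field j
  have : CharP (R ⧸ m) p := (RingHom.charP_iff _ (algebraMap k (R ⧸ m)).injective p).1 hpk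
  set X := (gens k s).map ((red m).prod (red j))
  obtain ⟨θ, hθ⟩ := graph_hom (k := k) (p := p) hp (hF2 j) (hF2 m) X
    (fun g => by
      obtain ⟨g', hg', rfl⟩ : g ∈ (lcsIn (gens k s) 0).map (red m) := by
        rw [red_gens_top h2 h3 hs hgen m 0]; trivial
      exact ⟨_, ⟨g', hg', rfl⟩⟩)
    (fun b => by
      rintro ⟨g, hg, he⟩
      rw [MonoidHom.prod_apply, Prod.mk.injEq] at he
      rw [← he.2]
      exact hcent j KH hKHnorm hKHd g ⟨hg, he.1⟩)
    (fun c => ⟨_, uR_mem_gens s c, by simp [red_uR]⟩)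
    (s₁ := Ideal.Quotient.mk m s) (s₂ := Ideal.Quotient.mk j s)
    ⟨lR s, by simpa using lR_mem_gens s (1 : k), by simp [red_lR]⟩
    (hs.map (Ideal.Quotient.mk m)).ne_zero
  have hall : θ.comp (Ideal.Quotient.mkₐ k m) = Ideal.Quotient.mkₐ k j :=
    AlgHom.ext_of_adjoin_eq_top hgen (by rintro _ rfl; simpa using hθ)
  have hle : m ≤ j := fun z hz => by
    rw [← Ideal.Quotient.eq_zero_iff_mem] at hz ⊢
    have := AlgHom.congr_fun hall z
    simp only [AlgHom.comp_apply, Ideal.Quotient.mkₐ_eq_mk] at this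
    rw [← this, hz, map_zero]
  exact hjm (hm.eq_of_le hj.ne_top hle).symm

end Finite

/-- The iterated commutators contain a whole scaled family `u(k r)`, `r ≠ 0`, with `r` a non-unit unless `R` is a
field. -/
theorem exists_family [Module.Finite k R] [Nontrivial R] (h2 : (2 : k) ≠ 0) (h3 : Nat.card k ≠ 3) {s : R}
    (hs : IsUnit s) (hgen : Algebra.adjoin k {s} = ⊤) (n : ℕ) :
    ∃ r, r ≠ 0 ∧ (IsUnit r → IsField R) ∧ ∀ c : k, uR (algebraMap k R c * r) ∈ lcsIn (gens k s) n := by
  by_cases hf : IsField R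
  · let : Field R := hf.toField
    refine ⟨1, one_ne_zero, fun _ => hf, fun c => ?_⟩
    rw [lcsIn_gens_field h2 h3 hs.ne_zero hgen]
    trivial
  rcases finite_or_infinite k with hk | hk
  · obtain ⟨r, h1, h2', h3'⟩ := exists_uR_finite h2 h3 hs hgen hf n
    exact ⟨r, h1, fun h => absurd h h2', fun c => smul_mem_lcsIn h3' c⟩
  · obtain ⟨r, hr0, hru⟩ : ∃ r : R, r ≠ 0 ∧ ¬ IsUnit r := by
      by_contra hne
      push Not at hne
      exact hf ⟨exists_pair_ne R, mul_comm, fun {a} ha => (hne a ha).exists_right_inv⟩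
    exact ⟨r, hr0, fun h => absurd h hru, fun c =>
      smul_mem_lcsIn (uR_mem_lcsIn_of_uR h2 h3 hs (uR_mem_of_infinite h2 s hgen) n r) c⟩

end CfsgLib.QuadPair
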