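import Cfsg.Agent.QuadPair.Corner
import Cfsg.Agent.QuadPair.RingMain

/-!
A non-unipotent pair of minimal quadratic elements: `R = k[s]` is a field, `a`, `b` live on the corner and the
group they generate is the image of `SL₂(R)`.
-/

set_option autoImplicit false
universe u

open Cfsg Matrix
open scoped commutatorElement

namespace CfsgLib.QuadPair

variable {k : Type u} [Field k] {M : Type u} [AddCommGroup M] [Module k M]
variable {R : Type u} [CommRing R] [Algebra k R] {a b : Module.End k M}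

/-- The units commuting with `e`. -/
def commGrp (e : Module.End k M) : Subgroup (LinearMap.GeneralLinearGroup k M) where
  carrier := {g | Commute (g : Module.End k M) e}
  one_mem' := Commute.one_left e
  mul_mem' {g h} hg hh := by
    show Commute ((g * h : LinearMap.GeneralLinearGroup k M) : Module.End k M) e
    rw [Units.val_mul]
    exact Commute.mul_left hg hh
  inv_mem' {g} hg := Commute.units_inv_left hg

namespace Corner

variable (C : Corner a b R)

/-- The restriction to the kernel of `e`, extended by `1`. -/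
def resVal (g : LinearMap.GeneralLinearGroup k M) : Module.End k M := (g : Module.End k M) * (1 - C.e) + C.e

lemma resVal_mul {g h : LinearMap.GeneralLinearGroup k M} (hh : Commute (h : Module.End k M) C.e) :
    C.resVal (g * h) = C.resVal g * C.resVal h := by
  have e1 : (1 - C.e) * C.e = 0 := by rw [sub_mul, one_mul, C.e_mul_e, sub_self]
  have e2 : C.e * ((h : Module.End k M) * (1 - C.e)) = 0 := by
    rw [← mul_assoc, ← hh.eq, mul_assoc, mul_sub, mul_one, C.e_mul_e, sub_self, mul_zero]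
  have e3 : (1 - C.e) * ((h : Module.End k M) * (1 - C.e)) = (h : Module.End k M) * (1 - C.e) := by
    rw [sub_mul, one_mul, e2, sub_zero]
  rw [resVal, resVal, resVal, Units.val_mul, add_mul, mul_add, mul_add, mul_assoc _ (1 - C.e) ((h : Module.End k M) * _),
    e3, mul_assoc _ (1 - C.e) C.e, e1, mul_zero, e2, C.e_mul_e, add_zero, zero_add, mul_assoc]

/-- The restriction to the kernel of `e` as a homomorphism. -/
noncomputable def res : commGrp C.e →* LinearMap.GeneralLinearGroup k M :=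
  MonoidHom.toHomUnits
    { toFun := fun g => C.resVal g.1
      map_one' := by simp [resVal]
      map_mul' := fun g h => C.resVal_mul h.2 }

lemma dl_res (g : commGrp C.e) : dl (C.res g) = dl g.1 * (1 - C.e) := by
  show C.resVal g.1 - 1 = _
  rw [resVal, dl]; noncomm_ring

theorem exists_exact_all :
    ∃ n, ∀ x ∈ lcsIn (gens k C.sR) n, ∃ g ∈ pairGrp a b, (g : Module.End k M) = C.Φ x.1 := by
  set a0 := a * (1 - C.e)
  set b0 := b * (1 - C.e)
  have hidem : (1 - C.e) * (1 - C.e) = 1 - C.e := by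
    rw [mul_sub, mul_one, sub_mul, one_mul, C.e_mul_e, sub_self, sub_zero]
  have hca : Commute (1 - C.e) a := (Commute.one_left a).sub_left C.comm_e_a
  have hcb : Commute (1 - C.e) b := (Commute.one_left b).sub_left C.comm_e_b
  have hprod : ∀ x y : Module.End k M, Commute (1 - C.e) y → x * (1 - C.e) * (y * (1 - C.e)) = x * y * (1 - C.e) :=
    fun x y hy => by
      rw [mul_assoc, ← mul_assoc (1 - C.e) y, hy.eq, mul_assoc y, hidem, mul_assoc]
  have ha0 : a0 * a0 = 0 := by rw [hprod a a hca, C.sq_a, zero_mul]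
  have hb0 : b0 * b0 = 0 := by rw [hprod b b hcb, C.sq_b, zero_mul]
  have hs0 : IsNilpotent (a0 * b0 + b0 * a0) := by
    rw [hprod a b hcb, hprod b a hca, ← add_mul]; exact C.nilp
  obtain ⟨n, hn⟩ := exists_pw_eq_bot ha0 hb0 hs0
  refine ⟨n, fun x hx => ?_⟩
  -- the pairs
  set K : Subgroup (SpecialLinearGroup (Fin 2) R × commGrp C.e) :=
    Subgroup.closure ({p | ∃ t : k, p.1 = uR (algebraMap k R t) ∧ dl p.2.1 = t • a} ∪
      {p | ∃ t : k, p.1 = lR (algebraMap k R t * C.sR) ∧ dl p.2.1 = t • b})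
  have hfst : gens k C.sR ≤ K.map (MonoidHom.fst _ _) := by
    rw [gens, Subgroup.closure_le]
    rintro _ (⟨t, rfl⟩ | ⟨t, rfl⟩)
    · refine ⟨(uR (algebraMap k R t), ⟨one_add (t • a) (smul_sq C.sq_a t), ?_⟩),
        Subgroup.subset_closure (Or.inl ⟨t, rfl, dl_one_add (smul_sq C.sq_a t)⟩), rfl⟩
      exact ((Commute.one_left C.e).add_left ((C.comm_e_a.symm).smul_left t))
    · refine ⟨(lR (algebraMap k R t * C.sR), ⟨one_add (t • b) (smul_sq C.sq_b t), ?_⟩),
        Subgroup.subset_closure (Or.inr ⟨t, rfl, dl_one_add (smul_sq C.sq_b t)⟩), rfl⟩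
      exact ((Commute.one_left C.e).add_left ((C.comm_e_b.symm).smul_left t))
  have hrel : ∀ p ∈ K, (p.2.1 : Module.End k M) * C.e = C.Φ p.1.1 * C.e ∧ p.2.1 ∈ pairGrp a b := by
    intro p hp
    have hΦe : ∀ g : Matrix (Fin 2) (Fin 2) R, Commute (C.Φ g) C.e := fun g => by
      have hψ : ∀ (x : R) (P : Module.End k M), Commute P C.e → Commute (C.ψ x * P) C.e := fun x P hP =>
        (show Commute (C.ψ x) C.e by rw [← C.map_one, commute_iff_eq, ← C.map_mul, ← C.map_mul, mul_comm]).mul_left hP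
      have hab := C.comm_e_a.symm
      have hbb := C.comm_e_b.symm
      exact ((Commute.one_left C.e).sub_left (Commute.refl C.e)).add_left
        ((((hψ _ _ (hab.mul_left hbb)).add_left (hψ _ _ hab)).add_left (hψ _ _ hbb)).add_left (hψ _ _ (hbb.mul_left hab)))
    induction hp using Subgroup.closure_induction with
    | mem p hp =>
      rcases hp with ⟨t, h1, h2⟩ | ⟨t, h1, h2⟩
      · refine ⟨?_, Subgroup.subset_closure (Or.inl ⟨t, h2⟩)⟩
        rw [val_eq, h2, h1, C.Φ_uR, add_mul, add_mul, mul_assoc, ← C.comm_e_a.eq, ← mul_assoc, C.psi_mul_e,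
          smul_mul_assoc, ← C.comm_e_a.eq, Algebra.algebraMap_eq_smul_one, map_smul, C.map_one, smul_mul_assoc]
      · refine ⟨?_, Subgroup.subset_closure (Or.inr ⟨t, h2⟩)⟩
        rw [val_eq, h2, h1, C.Φ_lR, add_mul, add_mul, mul_assoc (algebraMap k R t), mul_comm C.sR, C.v_mul, mul_one,
          mul_assoc, ← C.comm_e_b.eq, ← mul_assoc, C.psi_mul_e,
          smul_mul_assoc, ← C.comm_e_b.eq, Algebra.algebraMap_eq_smul_one, map_smul, C.map_one, smul_mul_assoc]
    | one => exact ⟨by simp [C.Φ_one], one_mem _⟩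
    | mul x y _ _ hx hy =>
      refine ⟨?_, mul_mem hx.2 hy.2⟩
      show ((x.2.1 : Module.End k M) * (y.2.1 : Module.End k M)) * C.e = C.Φ (x.1.1 * y.1.1) * C.e
      rw [← C.Φ_mul, mul_assoc, hy.1, (hΦe _).eq, ← mul_assoc, hx.1, mul_assoc, ← (hΦe _).eq, ← mul_assoc]
    | inv x _ hx =>
      refine ⟨?_, inv_mem hx.2⟩
      show (((x.2.1)⁻¹ : LinearMap.GeneralLinearGroup k M) : Module.End k M) * C.e = C.Φ (x.1⁻¹).1 * C.e
      have h1 : C.Φ (x.1⁻¹).1 * C.Φ x.1.1 = 1 := by
        rw [C.Φ_mul]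
        exact (congrArg C.Φ (congrArg Subtype.val (inv_mul_cancel x.1))).trans C.Φ_one
      have hxe : Commute (x.2.1 : Module.End k M) C.e := x.2.2
      calc (((x.2.1)⁻¹ : LinearMap.GeneralLinearGroup k M) : Module.End k M) * C.e
          = (C.Φ (x.1⁻¹).1 * C.Φ x.1.1) * C.e * (((x.2.1)⁻¹ : LinearMap.GeneralLinearGroup k M) : Module.End k M) := by
            rw [h1, one_mul, (hxe.units_inv_left).eq]
        _ = C.Φ (x.1⁻¹).1 * ((x.2.1 : Module.End k M) * C.e) * (((x.2.1)⁻¹ : LinearMap.GeneralLinearGroup k M) : Module.End k M) := by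
            rw [mul_assoc (C.Φ (x.1⁻¹).1) (C.Φ x.1.1), hx.1]
        _ = C.Φ (x.1⁻¹).1 * C.e := by rw [hxe.eq, mul_assoc, mul_assoc, Units.mul_inv, mul_one]
  -- unipotence on the kernel of `e`
  have hpw : ∀ i, lcsIn (K.map (C.res.comp (MonoidHom.snd _ _))) i ≤
      grp (pw a0 b0 1) ((pw_mul a0 b0 1 1).trans (pw_anti a0 b0 one_le_two)) (pw_one_nilpotent ha0 hb0 hs0) ∧
      ∀ g ∈ lcsIn (K.map (C.res.comp (MonoidHom.snd _ _))) i, dl g ∈ pw a0 b0 (i + 1) := by
    have hbase : K.map (C.res.comp (MonoidHom.snd _ _)) ≤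
        grp (pw a0 b0 1) ((pw_mul a0 b0 1 1).trans (pw_anti a0 b0 one_le_two)) (pw_one_nilpotent ha0 hb0 hs0) := by
      rw [MonoidHom.map_closure, Subgroup.closure_le]
      rintro _ ⟨p, (⟨t, -, h⟩ | ⟨t, -, h⟩), rfl⟩ <;> rw [SetLike.mem_coe, mem_grp, MonoidHom.comp_apply, C.dl_res] <;>
        show dl p.2.1 * _ ∈ _ <;> rw [h, smul_mul_assoc]
      · exact Submodule.smul_mem _ t (mem_pw_one_left a0 b0)
      · exact Submodule.smul_mem _ t (mem_pw_one_right a0 b0)
    intro i
    refine ⟨(lcsIn_le _ i).trans hbase, ?_⟩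
    induction i with
    | zero => exact fun g hg => hbase hg
    | succ i ih =>
      intro g hg
      have hnil : ∃ m, pw a0 b0 (i + 1 + 1) ^ m = ⊥ :=
        ⟨_, le_bot_iff.1 ((pow_le_pow_of_le (pw_anti a0 b0 (by omega)) _).trans (pw_one_nilpotent ha0 hb0 hs0).choose_spec.le)⟩
      have hle : lcsIn (K.map (C.res.comp (MonoidHom.snd _ _))) (i + 1) ≤
          grp (pw a0 b0 (i + 1 + 1)) ((pw_mul _ _ _ _).trans (pw_anti a0 b0 (by omega))) hnil := by
        refine Subgroup.commutator_le.2 fun x hx y hy => ?_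
        have hxy : dl (x⁻¹ * y⁻¹) ∈ pw a0 b0 1 :=
          mul_mem (inv_mem (hbase (lcsIn_le _ i hx))) (inv_mem (hbase hy))
        rw [mem_grp, commutatorElement_def]
        have e : dl (x * y * x⁻¹ * y⁻¹) = (dl x * dl y - dl y * dl x) * (1 + dl (x⁻¹ * y⁻¹)) := by
          rw [← val_eq, sub_mul, dl, Units.val_mul, Units.val_mul]
          rw [show dl x * dl y * ((x⁻¹ * y⁻¹ : LinearMap.GeneralLinearGroup k M) : Module.End k M) -
              dl y * dl x * ((x⁻¹ * y⁻¹ : LinearMap.GeneralLinearGroup k M) : Module.End k M) =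
            ((x : Module.End k M) * y - y * x) * ((x⁻¹ * y⁻¹ : LinearMap.GeneralLinearGroup k M) : Module.End k M) by
              rw [dl, dl]; noncomm_ring]
          rw [sub_mul, Units.val_mul]
          (congr 1; simp [mul_assoc])
        rw [e, mul_add, mul_one]
        have hxm := ih x hx
        have hym : dl y ∈ pw a0 b0 1 := hbase hy
        have h1 : dl x * dl y - dl y * dl x ∈ pw a0 b0 (i + 1 + 1) := sub_mem
          (pw_mul _ _ _ _ (Submodule.mul_mem_mul hxm hym))
          (pw_anti a0 b0 (by omega) (pw_mul _ _ _ _ (Submodule.mul_mem_mul hym hxm)))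
        exact add_mem h1 (pw_anti a0 b0 (by omega) (pw_mul _ _ _ _ (Submodule.mul_mem_mul h1 hxy)))
      exact hle hg
  obtain ⟨p, hp, hpr⟩ : ∃ p ∈ lcsIn K n, p.1 = x := by
    have := lcsIn_mono hfst n hx
    rw [← lcsIn_map] at this
    exact this
  obtain ⟨he, hg⟩ := hrel p (lcsIn_le K n hp)
  refine ⟨p.2.1, hg, ?_⟩
  have h0 : dl p.2.1 * (1 - C.e) = 0 := by
    have := (hpw n).2 (C.res p.2) (by rw [← lcsIn_map]; exact ⟨p, hp, rfl⟩)
    rw [C.dl_res] at this
    exact (Submodule.mem_bot k).1 (hn ▸ pw_anti a0 b0 n.le_succ this)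
  have hout : C.Φ x.1 * (1 - C.e) = 1 - C.e := by
    have hP : ∀ {P : Module.End k M}, (P = a ∨ P = b ∨ P = a * b ∨ P = b * a) → ∀ y, C.ψ y * P * (1 - C.e) = 0 :=
      fun {P} hP y => by
        have : Commute C.e P := C.map_one ▸ C.comm_mul hP 1
        rw [mul_sub, mul_one, mul_assoc, ← this.eq, ← mul_assoc, C.psi_mul_e, sub_self]
    simp only [Corner.Φ, add_mul, hidem, hP, true_or, or_true, add_zero]
  have hone : ∀ z : Module.End k M, z = z * C.e + z * (1 - C.e) := fun z => by rw [← mul_add, add_sub_cancel, mul_one]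
  rw [hone (p.2.1 : Module.End k M), he, hpr]
  conv_rhs => rw [hone (C.Φ x.1), hout]
  congr 1
  rw [val_eq, add_mul, one_mul, h0, add_zero]

variable [Module.Finite k R] [Nontrivial R]

theorem exists_exact (h2 : (2 : k) ≠ 0) (h3 : Nat.card k ≠ 3) :
    ∃ r : R, r ≠ 0 ∧ (IsUnit r → IsField R) ∧
      ∀ c : k, ∃ g ∈ pairGrp a b, dl g = c • (C.ψ r * a) := by
  obtain ⟨n, hn⟩ := C.exists_exact_all
  obtain ⟨r, hr0, hru, hr⟩ := exists_family h2 h3 C.isUnit_sR C.gen n
  refine ⟨r, hr0, hru, fun c => ?_⟩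
  obtain ⟨g, hg, e⟩ := hn _ (hr c)
  refine ⟨g, hg, ?_⟩
  rw [dl, e, C.Φ_uR, add_sub_cancel_left, ← Algebra.smul_def, map_smul, smul_mul_assoc]

/-- When `R` is a field the whole image of `SL₂(R)` lies in the group of the pair. -/
theorem exists_mem_of_isField (h2 : (2 : k) ≠ 0) (h3 : Nat.card k ≠ 3) (hf : IsField R)
    (x : SpecialLinearGroup (Fin 2) R) : ∃ g ∈ pairGrp a b, (g : Module.End k M) = C.Φ x.1 := by
  obtain ⟨n, hn⟩ := C.exists_exact_all
  let : Field R := hf.toField
  exact hn x (by rw [lcsIn_gens_field h2 h3 C.isUnit_sR.ne_zero C.gen]; trivial)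

variable [FiniteDimensional k M] {G : Subgroup (LinearMap.GeneralLinearGroup k M)}

/-- For minimal elements `R` is a field and `a` lives on the corner. -/
theorem isField_and_e_mul (h2 : (2 : k) ≠ 0) (h3 : Nat.card k ≠ 3) (ha : IsMin G a) (hb : b ∈ gset G) :
    IsField R ∧ C.e * a = a := by
  obtain ⟨r, hr0, hru, hg⟩ := C.exists_exact h2 h3
  have hc : C.ψ r * a ∈ gset G := by
    refine ⟨?_, fun c => ?_⟩
    · rw [C.psi_mul_psi r r (C.comm_a r), C.sq_a, mul_zero]
    · obtain ⟨g, hg', e⟩ := hg c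
      exact ⟨g, pairGrp_le ha.mem hb hg', e⟩
  have hne : C.ψ r * a ≠ 0 := fun h => hr0 (C.eq_zero_of_psi_mul h)
  have hle : LinearMap.range (C.ψ r * a) ≤ LinearMap.range a := by
    rw [(C.comm_a r).eq]; rintro _ ⟨x, rfl⟩; exact ⟨_, rfl⟩
  have hrange := range_eq_of_le ha hc hne hle
  refine ⟨?_, ?_⟩
  · by_contra hnf
    have hnu : ¬ IsUnit r := fun h => hnf (hru h)
    have : IsArtinianRing R := isArtinian_of_tower k inferInstance
    rw [IsArtinianRing.isUnit_iff_mem_nonZeroDivisors, mem_nonZeroDivisors_iff] at hnu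
    have hex : ∃ q, r * q = 0 ∧ q ≠ 0 := by
      by_contra hne'
      push Not at hne'
      exact hnu ⟨fun q hq => hne' q hq, fun q hq => hne' q (by rwa [mul_comm])⟩
    obtain ⟨q, hq, hq0⟩ := hex
    refine hq0 (C.eq_zero_of_psi_mul (LinearMap.ext fun m => ?_))
    obtain ⟨m', hm'⟩ := (hrange.symm ▸ LinearMap.mem_range_self a m : a m ∈ LinearMap.range (C.ψ r * a))
    rw [Module.End.mul_apply, ← hm', ← Module.End.mul_apply, ← mul_assoc, ← C.map_mul, mul_comm q, hq, map_zero,
      zero_mul, LinearMap.zero_apply, LinearMap.zero_apply]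
  · refine LinearMap.ext fun m => ?_
    obtain ⟨m', hm'⟩ := (hrange.symm ▸ LinearMap.mem_range_self a m : a m ∈ LinearMap.range (C.ψ r * a))
    rw [Module.End.mul_apply, ← hm', ← Module.End.mul_apply, ← mul_assoc, C.e_mul_psi]

end Corner

/-- A non-unipotent pair of minimal elements. -/
structure SL2Pair (a b : Module.End k M) (R : Type u) [CommRing R] [Algebra k R] extends Corner a b R where
  isField : IsField R
  e_a : e * a = a
  e_b : e * b = b

/-- Exchange. -/
def SL2Pair.symm (P : SL2Pair a b R) : SL2Pair b a R where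
  toCorner := P.toCorner.symm
  isField := P.isField
  e_a := P.e_b
  e_b := P.e_a

theorem exists_sl2Pair [FiniteDimensional k M] {G : Subgroup (LinearMap.GeneralLinearGroup k M)}
    (h2 : (2 : k) ≠ 0) (h3 : Nat.card k ≠ 3) {a b : Module.End k M} (ha : IsMin G a) (hb : IsMin G b)
    (hH : ¬ IsUnipotentOn (pairGrp a b)) :
    ∃ (R : Type u) (_ : CommRing R) (_ : Algebra k R) (_ : Module.Finite k R), Nonempty (SL2Pair a b R) := by
  obtain ⟨R, _, _, _, _, ⟨C⟩⟩ := exists_corner ha.mem.1 hb.mem.1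
    (fun h => hH ((unipotent_pair_iff ha.mem.1 hb.mem.1).2 h))
  exact ⟨R, inferInstance, inferInstance, inferInstance, ⟨{
    toCorner := C
    isField := (C.isField_and_e_mul h2 h3 ha hb.mem).1
    e_a := (C.isField_and_e_mul h2 h3 ha hb.mem).2
    e_b := (C.symm.isField_and_e_mul h2 h3 hb ha.mem).2 }⟩⟩

/-- The image of `SL₂(R)` is the group generated by the pair. -/
theorem SL2Pair.range_hom [Module.Finite k R] (P : SL2Pair a b R) (h2 : (2 : k) ≠ 0) (h3 : Nat.card k ≠ 3) :
    P.toCorner.hom.range = pairGrp a b := by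
  let : Field R := P.isField.toField
  rw [MonoidHom.range_eq_map, ← gens_eq_top h2 h3 P.isUnit_sR.ne_zero P.gen, gens, MonoidHom.map_closure,
    Set.image_union, ← Set.range_comp, ← Set.range_comp, pairGrp]
  have e1 : ∀ t : k, dl (P.toCorner.hom (uR (algebraMap k R t))) = t • a := fun t => by
    rw [dl, Corner.hom_coe, P.toCorner.Φ_uR, add_sub_cancel_left, Algebra.algebraMap_eq_smul_one, map_smul,
      P.map_one, smul_mul_assoc, P.e_a]
  have e2 : ∀ t : k, dl (P.toCorner.hom (lR (algebraMap k R t * P.sR))) = t • b := fun t => by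
    rw [dl, Corner.hom_coe, P.toCorner.Φ_lR, add_sub_cancel_left, mul_assoc, mul_comm P.sR, P.toCorner.v_mul,
      mul_one, Algebra.algebraMap_eq_smul_one, map_smul, P.map_one, smul_mul_assoc, P.e_b]
  congr 2
  · ext g
    exact ⟨fun ⟨t, ht⟩ => ⟨t, ht ▸ e1 t⟩, fun ⟨t, ht⟩ => ⟨t, dl_injective ((e1 t).trans ht.symm)⟩⟩
  · ext g
    exact ⟨fun ⟨t, ht⟩ => ⟨t, ht ▸ e2 t⟩, fun ⟨t, ht⟩ => ⟨t, dl_injective ((e2 t).trans ht.symm)⟩⟩

end CfsgLib.QuadPair
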