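import Cfsg.Agent.QuadPair.PairUnip
import Cfsg.Agent.QuadPair.PairField
import Cfsg.Agent.QuadPair.Join

/-!
The classes `{b : range b ⊆ range a, ker a ⊆ ker b}`, the subgroups `E(σ)`, and how two classes can lie.
-/

set_option autoImplicit false
universe u

open Cfsg

namespace CfsgLib.QuadPair

variable {k : Type u} [Field k] {M : Type u} [AddCommGroup M] [Module k M]
variable {G : Subgroup (LinearMap.GeneralLinearGroup k M)} {a b a' b' : Module.End k M}

/-- The class of `a`: the members of `gset G` acting on the same spaces, with `0`. -/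
def cls (G : Subgroup (LinearMap.GeneralLinearGroup k M)) (a : Module.End k M) : Set (Module.End k M) :=
  {b | b ∈ gset G ∧ LinearMap.range b ≤ LinearMap.range a ∧ LinearMap.ker a ≤ LinearMap.ker b}

/-- The group `1 + cls G a`. -/
def Ecl (G : Subgroup (LinearMap.GeneralLinearGroup k M)) (a : Module.End k M) :
    Subgroup (LinearMap.GeneralLinearGroup k M) :=
  Subgroup.closure {g | dl g ∈ cls G a}

lemma mul_eq_zero_iff_le {x y : Module.End k M} : x * y = 0 ↔ LinearMap.range y ≤ LinearMap.ker x := by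
  constructor
  · rintro h _ ⟨m, rfl⟩; exact LinearMap.congr_fun h m
  · exact fun h => LinearMap.ext fun m => h ⟨m, rfl⟩

lemma self_mem_cls (ha : IsMin G a) : a ∈ cls G a := ⟨ha.mem, le_rfl, le_rfl⟩

lemma cls_mul_eq_zero (ha : a * a = 0) {x y : Module.End k M} (hx : x ∈ cls G a) (hy : y ∈ cls G a) : x * y = 0 :=
  mul_eq_zero_iff_le.2 (hy.2.1.trans ((mul_eq_zero_iff_le.1 ha).trans hx.2.2))

lemma cls_zero : (0 : Module.End k M) ∈ cls G a := ⟨gset_zero, by simp, by simp⟩

lemma cls_smul {x : Module.End k M} (hx : x ∈ cls G a) (c : k) : c • x ∈ cls G a := by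
  refine ⟨gset_smul hx.1 c, le_trans ?_ hx.2.1, fun m hm => ?_⟩
  · rintro _ ⟨m, rfl⟩; exact Submodule.smul_mem _ c ⟨m, rfl⟩
  · show c • x m = 0
    rw [LinearMap.mem_ker.1 (hx.2.2 hm), smul_zero]

lemma cls_add (ha : a * a = 0) {x y : Module.End k M} (hx : x ∈ cls G a) (hy : y ∈ cls G a) : x + y ∈ cls G a := by
  refine ⟨gset_add hx.1 hy.1 (cls_mul_eq_zero ha hx hy) (cls_mul_eq_zero ha hy hx),
    (LinearMap.range_add_le _ _).trans (sup_le hx.2.1 hy.2.1), fun m hm => ?_⟩
  rw [LinearMap.mem_ker, LinearMap.add_apply, LinearMap.mem_ker.1 (hx.2.2 hm), LinearMap.mem_ker.1 (hy.2.2 hm),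
    add_zero]

lemma mem_Ecl (ha : a * a = 0) {g : LinearMap.GeneralLinearGroup k M} : g ∈ Ecl G a ↔ dl g ∈ cls G a := by
  refine ⟨fun h => ?_, fun h => Subgroup.subset_closure h⟩
  induction h using Subgroup.closure_induction with
  | mem x hx => exact hx
  | one => rw [dl_one]; exact cls_zero
  | mul x y _ _ hx hy => rw [dl_mul, cls_mul_eq_zero ha hx hy, add_zero]; exact cls_add ha hx hy
  | inv x _ hx =>
    rw [dl_inv_of_sq (cls_mul_eq_zero ha hx hx)]
    simpa using cls_smul hx (-1)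

lemma one_add_mem_Ecl (ha : a * a = 0) {x : Module.End k M} (hx : x ∈ cls G a) :
    one_add x hx.1.1 ∈ Ecl G a := (mem_Ecl ha).2 (by rwa [dl_one_add])

lemma Ecl_le (ha : a * a = 0) : Ecl G a ≤ G := fun g hg => by
  obtain ⟨h, hh, e⟩ := ((mem_Ecl ha).1 hg).1.2 1
  exact (dl_injective (by rw [e, one_smul]) : h = g) ▸ hh

lemma cls_eq_of_eq (h1 : LinearMap.range a = LinearMap.range b) (h2 : LinearMap.ker a = LinearMap.ker b) :
    cls G a = cls G b := by rw [cls, cls, h1, h2]

lemma Ecl_eq_of_eq (h1 : LinearMap.range a = LinearMap.range b) (h2 : LinearMap.ker a = LinearMap.ker b) :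
    Ecl G a = Ecl G b := by rw [Ecl, Ecl, cls_eq_of_eq h1 h2]

variable [FiniteDimensional k M]

lemma isMin_of_mem_cls (ha : IsMin G a) {x : Module.End k M} (hx : x ∈ cls G a) (h0 : x ≠ 0) :
    IsMin G x ∧ LinearMap.range x = LinearMap.range a ∧ LinearMap.ker x = LinearMap.ker a := by
  have hr := range_eq_of_le ha hx.1 h0 hx.2.1
  refine ⟨⟨hx.1, h0, fun b hb hb0 => by rw [rk, hr]; exact ha.le b hb hb0⟩, hr, ?_⟩
  refine (Submodule.eq_of_le_of_finrank_le hx.2.2 ?_).symm
  have e1 := LinearMap.finrank_range_add_finrank_ker x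
  have e2 := LinearMap.finrank_range_add_finrank_ker a
  rw [hr] at e1
  omega

lemma Ecl_eq_of_mem (ha : IsMin G a) {x : Module.End k M} (hx : x ∈ cls G a) (h0 : x ≠ 0) :
    Ecl G x = Ecl G a :=
  Ecl_eq_of_eq (isMin_of_mem_cls ha hx h0).2.1 (isMin_of_mem_cls ha hx h0).2.2

lemma sameActionSubgroup_eq {σ : LinearMap.GeneralLinearGroup k M} (hσ : σ ∈ minimalQuadraticElements G) :
    sameActionSubgroup G σ = Ecl G (dl σ) := by
  have ha := isMin_of_minimal hσ
  apply le_antisymm
  · refine (Subgroup.closure_le _).2 fun τ hτ => Subgroup.subset_closure ?_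
    exact ⟨(mem_quadratic_iff.1 hτ.1.1).1, hτ.2.2.le, hτ.2.1.ge⟩
  · refine (Subgroup.closure_le _).2 fun τ hτ => ?_
    by_cases h0 : dl τ = 0
    · rw [dl_eq_zero.1 h0]; exact one_mem _
    obtain ⟨h1, h2, h3⟩ := isMin_of_mem_cls ha hτ h0
    exact Subgroup.subset_closure ⟨minimal_of_isMin h1, h3, h2⟩

lemma mem_roots_iff {A : Subgroup (LinearMap.GeneralLinearGroup k M)} :
    A ∈ quadraticRootSubgroups G ↔ ∃ a, IsMin G a ∧ A = Ecl G a := by
  constructor
  · rintro ⟨σ, hσ, rfl⟩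
    exact ⟨_, isMin_of_minimal hσ, sameActionSubgroup_eq hσ⟩
  · rintro ⟨a, ha, rfl⟩
    have hm : IsMin G (dl (one_add a ha.mem.1)) := by rwa [dl_one_add]
    exact ⟨_, minimal_of_isMin hm, by rw [sameActionSubgroup_eq (minimal_of_isMin hm), dl_one_add]⟩

omit [FiniteDimensional k M] in
lemma range_conj (g : LinearMap.GeneralLinearGroup k M) (a : Module.End k M) :
    LinearMap.range ((g : Module.End k M) * a * ((g⁻¹ : LinearMap.GeneralLinearGroup k M) : Module.End k M)) =
      (LinearMap.range a).map (g : Module.End k M) := by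
  ext x
  constructor
  · rintro ⟨y, rfl⟩
    exact ⟨a (((g⁻¹ : LinearMap.GeneralLinearGroup k M) : Module.End k M) y), ⟨_, rfl⟩, rfl⟩
  · rintro ⟨_, ⟨y, rfl⟩, rfl⟩
    refine ⟨(g : Module.End k M) y, ?_⟩
    show (g : Module.End k M) (a ((((g⁻¹ : LinearMap.GeneralLinearGroup k M) : Module.End k M) * (g : Module.End k M)) y)) = _
    rw [Units.inv_mul]; rfl

omit [FiniteDimensional k M] in
lemma mem_ker_conj (g : LinearMap.GeneralLinearGroup k M) (a : Module.End k M) (m : M) :
    m ∈ LinearMap.ker ((g : Module.End k M) * a * ((g⁻¹ : LinearMap.GeneralLinearGroup k M) : Module.End k M)) ↔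
      ((g⁻¹ : LinearMap.GeneralLinearGroup k M) : Module.End k M) m ∈ LinearMap.ker a :=
  ⟨fun h => (LinearMap.GeneralLinearGroup.generalLinearEquiv k M g).injective
      (h.trans ((LinearMap.GeneralLinearGroup.generalLinearEquiv k M g).map_zero).symm),
    fun h => by
      show (g : Module.End k M) (a _) = 0
      rw [LinearMap.mem_ker.1 h, map_zero]⟩

omit [FiniteDimensional k M] in
lemma conj_mem_cls {g : LinearMap.GeneralLinearGroup k M} (hg : g ∈ G) {x : Module.End k M} (hx : x ∈ cls G a) :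
    (g : Module.End k M) * x * ((g⁻¹ : LinearMap.GeneralLinearGroup k M) : Module.End k M) ∈
      cls G ((g : Module.End k M) * a * ((g⁻¹ : LinearMap.GeneralLinearGroup k M) : Module.End k M)) := by
  refine ⟨gset_conj hx.1 hg, ?_, fun m hm => ?_⟩
  · rw [range_conj, range_conj]; exact Submodule.map_mono hx.2.1
  · rw [mem_ker_conj] at hm ⊢
    exact hx.2.2 hm

omit [FiniteDimensional k M] in
lemma conjBy_Ecl {g : LinearMap.GeneralLinearGroup k M} (hg : g ∈ G) :
    conjBy (Ecl G a) g =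
      Ecl G ((g : Module.End k M) * a * ((g⁻¹ : LinearMap.GeneralLinearGroup k M) : Module.End k M)) := by
  rw [conjBy, Ecl, MonoidHom.map_closure, Ecl]
  congr 1
  ext x
  constructor
  · rintro ⟨y, hy, rfl⟩
    have h : dl (g * y * g⁻¹) ∈ cls G ((g : Module.End k M) * a * ((g⁻¹ : LinearMap.GeneralLinearGroup k M) : Module.End k M)) := by
      rw [dl_conj]; exact conj_mem_cls hg hy
    exact h
  · intro hx
    refine ⟨g⁻¹ * x * g, ?_, by simp [mul_assoc]⟩
    have h : dl (g⁻¹ * x * g⁻¹⁻¹) ∈ cls G a := by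
      have h := conj_mem_cls (a := (g : Module.End k M) * a * ((g⁻¹ : LinearMap.GeneralLinearGroup k M) : Module.End k M))
        (inv_mem hg) (hx : dl x ∈ _)
      rw [← mul_assoc, ← mul_assoc, inv_inv, Units.inv_mul, one_mul, mul_assoc a, Units.inv_mul, mul_one] at h
      rw [dl_conj, inv_inv]; exact h
    rw [inv_inv] at h
    exact h

/-- The kernel and range of `ab - ba` when it is nonzero. -/
theorem bracket_spaces (ha : IsMin G a) (hb : IsMin G b) (haba : a * b * a = 0) (hbab : b * a * b = 0)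
    (hz : a * b - b * a ≠ 0) :
    IsMin G (a * b - b * a) ∧
      LinearMap.range (a * b - b * a) =
        (LinearMap.range a ⊓ LinearMap.ker b) ⊔ (LinearMap.range b ⊓ LinearMap.ker a) ∧
      LinearMap.ker (a * b - b * a) =
        (LinearMap.ker b ⊔ LinearMap.range a) ⊓ (LinearMap.ker a ⊔ LinearMap.range b) ∧
      LinearMap.range (a * b) = LinearMap.range a ⊓ LinearMap.ker b ∧
      LinearMap.range (b * a) = LinearMap.range b ⊓ LinearMap.ker a ∧
      LinearMap.range a ⊓ LinearMap.range b = ⊥ := by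
  have hzg := bracket_mem ha.mem hb.mem haba hbab
  have hsplit : ∀ x y : Module.End k M, Module.finrank k (LinearMap.range (x * y)) +
      Module.finrank k (LinearMap.range y ⊓ LinearMap.ker x : Submodule k M) = rk y := fun x y => by
    have h := LinearMap.finrank_range_add_finrank_ker (x.domRestrict (LinearMap.range y))
    have e1 : LinearMap.range (x.domRestrict (LinearMap.range y)) = LinearMap.range (x * y) := by
      ext m
      constructor
      · rintro ⟨⟨_, u, rfl⟩, rfl⟩; exact ⟨u, rfl⟩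
      · rintro ⟨u, rfl⟩; exact ⟨⟨y u, u, rfl⟩, rfl⟩
    have e2 : (LinearMap.ker (x.domRestrict (LinearMap.range y))).map (LinearMap.range y).subtype =
        LinearMap.range y ⊓ LinearMap.ker x := by
      ext m
      constructor
      · rintro ⟨⟨m, hm⟩, h1, rfl⟩; exact ⟨hm, h1⟩
      · rintro ⟨h1, h2⟩; exact ⟨⟨m, h1⟩, h2, rfl⟩
    rw [e1] at h
    rw [rk, ← e2, Submodule.finrank_map_subtype_eq]
    exact h
  have l1 : LinearMap.range (a * b) ≤ LinearMap.range a ⊓ LinearMap.ker b :=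
    le_inf (by rintro _ ⟨m, rfl⟩; exact ⟨b m, rfl⟩) (mul_eq_zero_iff_le.1 (by rw [← mul_assoc, hbab]))
  have l2 : LinearMap.range (b * a) ≤ LinearMap.range b ⊓ LinearMap.ker a :=
    le_inf (by rintro _ ⟨m, rfl⟩; exact ⟨a m, rfl⟩) (mul_eq_zero_iff_le.1 (by rw [← mul_assoc, haba]))
  have lz : LinearMap.range (a * b - b * a) ≤ LinearMap.range (a * b) ⊔ LinearMap.range (b * a) := by
    rintro _ ⟨m, rfl⟩
    exact sub_mem (Submodule.mem_sup_left ⟨m, rfl⟩) (Submodule.mem_sup_right ⟨m, rfl⟩)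
  have hd : rk a = rk b := le_antisymm (ha.le b hb.mem hb.ne) (hb.le a ha.mem ha.ne)
  have d1 := ha.le _ hzg hz
  have d2 := Submodule.finrank_mono lz
  have d3 := Submodule.finrank_sup_add_finrank_inf_eq (LinearMap.range (a * b)) (LinearMap.range (b * a))
  have d4 := hsplit a b
  have d5 := hsplit b a
  have d6 := Submodule.finrank_mono l1
  have d7 := Submodule.finrank_mono l2
  simp only [rk] at hd d1 d4 d5
  have eab := Submodule.eq_of_le_of_finrank_le l1 (by omega)
  have eba := Submodule.eq_of_le_of_finrank_le l2 (by omega)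
  have ez := Submodule.eq_of_le_of_finrank_le lz (by omega)
  have hdisj : LinearMap.range (a * b) ⊓ LinearMap.range (b * a) = ⊥ := Submodule.finrank_eq_zero.1 (by omega)
  have hmin : IsMin G (a * b - b * a) := ⟨hzg, hz, fun c hc hc0 => by
    have := ha.le c hc hc0
    simp only [rk] at this ⊢
    omega⟩
  refine ⟨hmin, by rw [ez, eab, eba], ?_, eab, eba, ?_⟩
  · have kk : ∀ x y : Module.End k M, x * y * x = 0 → rk x = rk y →
        LinearMap.range (x * y) = LinearMap.range x ⊓ LinearMap.ker y →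
        LinearMap.ker (x * y) = LinearMap.ker y ⊔ LinearMap.range x := by
      intro x y hxyx hr he
      refine (Submodule.eq_of_le_of_finrank_le (sup_le ?_ (mul_eq_zero_iff_le.1 hxyx)) ?_).symm
      · intro m hm
        show x (y m) = 0
        rw [LinearMap.mem_ker.1 hm, map_zero]
      · have f1 := LinearMap.finrank_range_add_finrank_ker (x * y)
        have f2 := LinearMap.finrank_range_add_finrank_ker y
        have f3 := Submodule.finrank_sup_add_finrank_inf_eq (LinearMap.ker y) (LinearMap.range x)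
        rw [inf_comm (LinearMap.ker y), ← he] at f3
        simp only [rk] at hr
        omega
    rw [← kk a b haba (by simpa [rk] using hd) eab, ← kk b a hbab (by simpa [rk] using hd.symm) eba]
    refine le_antisymm (fun m hm => ?_) (fun m hm => ?_)
    · have h : a (b m) = b (a m) := sub_eq_zero.1 hm
      have h0 : a (b m) ∈ LinearMap.range (a * b) ⊓ LinearMap.range (b * a) := ⟨⟨m, rfl⟩, ⟨m, h.symm⟩⟩
      rw [hdisj, Submodule.mem_bot] at h0
      exact ⟨h0, show b (a m) = 0 by rw [← h, h0]⟩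
    · show a (b m) - b (a m) = 0
      rw [show a (b m) = 0 from hm.1, show b (a m) = 0 from hm.2, sub_zero]
  · refine le_bot_iff.1 (le_of_le_of_eq ?_ hdisj)
    rw [eab, eba]
    exact le_inf (le_inf inf_le_left (inf_le_right.trans (mul_eq_zero_iff_le.1 hb.mem.1)))
      (le_inf inf_le_right (inf_le_left.trans (mul_eq_zero_iff_le.1 ha.mem.1)))

/-- Whether a pair is unipotent is decided by the two kernels and ranges. -/
theorem nilpotent_iff (h2 : (2 : k) ≠ 0) (h3 : Nat.card k ≠ 3) (ha : IsMin G a) (hb : IsMin G b) :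
    IsNilpotent (a * b + b * a) ↔
      ¬ (LinearMap.range a ⊓ LinearMap.ker b = ⊥ ∧ LinearMap.range b ⊓ LinearMap.ker a = ⊥) := by
  constructor
  · rintro hs ⟨h, h'⟩
    have haba := aba_eq_zero h2 ha hb.mem hs
    have hbab := aba_eq_zero h2 hb ha.mem (by rwa [add_comm])
    have hab : a * b = 0 := LinearMap.range_eq_bot.1 (le_bot_iff.1 (h ▸
      le_inf (by rintro _ ⟨m, rfl⟩; exact ⟨b m, rfl⟩) (mul_eq_zero_iff_le.1 (by rw [← mul_assoc, hbab]))))
    have hba : b * a = 0 := LinearMap.range_eq_bot.1 (le_bot_iff.1 (h' ▸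
      le_inf (by rintro _ ⟨m, rfl⟩; exact ⟨a m, rfl⟩) (mul_eq_zero_iff_le.1 (by rw [← mul_assoc, haba]))))
    exact ha.ne (LinearMap.range_eq_bot.1 (le_bot_iff.1 (h ▸ le_inf le_rfl (mul_eq_zero_iff_le.1 hba))))
  · intro h
    by_contra hs
    have hH : ¬ IsUnipotentOn (pairGrp a b) := fun hu => hs ((unipotent_pair_iff ha.mem.1 hb.mem.1).1 hu)
    obtain ⟨R, _, _, _, ⟨P⟩⟩ := exists_sl2Pair h2 h3 ha hb hH
    have key : ∀ {x y : Module.End k M} (Q : SL2Pair x y R), LinearMap.range x ⊓ LinearMap.ker y = ⊥ := by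
      intro x y Q
      rw [eq_bot_iff]
      rintro m ⟨⟨u, rfl⟩, hm⟩
      rw [Submodule.mem_bot]
      have h1 : Q.ψ Q.sR * x = x * y * x := by
        have := Q.toCorner.aba 1
        rw [one_mul, Q.map_one, ← mul_assoc, ← mul_assoc, Q.e_a] at this
        exact this.symm
      have h3 : Q.ψ Q.toCorner.v * (x * y * x) = x := by
        rw [← h1, ← mul_assoc, ← Q.map_mul, Q.toCorner.v_mul, Q.map_one, Q.e_a]
      rw [← h3]
      show Q.ψ Q.toCorner.v (x (y (x u))) = 0
      rw [LinearMap.mem_ker.1 hm, map_zero, map_zero]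
    exact h ⟨key P, key P.symm⟩

lemma nilpotent_congr (h2 : (2 : k) ≠ 0) (h3 : Nat.card k ≠ 3) (ha : IsMin G a) (hb : IsMin G b)
    (ha' : a' ∈ cls G a) (ha0 : a' ≠ 0) (hb' : b' ∈ cls G b) (hb0 : b' ≠ 0) :
    IsNilpotent (a' * b' + b' * a') ↔ IsNilpotent (a * b + b * a) := by
  obtain ⟨m1, r1, k1⟩ := isMin_of_mem_cls ha ha' ha0
  obtain ⟨m2, r2, k2⟩ := isMin_of_mem_cls hb hb' hb0
  rw [nilpotent_iff h2 h3 m1 m2, nilpotent_iff h2 h3 ha hb, r1, k1, r2, k2]

/-- In a unipotent pair with nonzero bracket every bracket of the two classes is nonzero and acts alike. -/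
theorem bracket_congr (h2 : (2 : k) ≠ 0) (h3 : Nat.card k ≠ 3) (ha : IsMin G a) (hb : IsMin G b)
    (hs : IsNilpotent (a * b + b * a)) (hz : a * b - b * a ≠ 0)
    (ha' : a' ∈ cls G a) (ha0 : a' ≠ 0) (hb' : b' ∈ cls G b) (hb0 : b' ≠ 0) :
    a' * b' - b' * a' ≠ 0 ∧ LinearMap.range (a' * b' - b' * a') = LinearMap.range (a * b - b * a) ∧
      LinearMap.ker (a' * b' - b' * a') = LinearMap.ker (a * b - b * a) := by
  obtain ⟨m1, r1, k1⟩ := isMin_of_mem_cls ha ha' ha0
  obtain ⟨m2, r2, k2⟩ := isMin_of_mem_cls hb hb' hb0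
  have haba := aba_eq_zero h2 ha hb.mem hs
  have hbab := aba_eq_zero h2 hb ha.mem (by rwa [add_comm])
  obtain ⟨-, e1, e2, e3, e4, e5⟩ := bracket_spaces ha hb haba hbab hz
  have hs' := (nilpotent_congr h2 h3 ha hb ha' ha0 hb' hb0).2 hs
  have haba' := aba_eq_zero h2 m1 m2.mem hs'
  have hbab' := aba_eq_zero h2 m2 m1.mem (by rwa [add_comm])
  have hne : a' * b' - b' * a' ≠ 0 := by
    intro h0
    have hc : a' * b' = b' * a' := sub_eq_zero.1 h0
    have hba0 : b' * a' = 0 := LinearMap.range_eq_bot.1 <| le_bot_iff.1 <| e5 ▸ (by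
      refine le_inf ?_ ?_
      · rw [← hc, ← r1]; rintro _ ⟨m, rfl⟩; exact ⟨b' m, rfl⟩
      · rw [← r2]; rintro _ ⟨m, rfl⟩; exact ⟨a' m, rfl⟩)
    have hab0 : a' * b' = 0 := hc.trans hba0
    rw [mul_eq_zero_iff_le] at hab0 hba0
    rw [r1, k2] at hba0
    rw [r2, k1] at hab0
    rw [inf_eq_left.2 hba0] at e3
    rw [inf_eq_left.2 hab0] at e4
    have h4 : a * b = 0 := mul_eq_zero_iff_le.2 hab0
    rw [h4, LinearMap.range_zero] at e3
    exact ha.ne (LinearMap.range_eq_bot.1 e3.symm)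
  obtain ⟨-, f1, f2, -⟩ := bracket_spaces m1 m2 haba' hbab' hne
  exact ⟨hne, by rw [f1, e1, r1, r2, k1, k2], by rw [f2, e2, r1, r2, k1, k2]⟩

end CfsgLib.QuadPair
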