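import Cfsg.Agent.QuadPair.RankOne

/-!
`G` is generated by the classes of minimal elements and their centraliser.
-/

set_option autoImplicit false
universe u

open Cfsg

namespace CfsgLib.QuadPair

variable {k : Type u} [Field k] {M : Type u} [AddCommGroup M] [Module k M]
variable {G : Subgroup (LinearMap.GeneralLinearGroup k M)} {a b x : Module.End k M}

lemma cj_one_add {ha : a * a = 0} (x : Module.End k M) :
    cj (one_add a ha) x = x + (a * x - x * a) - a * x * a := by
  rw [cj_apply, val_eq, val_eq (one_add a ha)⁻¹, dl_inv_of_sq (by rw [dl_one_add]; exact ha), dl_one_add]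
  noncomm_ring

lemma nilpotent_of_sq (ha : a * a = 0) (hb : b * b = 0) (h : a * b * a = 0) : IsNilpotent (a * b + b * a) := by
  refine ⟨2, ?_⟩
  rw [sq]
  calc (a * b + b * a) * (a * b + b * a)
      = (a * b * a) * b + a * (b * b) * a + b * (a * a) * b + b * (a * b * a) := by noncomm_ring
    _ = 0 := by rw [h, ha, hb]; simp

lemma rk_mul_mul_le [FiniteDimensional k M] (p y q : Module.End k M) : rk (p * y * q) ≤ rk y := by
  refine le_trans (Submodule.finrank_mono ?_) (Submodule.finrank_map_le p (LinearMap.range y))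
  rintro _ ⟨m, rfl⟩
  exact ⟨y (q m), ⟨q m, rfl⟩, rfl⟩

variable [FiniteDimensional k M]

/-- When every minimal element is unipotent with `b`, the first two coefficients of the conjugates of `a` by `1 + k b`. -/
lemma coeff_mem (h2 : (2 : k) ≠ 0) (hb : b ∈ gset G)
    (hall : ∀ a, IsMin G a → IsNilpotent (a * b + b * a)) (ha : IsMin G a) :
    b * a - a * b ∈ gset G ∧ b * a * b ∈ gset G := by
  have haba : a * b * a = 0 := aba_eq_zero h2 ha hb (hall a ha)
  set u := b * a - a * b with hu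
  set l := b * a * b with hl
  have a1 : ∀ z, a * (a * z) = 0 := fun z => by rw [← mul_assoc, ha.mem.1, zero_mul]
  have b1 : ∀ z, b * (b * z) = 0 := fun z => by rw [← mul_assoc, hb.1, zero_mul]
  have a2 : a * (b * a) = 0 := by rw [← mul_assoc, haba]
  have a3 : ∀ z, a * (b * (a * z)) = 0 := fun z => by rw [← mul_assoc, ← mul_assoc, haba, zero_mul]
  have p1 : a * u = 0 ∧ u * a = 0 ∧ a * l = 0 ∧ l * a = 0 ∧ u * u = 0 ∧ u * l = 0 ∧ l * u = 0 ∧ l * l = 0 := by
    simp [hu, hl, mul_sub, sub_mul, mul_assoc, ha.mem.1, hb.1, a1, b1, a2, a3]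
  obtain ⟨au, ua, al, la, uu, ul, lu, ll⟩ := p1
  have hz : ∀ c : k, c • u - (c * c) • l ∈ gset G := fun c => by
    have hm := (isMin_cj ha (gset_mem hb c)).mem
    have e : cj (one_add (c • b) (smul_sq hb.1 c)) a = a + (c • u - (c * c) • l) := by
      rw [cj_one_add, hu, hl]
      simp only [smul_mul_assoc, mul_smul_comm]
      module
    rw [e] at hm
    have := gset_sub hm ha.mem
      (by simp [add_mul, sub_mul, smul_mul_assoc, ha.mem.1, ua, la])
      (by simp [mul_add, mul_sub, mul_smul_comm, ha.mem.1, au, al])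
    rwa [add_sub_cancel_left] at this
  have hprod : ∀ p q p' q' : k, (p • u - q • l) * (p' • u - q' • l) = 0 := fun p q p' q' => by
    simp [sub_mul, mul_sub, smul_mul_smul_comm, uu, ul, lu, ll]
  constructor
  · have := gset_smul (gset_sub (hz 1) (hz (-1)) (hprod _ _ _ _) (hprod _ _ _ _)) ((2 : k)⁻¹)
    convert this using 1
    rw [sub_sub_sub_comm, ← sub_smul, ← sub_smul, show (1 : k) - -1 = 2 by ring,
      show (1 : k) * 1 - -1 * -1 = 0 by ring, zero_smul, sub_zero, smul_smul, inv_mul_cancel₀ h2, one_smul]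
  · have := gset_smul (gset_add (hz 1) (hz (-1)) (hprod _ _ _ _) (hprod _ _ _ _)) (-(2 : k)⁻¹)
    convert this using 1
    rw [show (1 : k) • u - ((1 : k) * 1) • l + ((-1 : k) • u - (-1 * -1 : k) • l) = -((2 : k) • l) by module,
      smul_neg, neg_smul, neg_neg, smul_smul, inv_mul_cancel₀ h2, one_smul]

/-- A member of `gset` unipotent with every minimal element commutes with all of them. -/
theorem comm_of_all_nilpotent (h2 : (2 : k) ≠ 0) (hirr : IsIrreducibleFor G) (hb : b ∈ gset G)
    (hall : ∀ a, IsMin G a → IsNilpotent (a * b + b * a)) (ha : IsMin G a) : a * b = b * a := by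
  have hbab : ∀ a, IsMin G a → b * a * b = 0 := by
    intro a ha
    obtain ⟨hu, hl⟩ := coeff_mem h2 hb hall ha
    by_contra h0
    have hlmin : IsMin G (b * a * b) := ⟨hl, h0, fun c hc hc0 => (rk_mul_mul_le b a b).trans (ha.le c hc hc0)⟩
    obtain ⟨g, hg, hgl⟩ := exists_partner hirr hlmin
    have haba : a * b * a = 0 := aba_eq_zero h2 ha hb (hall a ha)
    have hτ : one_add (b * a - a * b) hu.1 ∈ G := by
      have := gset_mem hu 1
      simpa using this
    have hg' := isMin_cj hg hτ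
    have h0' : cj (one_add (b * a - a * b) hu.1) g * b * cj (one_add (b * a - a * b) hu.1) g = 0 :=
      aba_eq_zero h2 hg' hb (hall _ hg')
    have h1 : g * cj (one_add (b * a - a * b) hu.1)⁻¹ b * g = 0 := by
      have := congrArg (cj (one_add (b * a - a * b) hu.1)⁻¹) h0'
      rwa [map_mul, map_mul, cj_cj, inv_mul_cancel, cj_one, map_zero] at this
    have e : cj (one_add (b * a - a * b) hu.1)⁻¹ b = b - (2 : k) • (b * a * b) := by
      have e1 : (b * a - a * b) * b = b * a * b := by rw [sub_mul, mul_assoc a, hb.1, mul_zero, sub_zero]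
      have e2 : b * (b * a - a * b) = -(b * a * b) := by
        rw [mul_sub, ← mul_assoc, hb.1, zero_mul, zero_sub, mul_assoc]
      have e3 : (b * a - a * b) * b * (b * a - a * b) = 0 := by
        rw [e1, show b * a * b * (b * a - a * b) = b * a * (b * b) * a - b * (a * b * a) * b by noncomm_ring,
          hb.1, haba]
        simp
      rw [cj_apply, inv_inv, val_eq, dl_inv_of_sq (by rw [dl_one_add]; exact hu.1), val_eq (one_add _ hu.1), dl_one_add]
      calc (1 + -(b * a - a * b)) * b * (1 + (b * a - a * b))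
          = b - (b * a - a * b) * b + b * (b * a - a * b) - (b * a - a * b) * b * (b * a - a * b) := by noncomm_ring
        _ = _ := by rw [e1, e2, ← e1, e3, e1]; module
    rw [e, mul_sub, sub_mul, aba_eq_zero h2 hg hb (hall g hg), zero_sub, neg_eq_zero, mul_smul_comm, smul_mul_assoc,
      smul_eq_zero] at h1
    refine hgl ?_
    rw [add_comm]
    exact nilpotent_of_sq hg.mem.1 hlmin.mem.1 (h1.resolve_left h2)
  have hkill : ∀ a, IsMin G a → ∀ a', IsMin G a' → a' * (b * a - a * b) * a' = 0 := by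
    intro a ha a' ha'
    have hg := gset_mem ha.mem 1
    set g := one_add ((1 : k) • a) (smul_sq ha.mem.1 1)
    have hm := isMin_cj ha' (inv_mem hg)
    have h0 := congrArg (cj g) (aba_eq_zero h2 hm hb (hall _ hm))
    rw [map_mul, map_mul, cj_cj, mul_inv_cancel, cj_one, map_zero, cj_one_add, one_smul,
      aba_eq_zero h2 ha hb (hall a ha), sub_zero, mul_add, add_mul, aba_eq_zero h2 ha' hb (hall a' ha'), zero_add] at h0
    rw [← neg_sub, mul_neg, neg_mul, h0, neg_zero]
  set V : Set (Module.End k M) := {v | ∃ a, IsMin G a ∧ ∃ h ∈ G, v = cj h (b * a - a * b)} with hV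
  have hkillV : ∀ v ∈ V, ∀ a', IsMin G a' → a' * v * a' = 0 := by
    rintro _ ⟨a, ha, h, hh, rfl⟩ a' ha'
    have := congrArg (cj h) (hkill a ha _ (isMin_cj ha' (inv_mem hh)))
    rwa [map_mul, map_mul, cj_cj, mul_inv_cancel, cj_one, map_zero] at this
  have hVconj : ∀ x ∈ V, ∀ g ∈ G, cj g x ∈ V := by
    rintro _ ⟨a, ha, h, hh, rfl⟩ g hg
    exact ⟨a, ha, g * h, mul_mem hg hh, cj_cj g h _⟩
  have hVsq : ∀ a, IsMin G a → ∀ v ∈ V, (b * a - a * b) * v * (b * a - a * b) = 0 := by
    intro a ha v hv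
    set u := b * a - a * b with hu
    have hc : ∀ c : k, (a + c • u) * v * (a + c • u) = 0 := fun c => by
      have e : cj (one_add (c • b) (smul_sq hb.1 c)) a = a + c • u := by
        rw [cj_one_add, hu]
        simp only [smul_mul_assoc, mul_smul_comm, hbab a ha, smul_zero, sub_zero]
        module
      rw [← e]
      exact hkillV v hv _ (isMin_cj ha (gset_mem hb c))
    have h1 := hc 1
    have h1' := hc (-1)
    have h3 : (2 : k) • (u * v * u) = 0 := by
      have : (a + (1 : k) • u) * v * (a + (1 : k) • u) + (a + (-1 : k) • u) * v * (a + (-1 : k) • u) =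
          (2 : k) • (a * v * a) + (2 : k) • (u * v * u) := by
        simp only [add_mul, mul_add, smul_mul_assoc, mul_smul_comm]
        module
      rw [h1, h1', hkillV v hv a ha, smul_zero, zero_add, zero_add] at this
      exact this.symm
    exact (smul_eq_zero.1 h3).resolve_left h2
  have hVg : ∀ x ∈ V, x ∈ gset G := by
    rintro _ ⟨a, ha, h, hh, rfl⟩
    exact gset_conj (coeff_mem h2 hb hall ha).1 hh
  refine (sub_eq_zero.1 (eq_zero_of_pairwise hirr hVg hVconj ?_ (b * a - a * b)
    ⟨a, ha, 1, one_mem G, (cj_one _).symm⟩)).symm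
  rintro _ ⟨a, ha, h, hh, rfl⟩ y hy
  refine nilpotent_of_sq (gset_conj (coeff_mem h2 hb hall ha).1 hh).1 (hVg y hy).1 ?_
  have := congrArg (cj h) (hVsq a ha _ (hVconj y hy h⁻¹ (inv_mem hh)))
  rwa [map_mul, map_mul, cj_cj, mul_inv_cancel, cj_one, map_zero] at this

lemma Ecl_le_roots (ha : IsMin G a) : Ecl G a ≤ ⨆ A ∈ quadraticRootSubgroups G, A :=
  le_iSup₂ (f := fun B _ => B) (Ecl G a) (mem_roots_iff.2 ⟨a, ha, rfl⟩)

lemma roots_le : (⨆ A ∈ quadraticRootSubgroups G, A) ≤ G := iSup₂_le fun A hA => by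
  obtain ⟨a, ha, rfl⟩ := mem_roots_iff.1 hA
  exact Ecl_le ha.mem.1

/-- An element whose `g - 1` commutes with all minimal elements centralises the classes. -/
lemma mem_centralizer_roots {g : LinearMap.GeneralLinearGroup k M} (h : ∀ a, IsMin G a → dl g * a = a * dl g) :
    g ∈ Subgroup.centralizer
      ((⨆ A ∈ quadraticRootSubgroups G, A : Subgroup (LinearMap.GeneralLinearGroup k M)) : Set (LinearMap.GeneralLinearGroup k M)) := by
  have hle : (⨆ A ∈ quadraticRootSubgroups G, A) ≤ Subgroup.centralizer ({g} : Set (LinearMap.GeneralLinearGroup k M)) := by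
    refine iSup₂_le fun A hA y hy => ?_
    obtain ⟨a, ha, rfl⟩ := mem_roots_iff.1 hA
    rw [Subgroup.mem_centralizer_iff]
    rintro _ rfl
    refine commute_of_dl ?_
    rcases eq_or_ne (dl y) 0 with h0 | h0
    · rw [h0, mul_zero, zero_mul]
    · exact h _ (isMin_of_mem_cls ha ((mem_Ecl ha.mem.1).1 hy) h0).1
  rw [Subgroup.mem_centralizer_iff]
  intro y hy
  exact (Subgroup.mem_centralizer_iff.1 (hle hy) g rfl).symm

/-- Outside the all-unipotent case a minimal member splits off from `b`. -/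
theorem split_off (h2 : (2 : k) ≠ 0) (h3 : Nat.card k ≠ 3) (hb : b ∈ gset G) (ha : IsMin G a)
    (hs : ¬ IsNilpotent (a * b + b * a)) :
    ∃ b1 b0, IsMin G b1 ∧ b0 ∈ gset G ∧ b1 + b0 = b ∧ b1 * b0 = 0 ∧ rk b0 < rk b := by
  obtain ⟨R, _, _, _, _, ⟨C⟩⟩ := exists_corner ha.mem.1 hb.1 hs
  obtain ⟨hf, -⟩ := C.isField_and_e_mul h2 h3 ha hb
  set b1 := C.e * b with hb1
  have e1 : b * b1 = 0 := by rw [hb1, ← mul_assoc, ← C.comm_e_b.eq, mul_assoc, hb.1, mul_zero]
  have e2 : b1 * b = 0 := by rw [hb1, mul_assoc, hb.1, mul_zero]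
  have e3 : b1 * b1 = 0 := by rw [hb1, mul_assoc, ← hb1, e1, mul_zero]
  have hb1g : b1 ∈ gset G := by
    refine ⟨e3, fun c => ?_⟩
    obtain ⟨g, hg, eg⟩ := C.exists_mem_of_isField h2 h3 hf (lR (algebraMap k R c * C.sR))
    refine ⟨g, pairGrp_le ha.mem hb hg, ?_⟩
    rw [dl, eg, C.Φ_lR, add_sub_cancel_left, mul_assoc, mul_comm C.sR, C.v_mul, mul_one,
      Algebra.algebraMap_eq_smul_one, map_smul, C.map_one, smul_mul_assoc]
  have hb10 : b1 ≠ 0 := by
    intro h0
    have h1 : C.ψ C.sR = 0 := by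
      rw [C.map_sR, add_mul, mul_assoc, mul_assoc, ← C.comm_e_b.eq, ← C.comm_e_a.eq, ← hb1, h0, mul_zero, zero_add,
        ← mul_assoc, ← C.comm_e_b.eq, ← hb1, h0, zero_mul]
    exact C.isUnit_sR.ne_zero (C.injective (h1.trans (map_zero _).symm))
  have hb1min : IsMin G b1 := by
    refine ⟨hb1g, hb10, fun c hc hc0 => le_trans ?_ (ha.le c hc hc0)⟩
    have e : b1 = C.ψ C.v * b * a * b := by rw [mul_assoc _ b a, mul_assoc, C.bab, C.v_mul, C.map_one]
    rw [e]; exact rk_mul_mul_le _ _ _
  set b0 := b - b1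
  have hb0g : b0 ∈ gset G := gset_sub hb hb1g e1 e2
  have hrk : rk b0 < rk b := by
    have l1 : LinearMap.range b0 ⊔ LinearMap.range b1 ≤ LinearMap.range b := by
      have hb1r : LinearMap.range b1 ≤ LinearMap.range b := by
        rw [hb1, C.comm_e_b.eq]; rintro _ ⟨m, rfl⟩; exact ⟨_, rfl⟩
      refine sup_le ?_ hb1r
      rintro _ ⟨m, rfl⟩
      exact sub_mem (LinearMap.mem_range_self b m) (hb1r ⟨m, rfl⟩)
    have l2 : LinearMap.range b0 ⊓ LinearMap.range b1 = ⊥ := by
      rw [eq_bot_iff]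
      rintro m ⟨⟨u, rfl⟩, w, hw⟩
      rw [Submodule.mem_bot]
      have h1 : C.e (b0 u) = 0 := by
        show (C.e * (b - C.e * b)) u = 0
        rw [mul_sub, ← mul_assoc, C.e_mul_e, sub_self]; rfl
      have h1' : C.e (b0 u) = b0 u := by
        rw [← hw]; show (C.e * (C.e * b)) w = _
        rw [← mul_assoc, C.e_mul_e]
      rw [← h1', h1]
    have d := Submodule.finrank_sup_add_finrank_inf_eq (LinearMap.range b0) (LinearMap.range b1)
    rw [l2, finrank_bot] at d
    have dd := Submodule.finrank_mono l1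
    have dpos : 0 < rk b1 := Module.finrank_pos_iff_exists_ne_zero.2 <| by
      by_contra hno
      push Not at hno
      exact hb10 (LinearMap.ext fun m => congrArg Subtype.val (hno ⟨b1 m, m, rfl⟩))
    simp only [rk] at dpos ⊢
    omega
  exact ⟨b1, b0, hb1min, hb0g, add_sub_cancel b1 b, by rw [mul_sub, e2, e3, sub_zero], hrk⟩

/-- Every member of `gset` gives an element of `G₀ C(G₀)`. -/
theorem one_add_mem (h2 : (2 : k) ≠ 0) (h3 : Nat.card k ≠ 3) (hirr : IsIrreducibleFor G) (hb : b ∈ gset G) :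
    one_add b hb.1 ∈ (⨆ A ∈ quadraticRootSubgroups G, A) ⊔ (G ⊓ Subgroup.centralizer
      ((⨆ A ∈ quadraticRootSubgroups G, A : Subgroup (LinearMap.GeneralLinearGroup k M)) : Set (LinearMap.GeneralLinearGroup k M))) := by
  suffices ∀ n, ∀ (b : Module.End k M) (hb : b ∈ gset G), rk b = n →
      one_add b hb.1 ∈ (⨆ A ∈ quadraticRootSubgroups G, A) ⊔ (G ⊓ Subgroup.centralizer
        ((⨆ A ∈ quadraticRootSubgroups G, A : Subgroup (LinearMap.GeneralLinearGroup k M)) : Set (LinearMap.GeneralLinearGroup k M)))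
    from this _ b hb rfl
  intro n
  induction n using Nat.strong_induction_on with
  | _ n ih =>
  intro b hb hn
  by_cases hall : ∀ a, IsMin G a → IsNilpotent (a * b + b * a)
  · refine Subgroup.mem_sup_right ⟨by simpa using gset_mem hb 1, mem_centralizer_roots fun a ha => ?_⟩
    rw [dl_one_add]
    exact (comm_of_all_nilpotent h2 hirr hb hall ha).symm
  push Not at hall
  obtain ⟨a, ha, hs⟩ := hall
  obtain ⟨b1, b0, hb1min, hb0g, hsum, h10, hrk⟩ := split_off h2 h3 hb ha hs
  have he : one_add b hb.1 = one_add b1 hb1min.mem.1 * one_add b0 hb0g.1 := by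
    refine dl_injective ?_
    rw [dl_mul, dl_one_add, dl_one_add, dl_one_add, h10, add_zero, hsum]
  rw [he]
  refine mul_mem (Subgroup.mem_sup_left (Ecl_le_roots hb1min ?_)) (ih _ (hn ▸ hrk) b0 hb0g rfl)
  exact one_add_mem_Ecl hb1min.mem.1 (self_mem_cls hb1min)

end CfsgLib.QuadPair
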