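import Cfsg.Agent.QuadPair.Roots

/-!
The components of the graph of rank one pairs on `Σ`.
-/

set_option autoImplicit false
universe u

open Cfsg Matrix
open scoped commutatorElement
open CfsgLib.RootGroups (reach_symm componentOf_eq)

namespace CfsgLib.QuadPair

variable {k : Type u} [Field k] {M : Type u} [AddCommGroup M] [Module k M]
variable {G : Subgroup (LinearMap.GeneralLinearGroup k M)} {a b : Module.End k M}
variable {A B C : Subgroup (LinearMap.GeneralLinearGroup k M)}

/-- The component of `A` in the rank one graph on `Σ`. -/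
def part (G A : Subgroup (LinearMap.GeneralLinearGroup k M)) : Set (Subgroup (LinearMap.GeneralLinearGroup k M)) :=
  componentOf (FAdj (quadraticRootSubgroups G)) (quadraticRootSubgroups G) A

/-- The subgroup generated by a component. -/
def compGrp (G A : Subgroup (LinearMap.GeneralLinearGroup k M)) : Subgroup (LinearMap.GeneralLinearGroup k M) :=
  ⨆ B ∈ part G A, B

lemma self_mem_part (hA : A ∈ quadraticRootSubgroups G) : A ∈ part G A := ⟨hA, Relation.ReflTransGen.refl⟩

lemma part_eq (hA : A ∈ quadraticRootSubgroups G) (hB : B ∈ part G A) : part G B = part G A :=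
  (componentOf_eq hA hB.1 hB.2).symm

lemma le_compGrp (hB : B ∈ part G A) : B ≤ compGrp G A := le_iSup₂ (f := fun C _ => C) B hB

lemma mem_part_of_adj (hB : B ∈ part G A) (hC : C ∈ quadraticRootSubgroups G) (h : IsRankOnePair B C) :
    C ∈ part G A := ⟨hC, hB.2.tail ⟨hB.1, hC, h⟩⟩

lemma mem_part_of_part (hB : B ∈ part G A) (hC : C ∈ part G B) : C ∈ part G A := ⟨hC.1, hB.2.trans hC.2⟩

variable [FiniteDimensional k M]

/-- The classes of a pair with nonzero bracket and of the bracket share a component. -/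
lemma bracket_mem_part (h2 : (2 : k) ≠ 0) (h3 : Nat.card k ≠ 3) (hirr : IsIrreducibleFor G) (ha : IsMin G a)
    (hb : IsMin G b) (hs : IsNilpotent (a * b + b * a)) (hz : a * b - b * a ≠ 0) :
    Ecl G (a * b - b * a) ∈ part G (Ecl G a) := by
  obtain ⟨-, hzmin, -⟩ := unipotent_pair h2 h3 hirr ha hb hs hz
  obtain ⟨g, hg, h1, h1'⟩ := common_partner h2 hirr ha hb hs hz
  have hmem : ∀ {x : Module.End k M}, IsMin G x → Ecl G x ∈ quadraticRootSubgroups G := fun hx =>
    mem_roots_iff.2 ⟨_, hx, rfl⟩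
  refine mem_part_of_adj (mem_part_of_adj (self_mem_part (hmem ha)) (hmem hg) ((rankOne_iff h2 h3 ha hg).2 h1))
    (hmem hzmin) (RankOnePair_symm ((rankOne_iff h2 h3 hzmin hg).2 h1'))

/-- Members of different components commute. -/
lemma commutator_eq_bot_of_not_mem (h2 : (2 : k) ≠ 0) (h3 : Nat.card k ≠ 3) (hirr : IsIrreducibleFor G)
    (hA : A ∈ quadraticRootSubgroups G) (hB : B ∈ quadraticRootSubgroups G) (h : B ∉ part G A) :
    ⁅A, B⁆ = ⊥ := by
  obtain ⟨a, ha, rfl⟩ := mem_roots_iff.1 hA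
  obtain ⟨b, hb, rfl⟩ := mem_roots_iff.1 hB
  by_cases hs : IsNilpotent (a * b + b * a)
  swap
  · exact absurd (mem_part_of_adj (self_mem_part hA) hB ((rankOne_iff h2 h3 ha hb).2 hs)) h
  by_cases hz : a * b - b * a = 0
  · exact commutator_eq_bot h2 h3 ha hb hs hz
  refine absurd ?_ h
  have h1 := bracket_mem_part h2 h3 hirr ha hb hs hz
  have h1' := bracket_mem_part h2 h3 hirr hb ha (by rwa [add_comm]) (by rwa [← neg_sub, neg_ne_zero])
  rw [← neg_sub, Ecl_eq_of_eq (LinearMap.range_neg _) (LinearMap.ker_neg _)] at h1'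
  have h1'' := part_eq hB h1'
  rw [part_eq hA h1] at h1''
  exact h1''.symm ▸ self_mem_part hB

lemma compGrp_le (A : Subgroup (LinearMap.GeneralLinearGroup k M)) : compGrp G A ≤ G :=
  iSup₂_le fun B hB => by
    obtain ⟨b, hb, rfl⟩ := mem_roots_iff.1 hB.1
    exact Ecl_le hb.mem.1

/-- Different components commute. -/
lemma compGrp_commute (h2 : (2 : k) ≠ 0) (h3 : Nat.card k ≠ 3) (hirr : IsIrreducibleFor G)
    (hA : A ∈ quadraticRootSubgroups G) (hB : B ∈ quadraticRootSubgroups G) (h : part G A ≠ part G B) :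
    ⁅compGrp G A, compGrp G B⁆ = ⊥ := by
  rw [Subgroup.commutator_eq_bot_iff_le_centralizer]
  refine iSup₂_le fun C hC => ?_
  rw [Subgroup.le_centralizer_iff]
  refine iSup₂_le fun D hD => ?_
  rw [Subgroup.le_centralizer_iff, ← Subgroup.commutator_eq_bot_iff_le_centralizer]
  refine commutator_eq_bot_of_not_mem h2 h3 hirr hC.1 hD.1 fun hDC => h ?_
  rw [← part_eq hA hC, ← part_eq hB hD, part_eq hC.1 hDC]

/-- A component is invariant under its group. -/
lemma conjBy_mem_part {g : LinearMap.GeneralLinearGroup k M} (hA : A ∈ quadraticRootSubgroups G)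
    (hg : g ∈ compGrp G A) : ∀ B ∈ part G A, conjBy B g ∈ part G A := by
  have hstep : ∀ C ∈ part G A, ∀ x ∈ C, ∀ B ∈ part G A, conjBy B x ∈ part G A := by
    intro C hC x hx B hB
    obtain ⟨c, hc, rfl⟩ := mem_roots_iff.1 hC.1
    have hxG : x ∈ G := Ecl_le hc.mem.1 hx
    have hadj : ∀ P Q, FAdj (quadraticRootSubgroups G) P Q → FAdj (quadraticRootSubgroups G) (conjBy P x) (conjBy Q x) :=
      fun P Q h => ⟨conjBy_mem_roots h.1 hxG, conjBy_mem_roots h.2.1 hxG, CfsgLib.RankOne.isRankOnePair_conj h.2.2 x⟩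
    have h : Relation.ReflTransGen (FAdj (quadraticRootSubgroups G)) (conjBy (Ecl G c) x) (conjBy B x) :=
      Relation.ReflTransGen.lift (fun X => conjBy X x) hadj _ _ ((reach_symm hC.2).trans hB.2)
    rw [CfsgLib.RankOne.conjBy_eq_self_of_mem hx] at h
    exact ⟨conjBy_mem_roots hB.1 hxG, hC.2.trans h⟩
  rw [compGrp, iSup_subtype'] at hg
  induction hg using Subgroup.iSup_induction' with
  | hp C x hx => exact hstep C C.2 x hx
  | h1 => intro B hB; rwa [CfsgLib.RankOne.conjBy_one]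
  | hmul x y _ _ hx hy =>
    intro B hB
    rw [← CfsgLib.RankOne.conjBy_conjBy]
    exact hx _ (hy B hB)

/-- A component is one class in its group. -/
lemma part_conjugate (hA : A ∈ quadraticRootSubgroups G) (hB : B ∈ part G A) :
    ∃ g ∈ compGrp G A, B = conjBy A g := by
  suffices ∀ X, Relation.ReflTransGen (FAdj (quadraticRootSubgroups G)) A X →
      X ∈ part G A ∧ ∃ g ∈ compGrp G A, X = conjBy A g from (this B hB.2).2
  intro X hX
  induction hX with
  | refl => exact ⟨self_mem_part hA, 1, one_mem _, (CfsgLib.RankOne.conjBy_one A).symm⟩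
  | @tail Y Z _ hYZ ih =>
    obtain ⟨hY, g, hg, rfl⟩ := ih
    have hZ := mem_part_of_adj hY hYZ.2.1 hYZ.2.2
    obtain ⟨x, hx, e⟩ := CfsgLib.RankOne.right_mem_unipotent hYZ.2.2
    exact ⟨hZ, x * g, mul_mem ((sup_le (le_compGrp hY) (le_compGrp hZ)) hx) hg,
      by rw [e, CfsgLib.RankOne.conjBy_conjBy]⟩

/-- Elements of commuting classes commute as endomorphisms. -/
lemma mul_comm_of_commutator_eq_bot (ha : IsMin G a) (hb : IsMin G b) (h : ⁅Ecl G a, Ecl G b⁆ = ⊥) :
    a * b = b * a := by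
  have hm := Subgroup.commutator_mem_commutator (one_add_mem_Ecl ha.mem.1 (self_mem_cls ha))
    (one_add_mem_Ecl hb.mem.1 (self_mem_cls hb))
  rw [h, Subgroup.mem_bot, commutatorElement_eq_one_iff_mul_comm] at hm
  simpa [dl_one_add] using mul_comm_dl hm

/-- There are finitely many components. -/
theorem finite_parts (h2 : (2 : k) ≠ 0) (h3 : Nat.card k ≠ 3) (hirr : IsIrreducibleFor G) :
    Finite (part G '' quadraticRootSubgroups G : Set _) := by
  classical
  have hc : ∀ C : (part G '' quadraticRootSubgroups G : Set _), ∃ a, IsMin G a ∧ part G (Ecl G a) = C.1 := by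
    rintro ⟨_, A, hA, rfl⟩
    obtain ⟨a, ha, rfl⟩ := mem_roots_iff.1 hA
    exact ⟨a, ha, rfl⟩
  choose f hf hfp using hc
  suffices hli : LinearIndependent k f from hli.finite
  rw [linearIndependent_iff_notMem_span]
  intro C hC
  obtain ⟨g, hg, hs⟩ := exists_partner hirr (hf C)
  have hgC : Ecl G g ∈ part G (Ecl G (f C)) := mem_part_of_adj (self_mem_part (mem_roots_iff.2 ⟨_, hf C, rfl⟩))
    (mem_roots_iff.2 ⟨_, hg, rfl⟩) ((rankOne_iff h2 h3 (hf C) hg).2 hs)
  have hle : Submodule.span k (f '' (Set.univ \ {C})) ≤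
      LinearMap.ker (LinearMap.mulRight k g - LinearMap.mulLeft k g) := by
    rw [Submodule.span_le]
    rintro _ ⟨D, hD, rfl⟩
    show f D * g - g * f D = 0
    rw [sub_eq_zero]
    refine mul_comm_of_commutator_eq_bot (hf D) hg (commutator_eq_bot_of_not_mem h2 h3 hirr
      (mem_roots_iff.2 ⟨_, hf D, rfl⟩) (mem_roots_iff.2 ⟨_, hg, rfl⟩) fun hgD => hD.2 (Subtype.ext ?_))
    rw [← hfp C, ← hfp D, ← part_eq (mem_roots_iff.2 ⟨_, hf C, rfl⟩) hgC,
      part_eq (mem_roots_iff.2 ⟨_, hf D, rfl⟩) hgD]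
  exact hs (nilpotent_of_comm (hf C).mem.1 (sub_eq_zero.1 (hle hC)))

/-- A component generates a perfect group. -/
theorem le_commutator (h2 : (2 : k) ≠ 0) (h3 : Nat.card k ≠ 3) (hirr : IsIrreducibleFor G)
    (hA : A ∈ quadraticRootSubgroups G) : compGrp G A ≤ ⁅compGrp G A, compGrp G A⁆ := by
  refine iSup₂_le fun B hB α hα => ?_
  obtain ⟨b, hb, rfl⟩ := mem_roots_iff.1 hB.1
  by_cases hα1 : α = 1
  · rw [hα1]; exact one_mem _
  have hα' := (mem_Ecl hb.mem.1).1 hα
  have hα0 : dl α ≠ 0 := fun h => hα1 (dl_eq_zero.1 h)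
  have hmin := (isMin_of_mem_cls hb hα' hα0).1
  obtain ⟨g, hg, hr⟩ := exists_rankOne h2 h3 hirr hb
  rw [← Ecl_eq_of_mem hb hα' hα0] at hr hB
  obtain ⟨R, _, _, _, ⟨P⟩⟩ := exists_sl2Pair h2 h3 hmin hg
    (fun hu => (rankOne_iff h2 h3 hmin hg).1 hr ((unipotent_pair_iff hmin.mem.1 hg.mem.1).1 hu))
  set H := P.toCorner.hom.range with hH
  have hperf : ⁅H, H⁆ = H := by
    let : Field R := P.isField.toField
    rw [hH, MonoidHom.range_eq_map, ← Subgroup.map_commutator, commutator_sl2_eq_top h2 h3]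
  have hle : H ≤ compGrp G A := fun x hx => sup_le (le_compGrp hB)
    (le_compGrp (mem_part_of_adj hB (mem_roots_iff.2 ⟨_, hg, rfl⟩) hr))
    (pairGrp_le_sup hmin hg (P.range_hom h2 h3 ▸ hx))
  have eα : α = P.toCorner.hom (uR 1) := dl_injective (by rw [P.dl_uR, P.map_one, P.e_a])
  refine Subgroup.commutator_mono hle hle ?_
  rw [hperf, eα]
  exact ⟨uR 1, rfl⟩

end CfsgLib.QuadPair
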