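import Cfsg.Agent.QuadPair.GenPoly

/-!
The subgroup of `SL₂(R)` generated by the `k`-unitriangular families `u(c)`, `l(c s)`, `R = k[s]`, `k` infinite:
it contains all upper unitriangular elements.
-/

set_option autoImplicit false

open Polynomial Matrix

namespace CfsgLib.QuadPair

variable {R : Type*} [CommRing R]

/-- The upper unitriangular element. -/
def uR (r : R) : SpecialLinearGroup (Fin 2) R := ⟨!![1, r; 0, 1], by simp⟩

/-- The lower unitriangular element. -/
def lR (r : R) : SpecialLinearGroup (Fin 2) R := ⟨!![1, 0; r, 1], by simp⟩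

@[simp] lemma uR_coe (r : R) : (uR r : Matrix (Fin 2) (Fin 2) R) = !![1, r; 0, 1] := rfl
@[simp] lemma lR_coe (r : R) : (lR r : Matrix (Fin 2) (Fin 2) R) = !![1, 0; r, 1] := rfl

lemma sl2_ext {g h : SpecialLinearGroup (Fin 2) R} (h00 : g.1 0 0 = h.1 0 0) (h01 : g.1 0 1 = h.1 0 1)
    (h10 : g.1 1 0 = h.1 1 0) (h11 : g.1 1 1 = h.1 1 1) : g = h := by
  apply Subtype.ext
  ext i j
  fin_cases i <;> fin_cases j <;> assumption

lemma uR_add (r r' : R) : uR (r + r') = uR r * uR r' := by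
  apply sl2_ext <;> simp [Matrix.mul_apply, Fin.sum_univ_two, add_comm]

lemma lR_add (r r' : R) : lR (r + r') = lR r * lR r' := by
  apply sl2_ext <;> simp [Matrix.mul_apply, Fin.sum_univ_two]

lemma uR_zero : uR (0 : R) = 1 := by apply sl2_ext <;> simp

lemma lR_zero : lR (0 : R) = 1 := by apply sl2_ext <;> simp

lemma uR_injective : Function.Injective (uR : R → SpecialLinearGroup (Fin 2) R) := fun r r' h => by
  simpa using congrArg (fun g : SpecialLinearGroup (Fin 2) R => g.1 0 1) h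

/-- The conjugate of `g` by `diag(d, 1)`. -/
def diagFun (d : Rˣ) (g : SpecialLinearGroup (Fin 2) R) : SpecialLinearGroup (Fin 2) R :=
  ⟨!![g.1 0 0, d * g.1 0 1; (d⁻¹ : Rˣ) * g.1 1 0, g.1 1 1], by
    have hg : g.1 0 0 * g.1 1 1 - g.1 0 1 * g.1 1 0 = 1 := (det_fin_two g.1).symm.trans g.2
    rw [det_fin_two_of]
    calc g.1 0 0 * g.1 1 1 - (d : R) * g.1 0 1 * (((d⁻¹ : Rˣ) : R) * g.1 1 0)
        = g.1 0 0 * g.1 1 1 - ((d : R) * ((d⁻¹ : Rˣ) : R)) * (g.1 0 1 * g.1 1 0) := by ring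
      _ = 1 := by rw [Units.mul_inv, one_mul]; exact hg⟩

@[simp] lemma diagFun_coe (d : Rˣ) (g : SpecialLinearGroup (Fin 2) R) :
    (diagFun d g : Matrix (Fin 2) (Fin 2) R) = !![g.1 0 0, d * g.1 0 1; (d⁻¹ : Rˣ) * g.1 1 0, g.1 1 1] := rfl

lemma diagFun_mul (d : Rˣ) (g h : SpecialLinearGroup (Fin 2) R) :
    diagFun d (g * h) = diagFun d g * diagFun d h := by
  have e : (d : R) * ((d⁻¹ : Rˣ) : R) = 1 := Units.mul_inv d
  apply sl2_ext <;> simp [Matrix.mul_apply, Fin.sum_univ_two]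
  · linear_combination (-g.1 0 1 * h.1 1 0) * e
  · ring
  · ring
  · linear_combination (-g.1 1 0 * h.1 0 1) * e

/-- Conjugation by `diag(d, 1)`. -/
def diagConj (d : Rˣ) : SpecialLinearGroup (Fin 2) R →* SpecialLinearGroup (Fin 2) R :=
  MonoidHom.mk' (diagFun d) (diagFun_mul d)

@[simp] lemma diagConj_apply (d : Rˣ) (g : SpecialLinearGroup (Fin 2) R) : diagConj d g = diagFun d g := rfl

lemma diagConj_uR (d : Rˣ) (r : R) : diagConj d (uR r) = uR ((d : R) * r) := by
  apply sl2_ext <;> simp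

lemma diagConj_lR (d : Rˣ) (r : R) : diagConj d (lR r) = lR (((d⁻¹ : Rˣ) : R) * r) := by
  apply sl2_ext <;> simp

/-- Exchange of the two basis vectors. -/
def swapFun (g : SpecialLinearGroup (Fin 2) R) : SpecialLinearGroup (Fin 2) R :=
  ⟨!![g.1 1 1, g.1 1 0; g.1 0 1, g.1 0 0], by
    have h := g.2; rw [det_fin_two] at h; rw [det_fin_two_of]; linear_combination h⟩

@[simp] lemma swapFun_coe (g : SpecialLinearGroup (Fin 2) R) :
    (swapFun g : Matrix (Fin 2) (Fin 2) R) = !![g.1 1 1, g.1 1 0; g.1 0 1, g.1 0 0] := rfl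

/-- Exchange of the two basis vectors, as a homomorphism. -/
def swapHom : SpecialLinearGroup (Fin 2) R →* SpecialLinearGroup (Fin 2) R :=
  MonoidHom.mk' swapFun fun g h => by
    apply sl2_ext <;> simp [Matrix.mul_apply, Fin.sum_univ_two, add_comm]

@[simp] lemma swapHom_apply (g : SpecialLinearGroup (Fin 2) R) : swapHom g = swapFun g := rfl

variable {k : Type*} [Field k] [Algebra k R]

/-- The subgroup generated by `u(c)` and `l(c s)`, `c ∈ k`. -/
def gens (k : Type*) [Field k] [Algebra k R] (s : R) : Subgroup (SpecialLinearGroup (Fin 2) R) :=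
  Subgroup.closure ((Set.range fun c : k => uR (algebraMap k R c)) ∪ Set.range fun c : k => lR (algebraMap k R c * s))

lemma uR_mem_gens (s : R) (c : k) : uR (algebraMap k R c) ∈ gens k s :=
  Subgroup.subset_closure (Or.inl ⟨c, rfl⟩)

lemma lR_mem_gens (s : R) (c : k) : lR (algebraMap k R c * s) ∈ gens k s :=
  Subgroup.subset_closure (Or.inr ⟨c, rfl⟩)

lemma map_diagConj_le (s : R) (d : kˣ) :
    (gens k s).map (diagConj (Units.map (algebraMap k R).toMonoidHom d)) ≤ gens k s := by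
  conv_lhs => rw [gens]
  rw [MonoidHom.map_closure, Subgroup.closure_le]
  rintro _ ⟨_, (⟨c, rfl⟩ | ⟨c, rfl⟩), rfl⟩
  · simp only [diagConj_uR]
    convert uR_mem_gens s ((d : k) * c) using 2
    simp
  · simp only [diagConj_lR]
    convert lR_mem_gens s (((d⁻¹ : kˣ) : k) * c) using 2
    simp [mul_assoc]

/-- For a unit `s`, upper generation gives lower generation. -/
theorem lR_mem_gens_of_uR {s : R} (hs : IsUnit s) (hu : ∀ x, uR x ∈ gens k s) (x : R) : lR x ∈ gens k s := by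
  obtain ⟨u, rfl⟩ := hs
  set φ := (diagConj u⁻¹).comp (swapHom (R := R))
  have hφu : ∀ r : R, φ (uR r) = lR ((u : R) * r) := fun r => by
    apply sl2_ext <;> simp [φ]
  have hφl : ∀ r : R, φ (lR r) = uR (((u⁻¹ : Rˣ) : R) * r) := fun r => by
    apply sl2_ext <;> simp [φ]
  have hmap : (gens k (u : R)).map φ ≤ gens k (u : R) := by
    conv_lhs => rw [gens]
    rw [MonoidHom.map_closure, Subgroup.closure_le]
    rintro _ ⟨_, (⟨c, rfl⟩ | ⟨c, rfl⟩), rfl⟩
    · rw [hφu, mul_comm]; exact lR_mem_gens _ c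
    · rw [hφl, mul_comm (algebraMap k R c), ← mul_assoc, Units.inv_mul, one_mul]
      exact uR_mem_gens _ c
  have := hmap ⟨_, hu (((u⁻¹ : Rˣ) : R) * x), rfl⟩
  rwa [hφu, ← mul_assoc, Units.mul_inv, one_mul] at this

/-- The set of `r` with `u(r) ∈ gens k s`, a subspace. -/
def upperSet (k : Type*) [Field k] [Algebra k R] (s : R) : Submodule k R where
  carrier := {r | uR r ∈ gens k s}
  zero_mem' := by simp [uR_zero, one_mem]
  add_mem' {a b} ha hb := by
    show uR (a + b) ∈ gens k s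
    rw [uR_add]; exact mul_mem ha hb
  smul_mem' c r hr := by
    show uR (c • r) ∈ gens k s
    by_cases hc : c = 0
    · simp [hc, uR_zero, one_mem]
    have := map_diagConj_le s (Units.mk0 c hc) ⟨_, hr, rfl⟩
    rw [diagConj_uR] at this
    simpa [Algebra.smul_def] using this

lemma mem_upperSet {s r : R} : r ∈ upperSet k s ↔ uR r ∈ gens k s := Iff.rfl

lemma sq_mem_upperSet {s : R} {g : SpecialLinearGroup (Fin 2) R} (hg : g ∈ gens k s) (h : g.1 1 0 = 0) :
    g.1 0 0 ^ 2 ∈ upperSet k s := by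
  have e : g * uR 1 * g⁻¹ = uR (g.1 0 0 ^ 2) := by
    have hd : g.1 0 0 * g.1 1 1 - g.1 0 1 * g.1 1 0 = 1 := (det_fin_two g.1).symm.trans g.2
    rw [h, mul_zero, sub_zero] at hd
    rw [mul_inv_eq_iff_eq_mul]
    apply sl2_ext <;> simp [Matrix.mul_apply, Fin.sum_univ_two, h]
    linear_combination (-g.1 0 0) * hd
  rw [mem_upperSet, ← e]
  refine mul_mem (mul_mem hg ?_) (inv_mem hg)
  simpa using uR_mem_gens (k := k) s 1

/-- For infinite `k` of characteristic not 2 and `R = k[s]` all `u(r)` lie in the group. -/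
theorem uR_mem_of_infinite [Infinite k] [Module.Finite k R] (h2 : (2 : k) ≠ 0) (s : R)
    (hgen : Algebra.adjoin k {s} = ⊤) (r : R) : uR r ∈ gens k s := by
  obtain ⟨μ, hμ, hμs⟩ : ∃ μ : k[X], μ.Monic ∧ aeval s μ = 0 :=
    ⟨minpoly k s, minpoly.monic (IsIntegral.of_finite k s), minpoly.aeval k s⟩
  set d := μ.natDegree
  obtain ⟨P, hP, hgood⟩ := exists_good_poly (le_refl d) (y := μ) (by rw [coeff_natDegree, hμ.leadingCoeff]; exact one_ne_zero)
  have hsq : ∀ v, MvPolynomial.eval v P ≠ 0 → aeval s (polyOf d v) ^ 2 ∈ upperSet k s := fun v hv => by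
    obtain ⟨hc, hv0⟩ := hgood v hv
    set a := v 0
    have hxv : ∀ i, d < i → (polyOf d v).coeff i = 0 := fun i hi => by
      rw [coeff_polyOf, dif_neg (by omega)]
    set x := C a⁻¹ * polyOf d v with hxdef
    have hx : ∀ i, d < i → x.coeff i = 0 := fun i hi => by simp [x, hxv i hi]
    have hx0 : x.coeff 0 = 1 := by simp [x, coeff_polyOf, a, hv0]
    have hcx : AllCond d μ x := fun m e hm he p q hp hq hcomb => by
      obtain ⟨h1, h2⟩ := hc m e hm he p (C a⁻¹ * q) hp (fun i hi => by simp [hq i hi]) fun i hi => by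
        have := hcomb i hi
        rwa [show q * x = C a⁻¹ * q * polyOf d v by rw [hxdef]; ring] at this
      exact ⟨h1, by simpa [hv0] using h2⟩
    obtain ⟨g, hg, g0, g1⟩ := exists_mem_col s (gens k s) (fun c => ⟨_, uR_mem_gens s c, rfl⟩)
      (fun c => ⟨_, lR_mem_gens s c, rfl⟩) d x μ hx
      (fun i hi => coeff_eq_zero_of_natDegree_lt hi) hx0 hcx
    rw [hμs, mul_zero] at g1
    have h1 := (upperSet k s).smul_mem (a ^ 2) (sq_mem_upperSet hg g1)
    rw [g0, map_mul, aeval_C, mul_pow, ← map_pow, ← Algebra.smul_def, smul_smul, ← mul_pow,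
      mul_inv_cancel₀ hv0, one_pow, one_smul] at h1
    exact h1
  by_contra hr
  obtain ⟨φ, hφr, hφ⟩ := Submodule.exists_dual_map_eq_bot_of_notMem (p := upperSet k s)
    (x := r) hr inferInstance
  have hφ0 : ∀ z ∈ upperSet k s, φ z = 0 := fun z hz => by
    have : φ z ∈ (upperSet k s).map φ := ⟨z, hz, rfl⟩
    rwa [hφ, Submodule.mem_bot] at this
  set Q : MvPolynomial (Fin (d + 1)) k :=
    ∑ i : Fin (d + 1), ∑ j : Fin (d + 1), MvPolynomial.C (φ (s ^ (i : ℕ) * s ^ (j : ℕ))) * MvPolynomial.X i * MvPolynomial.X j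
  have heval : ∀ v, MvPolynomial.eval v Q = φ (aeval s (polyOf d v) ^ 2) := fun v => by
    rw [polyOf, map_sum (aeval s), sq, Finset.sum_mul, map_sum φ]
    simp only [Q, map_sum]
    refine Finset.sum_congr rfl fun i _ => ?_
    rw [Finset.mul_sum, map_sum φ]
    refine Finset.sum_congr rfl fun j _ => ?_
    simp only [map_mul, MvPolynomial.eval_C, MvPolynomial.eval_X, aeval_C, aeval_X_pow]
    rw [show algebraMap k R (v i) * s ^ (i : ℕ) * (algebraMap k R (v j) * s ^ (j : ℕ)) =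
      (v i * v j) • (s ^ (i : ℕ) * s ^ (j : ℕ)) by rw [Algebra.smul_def, map_mul]; ring, map_smul, smul_eq_mul]
    ring
  have hQ : Q = 0 := by
    have hPQ : P * Q = 0 := MvPolynomial.funext fun v => by
      rw [map_mul, map_zero]
      by_cases hv : MvPolynomial.eval v P = 0
      · rw [hv, zero_mul]
      · rw [heval, hφ0 _ (hsq v hv), mul_zero]
    exact (mul_eq_zero.1 hPQ).resolve_left hP
  have hall : ∀ v, φ (aeval s (polyOf d v) ^ 2) = 0 := fun v => by rw [← heval, hQ, map_zero]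
  have hspan : ∀ z : R, ∃ v, aeval s (polyOf d v) = z := fun z => by
    obtain ⟨p, hp⟩ : ∃ p : k[X], aeval s p = z := by
      have : z ∈ Algebra.adjoin k {s} := hgen ▸ Algebra.mem_top
      rwa [Algebra.adjoin_singleton_eq_range_aeval] at this
    refine ⟨fun i => (p %ₘ μ).coeff i, ?_⟩
    rw [polyOf_eq_sum_coeff fun i hi => ?_, ← hp]
    · conv_rhs => rw [← modByMonic_add_div p μ]
      simp [hμs]
    · exact coeff_eq_zero_of_natDegree_lt ((natDegree_modByMonic_le p hμ).trans_lt hi)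
  apply hφr
  obtain ⟨v1, hv1⟩ := hspan ((r + 1))
  obtain ⟨v2, hv2⟩ := hspan r
  obtain ⟨v3, hv3⟩ := hspan (1 : R)
  have e1 := hall v1
  have e2 := hall v2
  have e3 := hall v3
  rw [hv1] at e1; rw [hv2] at e2; rw [hv3] at e3
  rw [show (r + 1) ^ 2 = r ^ 2 + (r + r) + 1 ^ 2 by ring, map_add, map_add, map_add, e2, e3,
    zero_add, add_zero, ← two_mul] at e1
  exact (mul_eq_zero.1 e1).resolve_left h2

end CfsgLib.QuadPair
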