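import Cfsg.Agent.QuadPair.Basic
import Cfsg.Agent.QuadPair.GenRing

/-!
The Fitting corner of a pair `a, b` (`a² = b² = 0`): matrix units over `R = k[s]`, `s = ab + ba`, and the
homomorphism `SL₂(R) → End(M)`.
-/

set_option autoImplicit false
universe u

open Matrix Polynomial

namespace CfsgLib.QuadPair

variable {k : Type u} [Field k] {M : Type u} [AddCommGroup M] [Module k M]

/-- The data of the invertible part of `s = ab + ba`. -/
structure Corner (a b : Module.End k M) (R : Type u) [CommRing R] [Algebra k R] where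
  sR : R
  e : Module.End k M
  ψ : R →ₗ[k] Module.End k M
  isUnit_sR : IsUnit sR
  gen : Algebra.adjoin k {sR} = ⊤
  map_mul : ∀ x y, ψ (x * y) = ψ x * ψ y
  map_one : ψ 1 = e
  map_sR : ψ sR = (a * b + b * a) * e
  injective : Function.Injective ψ
  comm_a : ∀ x, Commute (ψ x) a
  comm_b : ∀ x, Commute (ψ x) b
  comm_s : ∀ x, Commute (ψ x) (a * b + b * a)
  nilp : IsNilpotent ((a * b + b * a) * (1 - e))
  sq_a : a * a = 0
  sq_b : b * b = 0

theorem exists_corner [FiniteDimensional k M] {a b : Module.End k M} (ha : a * a = 0) (hb : b * b = 0)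
    (hs : ¬ IsNilpotent (a * b + b * a)) :
    ∃ (R : Type u) (_ : CommRing R) (_ : Algebra k R) (_ : Module.Finite k R) (_ : Nontrivial R),
      Nonempty (Corner a b R) := by
  classical
  set s := a * b + b * a with hsdef
  obtain ⟨μ, hμ, hμs⟩ : ∃ μ : k[X], μ.Monic ∧ aeval s μ = 0 :=
    ⟨minpoly k s, minpoly.monic (IsIntegral.of_finite k s), minpoly.aeval k s⟩
  have hker : ∀ p : k[X], minpoly k s ∣ p ↔ aeval s p = 0 := fun p => minpoly.dvd_iff
  set m := minpoly k s
  have hm : m ≠ 0 := minpoly.ne_zero (IsIntegral.of_finite k s)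
  obtain ⟨μ1, hdec, hndvd⟩ := exists_eq_pow_rootMultiplicity_mul_and_not_dvd m hm (0 : k)
  rw [map_zero, sub_zero] at hdec hndvd
  set N := rootMultiplicity (0 : k) m
  have hcop : IsCoprime (X ^ N) μ1 := ((Polynomial.irreducible_X).coprime_iff_not_dvd.2 hndvd).pow_left
  obtain ⟨u, w, huw⟩ := hcop
  have hmon : μ1.Monic := by
    have := minpoly.monic (IsIntegral.of_finite k s)
    rw [show minpoly k s = _ from hdec] at this
    exact (monic_X_pow N).of_mul_monic_left this
  set e := aeval s (u * X ^ N) with he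
  have hz : aeval s μ1 * e = 0 := by
    rw [he, ← map_mul, ← hker, hdec]
    exact ⟨u, by ring⟩
  have hinj : ∀ p : k[X], aeval s p * e = 0 → μ1 ∣ p := fun p hp => by
    rw [he, ← map_mul, ← hker, hdec] at hp
    have h1 : μ1 ∣ p * (u * X ^ N) := (dvd_mul_left μ1 _).trans hp
    have : p = p * (u * X ^ N) + μ1 * (p * w) := by
      calc p = p * (u * X ^ N + w * μ1) := by rw [huw, mul_one]
        _ = _ := by ring
    rw [this]
    exact dvd_add h1 (dvd_mul_right _ _)
  let ψ : AdjoinRoot μ1 →ₗ[k] Module.End k M :=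
    (LinearMap.mulRight k e).comp ((aeval s).toLinearMap.comp (AdjoinRoot.modByMonicHom hmon))
  have hψ : ∀ p : k[X], ψ (AdjoinRoot.mk μ1 p) = aeval s p * e := fun p => by
    show aeval s (AdjoinRoot.modByMonicHom hmon (AdjoinRoot.mk μ1 p)) * e = _
    rw [AdjoinRoot.modByMonicHom_mk]
    conv_rhs => rw [← modByMonic_add_div p μ1]
    rw [map_add, map_mul, add_mul, mul_assoc]
    have hc : Commute (aeval s (p /ₘ μ1)) e := (Commute.all _ _).map (aeval s)
    rw [hc.eq, ← mul_assoc, hz, zero_mul, add_zero]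
  have hee : e * e = e := by
    have h1 : e = 1 - aeval s (w * μ1) := by
      rw [he, eq_sub_iff_add_eq, ← map_add, huw, map_one]
    conv_rhs => rw [← one_mul e, ← show aeval s (u * X ^ N + w * μ1) = (1 : Module.End k M) by rw [huw, map_one]]
    rw [map_add, add_mul, map_mul (aeval s) w μ1, mul_assoc, hz, mul_zero, add_zero]
  have hnu : ¬ IsUnit μ1 := fun hu => hs ⟨N, by
    rw [show s ^ N = aeval s (X ^ N : k[X]) by simp, ← hker, hdec]
    exact (associated_mul_unit_left _ _ hu).dvd⟩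
  have : Nontrivial (AdjoinRoot μ1) := ⟨⟨1, 0, fun h => hnu <| isUnit_of_dvd_one <| by
    rwa [← (AdjoinRoot.mk μ1).map_one, AdjoinRoot.mk_eq_zero] at h⟩⟩
  have hcomm : ∀ (c : Module.End k M), Commute c s → ∀ x, Commute (ψ x) c := fun c hc x => by
    induction x using AdjoinRoot.induction_on with
    | ih p =>
      rw [hψ, he, ← map_mul]
      refine Polynomial.induction_on' (p * (u * X ^ N)) (fun q r hq hr => ?_) (fun n z => ?_)
      · rw [map_add]; exact hq.add_left hr
      · rw [aeval_monomial]; exact (Algebra.commute_algebraMap_left z c).mul_left ((hc.symm).pow_left n)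
  refine ⟨AdjoinRoot μ1, inferInstance, inferInstance, hmon.finite_adjoinRoot, this, ⟨{
    sR := AdjoinRoot.root μ1
    e := e
    ψ := ψ
    isUnit_sR := ?_
    gen := AdjoinRoot.adjoinRoot_eq_top
    map_mul := ?_
    map_one := ?_
    map_sR := ?_
    injective := ?_
    comm_a := hcomm a ?_
    comm_b := hcomm b ?_
    comm_s := hcomm _ (Commute.refl s)
    nilp := ?_
    sq_a := ha
    sq_b := hb }⟩⟩
  · obtain ⟨f, g, hfg⟩ := (Polynomial.irreducible_X).coprime_iff_not_dvd.2 hndvd
    refine IsUnit.of_mul_eq_one (AdjoinRoot.mk μ1 f) ?_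
    rw [← AdjoinRoot.mk_X, ← (AdjoinRoot.mk μ1).map_mul, ← (AdjoinRoot.mk μ1).map_one, AdjoinRoot.mk_eq_mk, ← hfg]
    exact ⟨-g, by ring⟩
  · intro x y
    induction x using AdjoinRoot.induction_on with
    | ih p =>
      induction y using AdjoinRoot.induction_on with
      | ih q =>
        rw [← (AdjoinRoot.mk μ1).map_mul, hψ, hψ, hψ, map_mul]
        have hc : Commute e (aeval s q) := (Commute.all _ _).map (aeval s)
        rw [mul_assoc (aeval s p) e, ← mul_assoc e (aeval s q) e, hc.eq, mul_assoc, mul_assoc, hee]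
  · rw [← (AdjoinRoot.mk μ1).map_one, hψ, map_one, one_mul]
  · rw [← AdjoinRoot.mk_X, hψ, aeval_X]
  · rw [injective_iff_map_eq_zero]
    intro x hx
    induction x using AdjoinRoot.induction_on with
    | ih p => rw [hψ] at hx; exact AdjoinRoot.mk_eq_zero.2 (hinj p hx)
  · show a * s = s * a
    rw [hsdef, mul_add, add_mul, ← mul_assoc, ← mul_assoc, ha, mul_assoc b a a, ha]; simp [mul_assoc]
  · show b * s = s * b
    rw [hsdef, mul_add, add_mul, ← mul_assoc, ← mul_assoc, hb, mul_assoc a b b, hb]; simp [mul_assoc]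
  · refine ⟨N + 1, ?_⟩
    have h1 : 1 - e = aeval s (w * μ1) := by rw [he, sub_eq_iff_eq_add', ← map_add, huw, map_one]
    rw [h1, show (a * b + b * a) = aeval s (X : k[X]) from (aeval_X s).symm, ← map_mul, ← map_pow, ← hker, hdec]
    exact ⟨X * w ^ (N + 1) * μ1 ^ N, by ring⟩

namespace Corner

variable {R : Type u} [CommRing R] [Algebra k R] {a b : Module.End k M}

/-- Exchange of `a` and `b`. -/
def symm (C : Corner a b R) : Corner b a R where
  sR := C.sR
  e := C.e
  ψ := C.ψ
  isUnit_sR := C.isUnit_sR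
  gen := C.gen
  map_mul := C.map_mul
  map_one := C.map_one
  map_sR := by rw [C.map_sR, add_comm]
  injective := C.injective
  comm_a := C.comm_b
  comm_b := C.comm_a
  comm_s := by rw [add_comm]; exact C.comm_s
  nilp := by rw [add_comm]; exact C.nilp
  sq_a := C.sq_b
  sq_b := C.sq_a

variable (C : Corner a b R)

lemma psi_mul_e (x : R) : C.ψ x * C.e = C.ψ x := by rw [← C.map_one, ← C.map_mul, mul_one]

lemma e_mul_psi (x : R) : C.e * C.ψ x = C.ψ x := by rw [← C.map_one, ← C.map_mul, one_mul]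

lemma e_mul_e : C.e * C.e = C.e := by
  conv_lhs => rw [← C.map_one]
  rw [C.map_one, ← C.map_one, ← C.map_mul, mul_one]

lemma comm_e_a : Commute C.e a := C.map_one ▸ C.comm_a 1

lemma comm_e_b : Commute C.e b := C.map_one ▸ C.comm_b 1

lemma psi_mul_s (x : R) : C.ψ x * (a * b + b * a) = C.ψ (x * C.sR) := by
  rw [C.map_mul, C.map_sR, ← mul_assoc, (C.comm_s x).eq, mul_assoc, C.psi_mul_e, ← (C.comm_s x).eq]

lemma comm_mul {P : Module.End k M} (hP : P = a ∨ P = b ∨ P = a * b ∨ P = b * a) (y : R) :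
    Commute (C.ψ y) P := by
  rcases hP with rfl | rfl | rfl | rfl
  · exact C.comm_a y
  · exact C.comm_b y
  · exact (C.comm_a y).mul_right (C.comm_b y)
  · exact (C.comm_b y).mul_right (C.comm_a y)

lemma psi_mul_psi (x y : R) {P Q : Module.End k M} (hP : Commute (C.ψ y) P) :
    C.ψ x * P * (C.ψ y * Q) = C.ψ (x * y) * (P * Q) := by
  calc C.ψ x * P * (C.ψ y * Q) = C.ψ x * (P * C.ψ y) * Q := by simp only [mul_assoc]
    _ = C.ψ x * (C.ψ y * P) * Q := by rw [hP.eq]
    _ = _ := by rw [C.map_mul]; simp only [mul_assoc]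

/-- The inverse of `s` in `R`. -/
noncomputable def v : R := ↑(C.isUnit_sR.unit⁻¹)

lemma v_mul : C.v * C.sR = 1 := C.isUnit_sR.val_inv_mul

/-- The homomorphism on matrices. -/
noncomputable def Φ (g : Matrix (Fin 2) (Fin 2) R) : Module.End k M :=
  (1 - C.e) + (C.ψ (g 0 0 * C.v) * (a * b) + C.ψ (g 0 1) * a + C.ψ (g 1 0 * C.v) * b +
    C.ψ (g 1 1 * C.v) * (b * a))

lemma aba (x : R) : C.ψ x * (a * b * a) = C.ψ (x * C.sR) * a := by
  rw [← C.psi_mul_s, mul_assoc (C.ψ x), add_mul, mul_assoc b a a, C.sq_a, mul_zero, add_zero]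

lemma bab (x : R) : C.ψ x * (b * a * b) = C.ψ (x * C.sR) * b := by
  rw [← C.psi_mul_s, mul_assoc (C.ψ x), add_mul, mul_assoc a b b, C.sq_b, mul_zero, zero_add]

lemma Φ_mul (g h : Matrix (Fin 2) (Fin 2) R) : C.Φ g * C.Φ h = C.Φ (g * h) := by
  have t := fun (x y : R) (P Q : Module.End k M) (hP : P = a ∨ P = b ∨ P = a * b ∨ P = b * a) =>
    C.psi_mul_psi (Q := Q) x y (C.comm_mul hP y)
  have he : ∀ (x : R) (P : Module.End k M), (1 - C.e) * (C.ψ x * P) = 0 := fun x P => by
    rw [sub_mul, one_mul, ← mul_assoc, C.e_mul_psi, sub_self]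
  have he' : ∀ (x : R) {P : Module.End k M}, (P = a ∨ P = b ∨ P = a * b ∨ P = b * a) →
      C.ψ x * P * (1 - C.e) = 0 := fun x P hP => by
    have : Commute C.e P := C.map_one ▸ C.comm_mul hP 1
    rw [mul_sub, mul_one, mul_assoc, ← this.eq, ← mul_assoc, C.psi_mul_e, sub_self]
  have hee : (1 - C.e) * (1 - C.e) = 1 - C.e := by
    rw [mul_sub, mul_one, sub_mul, one_mul, C.e_mul_e, sub_self, sub_zero]
  have a1 := C.sq_a
  have b1 := C.sq_b
  have hv := C.v_mul
  simp only [Φ, mul_add, add_mul, hee, he, t, he', true_or, or_true, zero_add, add_zero]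
  simp only [← mul_assoc a a, ← mul_assoc b b, a1, b1, mul_assoc a b b, mul_assoc b a a, mul_zero, zero_mul,
    add_zero, zero_add]
  have r1 : ∀ x, C.ψ x * (a * b * (a * b)) = C.ψ (x * C.sR) * (a * b) := fun x => by
    rw [← mul_assoc (a * b) a b, ← mul_assoc, C.aba, mul_assoc]
  have r2 : ∀ x, C.ψ x * (b * a * (b * a)) = C.ψ (x * C.sR) * (b * a) := fun x => by
    rw [← mul_assoc (b * a) b a, ← mul_assoc, C.bab, mul_assoc]
  have r3 : ∀ x, C.ψ x * (a * (b * a)) = C.ψ (x * C.sR) * a := fun x => by rw [← mul_assoc a b a, C.aba]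
  have r4 : ∀ x, C.ψ x * (b * (a * b)) = C.ψ (x * C.sR) * b := fun x => by rw [← mul_assoc b a b, C.bab]
  have z1 : a * b * (b * a) = 0 := by rw [mul_assoc, ← mul_assoc b b a, b1, zero_mul, mul_zero]
  have z2 : b * a * (a * b) = 0 := by rw [mul_assoc, ← mul_assoc a a b, a1, zero_mul, mul_zero]
  simp only [C.aba, C.bab, r1, r2, r3, r4, z1, z2, mul_zero, add_zero, zero_add]
  simp only [Matrix.mul_apply, Fin.sum_univ_two, add_mul, map_add]
  have n1 : ∀ x y : R, x * C.v * (y * C.v) * C.sR = x * y * C.v := fun x y => by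
    linear_combination (x * y * C.v) * hv
  have n2 : ∀ x y : R, x * C.v * y * C.sR = x * y := fun x y => by linear_combination (x * y) * hv
  have n3 : ∀ x y : R, x * (y * C.v) = x * y * C.v := fun x y => (mul_assoc _ _ _).symm
  have n4 : ∀ x y : R, x * C.v * y = x * y * C.v := fun x y => by ring
  simp only [n1, n2]
  have n6 : ∀ x y : R, x * y * C.sR * C.v = x * y := fun x y => by linear_combination (x * y) * hv
  simp only [n3, n4, n6]
  abel

lemma e_sum : C.ψ C.v * (a * b) + C.ψ C.v * (b * a) = C.e := by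
  rw [← mul_add, C.psi_mul_s, C.v_mul, C.map_one]

lemma Φ_uR (r : R) : C.Φ (uR r).1 = 1 + C.ψ r * a := by
  have := C.e_sum
  simp [Φ]
  linear_combination (norm := abel) this

lemma Φ_lR (r : R) : C.Φ (lR r).1 = 1 + C.ψ (r * C.v) * b := by
  have := C.e_sum
  simp [Φ]
  linear_combination (norm := abel) this

lemma Φ_one : C.Φ 1 = 1 := by
  have := C.e_sum
  simp [Φ]
  linear_combination (norm := abel) this

/-- `Φ` on `SL₂(R)` as a homomorphism to `GL(M)`. -/
noncomputable def hom : SpecialLinearGroup (Fin 2) R →* LinearMap.GeneralLinearGroup k M :=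
  MonoidHom.toHomUnits
    { toFun := fun g => C.Φ g.1
      map_one' := C.Φ_one
      map_mul' := fun g h => (C.Φ_mul g.1 h.1).symm }

@[simp] lemma hom_coe (g : SpecialLinearGroup (Fin 2) R) :
    ((C.hom g : LinearMap.GeneralLinearGroup k M) : Module.End k M) = C.Φ g.1 := rfl

lemma eq_zero_of_psi_mul {x : R} (h : C.ψ x * a = 0) : x = 0 := by
  have h1 : C.ψ x * (a * b) = 0 := by rw [← mul_assoc, h, zero_mul]
  have h2 : C.ψ x * (b * a) = 0 := by
    rw [← mul_assoc, (C.comm_b x).eq, mul_assoc, h, mul_zero]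
  have h3 : C.ψ (x * C.sR) = 0 := by rw [← C.psi_mul_s, mul_add, h1, h2, add_zero]
  have := C.injective (h3.trans (map_zero C.ψ).symm)
  exact (C.isUnit_sR.mul_left_eq_zero).1 this

lemma hom_injective : Function.Injective C.hom := by
  rw [injective_iff_map_eq_one]
  intro g hg
  have h : C.Φ g.1 = 1 := congrArg Units.val hg
  have key : ∀ P Q : Module.End k M, P * C.Φ g.1 * Q = P * Q := fun P Q => by rw [h, mul_one]
  have e := C.e_sum
  have he1 : C.e * (1 - C.e) = 0 := by rw [mul_sub, mul_one, C.e_mul_e, sub_self]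
  have hPQ : ∀ (x : R) {P : Module.End k M}, (P = a ∨ P = b ∨ P = a * b ∨ P = b * a) → ∀ Q,
      a * (C.ψ x * P) * Q = C.ψ x * (a * P * Q) := fun x P _ Q => by
    rw [← mul_assoc a, ← (C.comm_a x).eq]; simp only [mul_assoc]
  have m1 : ∀ x : R, (C.ψ x * (a * b)) * a = C.ψ (x * C.sR) * a := fun x => by rw [mul_assoc, C.aba]
  have hg1 := key a a
  have hv := C.v_mul
  have h10 : g.1 1 0 = 0 := by
    have h2 := hg1
    rw [Φ] at h2
    simp only [mul_add, add_mul, hPQ, true_or, or_true] at h2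
    have c0 : a * (1 - C.e) * a = 0 := by
      rw [mul_sub, mul_one, sub_mul, C.sq_a, mul_assoc, C.comm_e_a.eq, ← mul_assoc, C.sq_a, zero_mul, sub_zero]
    rw [c0, C.sq_a, ← mul_assoc a a b, C.sq_a, mul_assoc a (b * a) a, mul_assoc b a a, C.sq_a] at h2
    simp only [zero_mul, mul_zero, zero_add, add_zero, C.aba] at h2
    have := C.eq_zero_of_psi_mul h2
    linear_combination this - g.1 1 0 * hv
  have hd := (det_fin_two g.1).symm.trans g.2
  rw [h10, mul_zero, sub_zero] at hd
  have hu : C.Φ g.1 * a = a := by rw [h, one_mul]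
  have za : ∀ x, C.ψ x * a * a = 0 := fun x => by rw [mul_assoc, C.sq_a, mul_zero]
  have zba : ∀ x, C.ψ x * (b * a) * a = 0 := fun x => by
    rw [mul_assoc, mul_assoc b a a, C.sq_a, mul_zero, mul_zero]
  have hvv : g.1 0 0 * C.v * C.sR = g.1 0 0 := by linear_combination g.1 0 0 * hv
  rw [Φ] at hu
  simp only [add_mul, m1, za, zba, hvv, h10, zero_mul, map_zero, add_zero, sub_mul, one_mul] at hu
  have h00 : g.1 0 0 = 1 := by
    refine sub_eq_zero.1 (C.eq_zero_of_psi_mul ?_)
    rw [map_sub, sub_mul, C.map_one]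
    linear_combination (norm := abel) hu
  have h11 : g.1 1 1 = 1 := by rwa [h00, one_mul] at hd
  have hgu : g = uR (g.1 0 1) := by apply sl2_ext <;> simp [h00, h10, h11]
  have h01 : g.1 0 1 = 0 := C.eq_zero_of_psi_mul (add_left_cancel (a := (1 : Module.End k M))
    (((C.Φ_uR _).symm.trans (by rw [← hgu])).trans (h.trans (add_zero _).symm)))
  rw [hgu, h01, uR_zero]

end Corner

end CfsgLib.QuadPair
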