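import Cfsg.Agent.QuadPair.GenRing
import Cfsg.Agent.H29.Dickson.FiniteClassify

/-!
`⟨u(c), l(c s) : c ∈ k⟩ = SL₂(F)` for a finite extension `F = k(s)`, `s ≠ 0`, char `k ≠ 2`, `#k ≠ 3`.
-/

set_option autoImplicit false

open Matrix Polynomial CfsgLib.H29.Dickson OnePoint
open scoped OnePoint

namespace CfsgLib.QuadPair

variable {k F : Type*} [Field k] [Field F] [Algebra k F]

/-- All upper and lower unitriangular elements generate. -/
theorem eq_top_of_uR_lR {H : Subgroup (SpecialLinearGroup (Fin 2) F)} (hu : ∀ x, uR x ∈ H)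
    (hl : ∀ x, lR x ∈ H) : H = ⊤ := by
  have hc : ∀ g : SpecialLinearGroup (Fin 2) F, g.1 1 0 ≠ 0 → g ∈ H := fun g h => by
    have hd : g.1 0 0 * g.1 1 1 - g.1 0 1 * g.1 1 0 = 1 := (det_fin_two g.1).symm.trans g.2
    have e : g = uR ((g.1 0 0 - 1) / g.1 1 0) * lR (g.1 1 0) * uR ((g.1 1 1 - 1) / g.1 1 0) := by
      apply sl2_ext <;> simp [Matrix.mul_apply, Fin.sum_univ_two]
      all_goals field_simp
      all_goals first | ring1 | linear_combination hd | linear_combination -hd
    rw [e]; exact mul_mem (mul_mem (hu _) (hl _)) (hu _)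
  refine (Subgroup.eq_top_iff' H).2 fun g => ?_
  by_cases h : g.1 1 0 = 0
  · have h1 : (g * lR 1).1 1 0 ≠ 0 := by
      have hd : g.1 0 0 * g.1 1 1 - g.1 0 1 * g.1 1 0 = 1 := (det_fin_two g.1).symm.trans g.2
      simp [Matrix.mul_apply, Fin.sum_univ_two, h]
      intro e; rw [e, h] at hd; simp at hd
    have := mul_mem (hc _ h1) (inv_mem (hl 1))
    rwa [mul_inv_cancel_right] at this
  · exact hc g h

/-- Upper generation gives lower generation. -/
theorem gens_eq_top_of_uR {s : F} (hs : s ≠ 0) (hu : ∀ x, uR x ∈ gens k s) : gens k s = ⊤ :=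
  eq_top_of_uR_lR hu (lR_mem_gens_of_uR (Ne.isUnit hs) hu)

section Finite

variable [Fintype F]

/-- The projection to `PGL₂`. -/
noncomputable abbrev toP2 : SpecialLinearGroup (Fin 2) F →* P2 F := Matrix.SpecialLinearGroup.toPGL

omit [Fintype F] in
lemma toP2_eq_pr (g : SpecialLinearGroup (Fin 2) F) : toP2 g = pr (g : GL (Fin 2) F) := rfl

theorem uR_mem_of_finite [Finite k] (h2 : (2 : k) ≠ 0) (h3 : Nat.card k ≠ 3) {s : F} (hs : s ≠ 0)
    (hgen : Algebra.adjoin k {s} = ⊤) (x : F) : uR x ∈ gens k s := by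
  classical
  obtain ⟨p, hpk⟩ := CharP.exists k
  have hp : Fact p.Prime := ⟨(CharP.char_is_prime_or_zero k p).resolve_right fun h => by
    subst h
    have := CharP.charP_to_charZero k
    have : Infinite k := Infinite.of_injective (Nat.cast : ℕ → k) Nat.cast_injective
    exact _root_.not_finite k⟩
  have hpF : CharP F p := (RingHom.charP_iff _ (algebraMap k F).injective p).1 hpk
  have hp2 : p ≠ 2 := fun h => by subst h; exact h2 (by exact_mod_cast CharP.cast_eq_zero k 2)
  have h2F : (2 : F) ≠ 0 := fun h => h2 (by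
    apply (algebraMap k F).injective; rw [map_ofNat, map_zero]; exact h)
  set H := (gens k s).map (toP2 (F := F)) with hH
  set U := toP2 (uR (1 : F)) with hU
  set Lw := toP2 (lR s) with hLw
  have hUH : U ∈ H := ⟨_, by simpa using uR_mem_gens s (1 : k), rfl⟩
  have hLH : Lw ∈ H := ⟨_, by simpa using lR_mem_gens s (1 : k), rfl⟩
  have hpow : ∀ (n : ℕ) (r : F), uR r ^ n = uR ((n : F) * r) := fun n r => by
    induction n with
    | zero => simp [uR_zero]
    | succ n ih => rw [pow_succ, ih, ← uR_add]; congr 1; push_cast; ring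
  have hlpow : ∀ (n : ℕ) (r : F), lR r ^ n = lR ((n : F) * r) := fun n r => by
    induction n with
    | zero => simp [lR_zero]
    | succ n ih => rw [pow_succ, ih, ← lR_add]; congr 1; push_cast; ring
  have hUo : orderOf U = p := orderOf_eq_prime
    (by rw [hU, ← map_pow, hpow, CharP.cast_eq_zero F p, zero_mul, uR_zero, map_one])
    (fun h => by
      rw [hU, toP2_eq_pr, pr_eq_one_iff] at h
      simp at h)
  have hLo : orderOf Lw = p := orderOf_eq_prime
    (by rw [hLw, ← map_pow, hlpow, CharP.cast_eq_zero F p, zero_mul, lR_zero, map_one])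
    (fun h => by
      rw [hLw, toP2_eq_pr, pr_eq_one_iff] at h
      simp at h
      exact hs h)
  have hdvd : p ∣ Nat.card H := hUo ▸ Subgroup.orderOf_dvd_natCard H hUH
  have hmain : ∀ (γ : P2 F) (L : Subfield F), H.map (MulAut.conj γ).toMonoidHom ≤ PL L →
      PS L ≤ H.map (MulAut.conj γ).toMonoidHom → uR x ∈ gens k s := by
    intro γ L hle hge
    obtain ⟨γm, rfl⟩ := exists_pr γ
    have htr : ∀ g ∈ gens k s, (g.1 0 0 + g.1 1 1) ^ 2 ∈ L := fun g hg => by
      obtain ⟨m', hm'⟩ := hle ⟨_, ⟨g, hg, rfl⟩, rfl⟩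
      obtain ⟨m, rfl⟩ := exists_pr m'
      rw [ProjGenLinGroup.map_mk, MulEquiv.coe_toMonoidHom, MulAut.conj_apply, toP2_eq_pr, ← map_inv,
        ← map_mul, ← map_mul, pr_eq_pr_iff] at hm'
      obtain ⟨c, hc, he⟩ := hm'
      set M := (γm * (g : GL (Fin 2) F) * γm⁻¹ : GL (Fin 2) F)
      have hMtr : (M : Matrix (Fin 2) (Fin 2) F).trace = g.1.trace := by
        rw [show (M : Matrix (Fin 2) (Fin 2) F) = (γm : Matrix (Fin 2) (Fin 2) F) * g.1 *
          ((γm⁻¹ : GL (Fin 2) F) : Matrix (Fin 2) (Fin 2) F) from rfl, Matrix.trace_units_conj]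
      have hMdet : (M : Matrix (Fin 2) (Fin 2) F).det = 1 := by
        rw [show (M : Matrix (Fin 2) (Fin 2) F) = (γm : Matrix (Fin 2) (Fin 2) F) * g.1 *
          ((γm⁻¹ : GL (Fin 2) F) : Matrix (Fin 2) (Fin 2) F) from rfl, Matrix.det_units_conj, g.2]
      simp only [GeneralLinearGroup.map_apply] at he
      rw [trace_fin_two, trace_fin_two, he, he, ← mul_add] at hMtr
      rw [det_fin_two, he, he, he, he] at hMdet
      rw [← hMtr]
      have hd : L.subtype (m 0 0 * m 1 1 - m 0 1 * m 1 0) ≠ 0 := fun h => by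
        simp only [map_sub, map_mul] at h
        exact one_ne_zero (α := F) (by linear_combination -hMdet + c ^ 2 * h)
      have : (c * (L.subtype (m 0 0) + L.subtype (m 1 1))) ^ 2 =
          L.subtype ((m 0 0 + m 1 1) ^ 2 / (m 0 0 * m 1 1 - m 0 1 * m 1 0)) := by
        rw [map_div₀, map_pow, map_add, eq_div_iff hd, map_sub, map_mul, map_mul]
        linear_combination ((L.subtype (m 0 0) + L.subtype (m 1 1)) ^ 2) * hMdet
      rw [this]; exact ((m 0 0 + m 1 1) ^ 2 / (m 0 0 * m 1 1 - m 0 1 * m 1 0) : L).2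
    have hcs : ∀ c : k, algebraMap k F c * s ∈ L := fun c => by
      have e : ∀ c : k, (2 + algebraMap k F c * s) ^ 2 ∈ L := fun c => by
        have := htr (uR 1 * lR (algebraMap k F c * s))
          (mul_mem (by simpa using uR_mem_gens s (1 : k)) (lR_mem_gens s c))
        have e1 : (uR 1 * lR (algebraMap k F c * s)).1 0 0 + (uR 1 * lR (algebraMap k F c * s)).1 1 1 =
            2 + algebraMap k F c * s := by
          simp [Matrix.mul_apply, Fin.sum_univ_two]; ring
        rwa [e1] at this
      have h8 := L.sub_mem (e c) (e (-c))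
      have h8' : (8 : F) ∈ L := by simp
      rw [map_neg, show (2 + algebraMap k F c * s) ^ 2 - (2 + -algebraMap k F c * s) ^ 2 =
        8 * (algebraMap k F c * s) by ring] at h8
      have h80 : (8 : F) ≠ 0 := by rw [show (8 : F) = 2 ^ 3 by norm_num]; exact pow_ne_zero _ h2F
      simpa [h80] using L.mul_mem (L.inv_mem h8') h8
    have hsL : s ∈ L := by simpa using hcs 1
    have hkL : ∀ c : k, algebraMap k F c ∈ L := fun c => by
      simpa [hs] using L.mul_mem (hcs c) (L.inv_mem hsL)
    have htop : ∀ y : F, y ∈ L := fun y => by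
      have : y ∈ Algebra.adjoin k {s} := hgen ▸ Algebra.mem_top
      induction this using Algebra.adjoin_induction with
      | mem z hz => rw [Set.mem_singleton_iff.1 hz]; exact hsL
      | algebraMap c => exact hkL c
      | add a b _ _ ha hb => exact L.add_mem ha hb
      | mul a b _ _ ha hb => exact L.mul_mem ha hb
    set X : Matrix (Fin 2) (Fin 2) F := (γm : Matrix (Fin 2) (Fin 2) F) * (uR x).1 *
      ((γm⁻¹ : GL (Fin 2) F) : Matrix (Fin 2) (Fin 2) F)
    have hX : X.det = 1 := by rw [Matrix.det_units_conj]; exact (uR x).2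
    let X' : SpecialLinearGroup (Fin 2) L := ⟨Matrix.of fun i j => ⟨X i j, htop _⟩, by
      apply L.subtype.injective
      rw [RingHom.map_det, map_one, ← hX]; rfl⟩
    obtain ⟨w, ⟨g, hg, rfl⟩, hw⟩ := hge ⟨X', rfl⟩
    simp only [MonoidHom.comp_apply, MulEquiv.coe_toMonoidHom, MulAut.conj_apply] at hw
    have e2 : (Matrix.ProjGenLinGroup.map (n := Fin 2) L.subtype) (Matrix.SpecialLinearGroup.toPGL X') =
        pr (γm * (uR x : GL (Fin 2) F) * γm⁻¹) := by
      show pr _ = pr _
      congr 1
      apply Units.ext; ext i j; rfl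
    replace hw := hw.trans e2
    rw [map_mul, map_mul, map_inv, mul_left_inj, mul_right_inj, pr_eq_pr_iff] at hw
    obtain ⟨c, hc, he⟩ := hw
    have h00 := he 0 0
    have h11 := he 1 1
    have h01 := he 0 1
    have h10 := he 1 0
    simp at h00 h11 h01 h10
    have hdet : g.1 0 0 * g.1 1 1 - g.1 0 1 * g.1 1 0 = 1 := (det_fin_two g.1).symm.trans g.2
    have h10' : g.1 1 0 = 0 := h10.resolve_left hc
    have hcc : c * c = 1 := by
      have : c * c * (g.1 0 0 * g.1 1 1) = 1 := by rw [mul_mul_mul_comm, ← h00, ← h11, one_mul]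
      rw [h10', mul_zero, sub_zero] at hdet
      rwa [hdet, mul_one] at this
    have hg' : g = uR x ∨ g = -uR x := by
      rcases mul_self_eq_one_iff.1 hcc with rfl | rfl
      · left
        apply sl2_ext <;> simp <;>
          first | exact h10' | linear_combination -h00 | linear_combination -h01 | linear_combination -h11
      · right
        apply sl2_ext <;> simp <;>
          first | exact h10' | linear_combination h00 | linear_combination h01 | linear_combination h11
    have hpe : Even (p + 1) := (hp.out.odd_of_ne_two hp2).add_one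
    have hfin : g ^ (p + 1) = uR x := by
      rcases hg' with rfl | rfl <;>
        simp [hpe.neg_pow, hpow]
    exact hfin ▸ pow_mem hg _
  cases subKind p H with
  | borel z hz =>
    exfalso
    have h1 := hz U hUH
    have h2' := hz Lw hLH
    cases z with
    | infty =>
      rw [hLw, toP2_eq_pr, smul_infty_eq_iff] at h2'
      simp [hs] at h2'
    | coe z =>
      rw [hU, toP2_eq_pr, smul_coe_affine (by simp)] at h1
      simp at h1
  | cyclic a b c hc hc1 hab hle hndvd => exact absurd hdvd hndvd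
  | dih a b c hc hc1 hab hcab hle m hm hord hmc e =>
    exfalso
    obtain ⟨e⟩ := e
    have hr : ∀ g : H, orderOf g = p → ∃ i, e g = DihedralGroup.r i := fun g hg => by
      rcases he : e g with i | i
      · exact ⟨i, rfl⟩
      · rw [← e.orderOf_eq, he, DihedralGroup.orderOf_sr] at hg
        exact absurd hg.symm hp2
    obtain ⟨i, hi⟩ := hr ⟨U, hUH⟩ (by rw [Subgroup.orderOf_mk, hUo])
    obtain ⟨j, hj⟩ := hr ⟨Lw, hLH⟩ (by rw [Subgroup.orderOf_mk, hLo])
    have hcomm : (⟨U, hUH⟩ * ⟨Lw, hLH⟩ : H) = ⟨Lw, hLH⟩ * ⟨U, hUH⟩ := e.injective (by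
      rw [map_mul, map_mul, hi, hj]; simp [add_comm])
    have := congrArg Subtype.val hcomm
    simp only [Subgroup.coe_mul, hU, hLw, ← map_mul, toP2_eq_pr, pr_eq_pr_iff] at this
    obtain ⟨c, -, he⟩ := this
    have h01 := he 0 1
    have h00 := he 0 0
    simp [Matrix.mul_apply, Fin.sum_univ_two] at h00 h01
    rw [← h01, one_mul] at h00
    exact hs (by linear_combination -h00)
  | a4 hc hp' e => exact absurd (hc ▸ hdvd) hp'
  | s4 hc hp' e => exact absurd (hc ▸ hdvd) hp'
  | a5 hc hp' e =>
    exfalso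
    rcases hp' with hp' | hp'
    · exact hp' (hc ▸ hdvd)
    · subst hp'
      have := Fintype.ofFinite k
      let f : Multiplicative k →* P2 F :=
        MonoidHom.mk' (fun c => toP2 (uR (algebraMap k F c.toAdd))) fun a b => by
          rw [← map_mul, ← uR_add, ← map_add]; rfl
      have hf : Function.Injective f := fun a b h => by
        change toP2 _ = toP2 _ at h
        rw [toP2_eq_pr, toP2_eq_pr, pr_eq_pr_iff] at h
        obtain ⟨c, -, he⟩ := h
        have h00 := he 0 0
        have h01 := he 0 1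
        simp at h00 h01
        rw [← h00, one_mul] at h01
        exact Multiplicative.toAdd.injective ((algebraMap k F).injective h01.symm)
      have hsub : f.range ≤ H := by rintro _ ⟨c, rfl⟩; exact ⟨_, uR_mem_gens s c.toAdd, rfl⟩
      have hdiv := Subgroup.card_dvd_of_le hsub
      rw [hc, Nat.card_congr (MonoidHom.ofInjective hf).toEquiv.symm,
        Nat.card_congr (Multiplicative.toAdd (α := k))] at hdiv
      obtain ⟨n, -, hn⟩ := FiniteField.card k 3
      rw [Nat.card_eq_fintype_card, hn] at hdiv h3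
      have hn2 : 2 ≤ (n : ℕ) := by
        by_contra h
        have : (n : ℕ) = 1 := by have := n.pos; omega
        exact h3 (by rw [this, pow_one])
      exact absurd ((pow_dvd_pow 3 hn2).trans hdiv) (by norm_num)
  | pgl γ L h => exact hmain γ L h.le (h ▸ PS_le_PL L)
  | psl γ L h => exact hmain γ L (h ▸ PS_le_PL L) h.ge

end Finite

/-- The theorem: `k(c), l(c s)` generate `SL₂(F)`. -/
theorem gens_eq_top [Module.Finite k F] (h2 : (2 : k) ≠ 0) (h3 : Nat.card k ≠ 3) {s : F} (hs : s ≠ 0)
    (hgen : Algebra.adjoin k {s} = ⊤) : gens k s = ⊤ := by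
  refine gens_eq_top_of_uR hs fun x => ?_
  rcases finite_or_infinite k with hk | hk
  · have : Finite F := Module.finite_of_finite k
    have := Fintype.ofFinite F
    exact uR_mem_of_finite h2 h3 hs hgen x
  · exact uR_mem_of_infinite h2 s hgen x

end CfsgLib.QuadPair
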