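import Mathlib

/-!
Generic pairs of polynomials all of whose Euclid steps are linear, and the vectors they give in the
orbit of a subgroup of `SL₂`.
-/

set_option autoImplicit false

open Polynomial

namespace CfsgLib.QuadPair

variable {k : Type*} [Field k]

/-- No short combination of `y` and `x` loses all its top coefficients. -/
def Cond (d m e : ℕ) (y x : k[X]) : Prop :=
  ∀ p q : k[X], (∀ i, m ≤ i → p.coeff i = 0) → (∀ i, m + e ≤ i → q.coeff i = 0) →
    (∀ i, d - m ≤ i → (X ^ e * p * y + q * x).coeff i = 0) → p = 0 ∧ q = 0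

/-- All conditions for a pair of degree at most `d`. -/
def AllCond (d : ℕ) (y x : k[X]) : Prop := ∀ m e, m ≤ d → e ≤ 1 → Cond d m e y x

lemma coeff_le {d : ℕ} {p : k[X]} (h : ∀ i, d < i → p.coeff i = 0) : p.natDegree ≤ d :=
  natDegree_le_iff_coeff_eq_zero.2 h

lemma allCond_step {d : ℕ} {y x : k[X]} (h : AllCond (d + 1) y x) (c c' : k) :
    AllCond d (y - C c * x) (x - C c' * X * (y - C c * x)) := by
  intro m e hm he p q hp hq hcomb
  have key : X ^ e * p * (y - C c * x) + q * (x - C c' * X * (y - C c * x)) =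
      (X ^ e * p - C c' * X * q) * y + (q - C c * (X ^ e * p - C c' * X * q)) * x := by ring
  rw [key] at hcomb
  interval_cases e
  · set p' := X ^ 0 * p - C c' * X * q
    have hp' : ∀ i, m + 1 ≤ i → p'.coeff i = 0 := fun i hi => by
      obtain ⟨j, rfl⟩ := Nat.exists_eq_add_of_le' (le_trans (Nat.le_add_left 1 m) hi)
      simp [p', pow_zero, mul_assoc, coeff_X_mul, hp (j + 1) (by omega), hq j (by omega)]
    obtain ⟨h1, h2⟩ := h (m + 1) 0 (by omega) (by omega) p' (q - C c * p') hp'
      (fun i hi => by simp [hp' i (by omega), hq i (by omega)])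
      (fun i hi => by rw [pow_zero, one_mul]; exact hcomb i (by omega))
    rw [h1, mul_zero, sub_zero] at h2
    exact ⟨by simpa [p', h2] using h1, h2⟩
  · set p' := p - C c' * q
    have e1 : X ^ 1 * p - C c' * X * q = X * p' := by simp only [p']; ring
    rw [e1] at hcomb
    have hp' : ∀ i, m + 1 ≤ i → p'.coeff i = 0 := fun i hi => by
      simp [p', hp i (by omega), hq i hi]
    have hXp : ∀ i, m + 1 + 1 ≤ i → (X * p').coeff i = 0 := fun i hi => by
      obtain ⟨j, rfl⟩ := Nat.exists_eq_add_of_le' (le_trans (Nat.le_add_left 1 (m + 1)) hi)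
      rw [coeff_X_mul, hp' j (by omega)]
    obtain ⟨h1, h2⟩ := h (m + 1) 1 (by omega) le_rfl p' (q - C c * (X * p')) hp'
      (fun i hi => by rw [coeff_sub, coeff_C_mul, hXp i hi, hq i (by omega), mul_zero, sub_zero])
      (fun i hi => by rw [pow_one]; exact hcomb i (by omega))
    rw [h1, mul_zero, mul_zero, sub_zero] at h2
    exact ⟨by simpa [p', h2] using h1, h2⟩

variable {R : Type*} [CommRing R] [Algebra k R]

/-- The Euclid descent: the vector given by a good pair lies in the orbit. -/
theorem exists_mem_col (s : R) (H : Subgroup (Matrix.SpecialLinearGroup (Fin 2) R))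
    (hu : ∀ c : k, ∃ g ∈ H, (g : Matrix (Fin 2) (Fin 2) R) = !![1, algebraMap k R c; 0, 1])
    (hl : ∀ c : k, ∃ g ∈ H, (g : Matrix (Fin 2) (Fin 2) R) = !![1, 0; algebraMap k R c * s, 1]) :
    ∀ d (x y : k[X]), (∀ i, d < i → x.coeff i = 0) → (∀ i, d < i → y.coeff i = 0) → x.coeff 0 = 1 →
      AllCond d y x → ∃ g ∈ H, (g : Matrix (Fin 2) (Fin 2) R) 0 0 = aeval s x ∧
        (g : Matrix (Fin 2) (Fin 2) R) 1 0 = s * aeval s y := by
  intro d
  induction d with
  | zero =>
    intro x y hx hy h0 _
    rw [eq_C_of_natDegree_le_zero (coeff_le hx), eq_C_of_natDegree_le_zero (coeff_le hy), h0]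
    obtain ⟨g, hg, e⟩ := hl (y.coeff 0)
    exact ⟨g, hg, by simp [e], by simp [e, mul_comm]⟩
  | succ d ih =>
    intro x y hx hy h0 hc
    have hxd : x.coeff (d + 1) ≠ 0 := fun e => by
      refine one_ne_zero (α := k[X]) (hc 0 1 (by omega) le_rfl 0 1 (fun i _ => coeff_zero i)
        (fun i hi => by rw [coeff_one, if_neg (by omega)]) fun i hi => ?_).2
      rw [mul_zero, zero_mul, zero_add, one_mul]
      rcases (show d + 1 ≤ i by omega).eq_or_lt with rfl | hlt
      · exact e
      · exact hx i hlt
    set c := y.coeff (d + 1) / x.coeff (d + 1)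
    set r := y - C c * x with hrdef
    have hr : ∀ i, d < i → r.coeff i = 0 := fun i hi => by
      rcases (show d + 1 ≤ i by omega).eq_or_lt with rfl | hlt
      · simp [r, c, hxd]
      · simp [r, hx i hlt, hy i hlt]
    have hrd : r.coeff d ≠ 0 := fun e => by
      refine one_ne_zero (α := k[X]) (hc 1 0 (by omega) (by omega) 1 (-C c)
        (fun i hi => by rw [coeff_one, if_neg (by omega)])
        (fun i hi => by rw [coeff_neg, coeff_C, if_neg (by omega), neg_zero]) fun i hi => ?_).1
      rw [show X ^ 0 * 1 * y + -C c * x = r by rw [hrdef]; ring]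
      rcases (show d ≤ i by omega).eq_or_lt with rfl | hlt
      · exact e
      · exact hr i hlt
    set c' := x.coeff (d + 1) / r.coeff d
    set x1 := x - C c' * X * r with hx1def
    have hx1 : ∀ i, d < i → x1.coeff i = 0 := fun i hi => by
      obtain ⟨j, rfl⟩ := Nat.exists_eq_add_of_le' (show 1 ≤ i by omega)
      rcases (show d ≤ j by omega).eq_or_lt with rfl | hlt
      · simp [x1, mul_assoc, coeff_X_mul, c', hrd]
      · simp [x1, mul_assoc, coeff_X_mul, hx (j + 1) (by omega), hr j hlt]
    have hx10 : x1.coeff 0 = 1 := by simp [x1, mul_assoc, h0]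
    obtain ⟨g, hg, g0, g1⟩ := ih x1 r hx1 hr hx10 (allCond_step hc c c')
    obtain ⟨a, ha, ea⟩ := hu c'
    obtain ⟨b, hb, eb⟩ := hl c
    refine ⟨b * (a * g), mul_mem hb (mul_mem ha hg), ?_, ?_⟩
    · simp only [Matrix.SpecialLinearGroup.coe_mul, ea, eb, Matrix.mul_apply, Fin.sum_univ_two, g0, g1]
      simp [x1, r]
      ring
    · simp only [Matrix.SpecialLinearGroup.coe_mul, ea, eb, Matrix.mul_apply, Fin.sum_univ_two, g0, g1]
      simp [x1, r]
      ring

/-- The polynomial with the given coefficients. -/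
noncomputable def polyOf (d : ℕ) (v : Fin (d + 1) → k) : k[X] := ∑ i, C (v i) * X ^ (i : ℕ)

lemma coeff_polyOf (d : ℕ) (v : Fin (d + 1) → k) (i : ℕ) :
    (polyOf d v).coeff i = if h : i < d + 1 then v ⟨i, h⟩ else 0 := by
  rw [polyOf, finsetSum_coeff]
  by_cases h : i < d + 1
  · rw [dif_pos h, Finset.sum_eq_single ⟨i, h⟩]
    · simp
    · intro b _ hb
      have : i ≠ (b : ℕ) := fun e => hb (Fin.ext e.symm)
      simp [coeff_X_pow, this]
    · simp
  · rw [dif_neg h]
    refine Finset.sum_eq_zero fun b _ => ?_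
    have : i ≠ (b : ℕ) := fun e => h (e ▸ b.2)
    simp [coeff_X_pow, this]

lemma polyOf_eq_sum_coeff {d : ℕ} {x : k[X]} (hx : ∀ i, d < i → x.coeff i = 0) :
    polyOf d (fun i => x.coeff i) = x := by
  ext i
  rw [coeff_polyOf]
  split_ifs with h
  · rfl
  · exact (hx i (by omega)).symm

open MvPolynomial in
/-- The matrix of the linear map behind `Cond`, as a function of the coefficients of `x`. -/
noncomputable def condMat (d m e : ℕ) (y : k[X]) :
    Matrix (Fin m ⊕ Fin (m + e)) (Fin m ⊕ Fin (m + e)) (MvPolynomial (Fin (d + 1)) k) :=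
  fun r col =>
    Sum.elim (fun j : Fin m => MvPolynomial.C
        ((Polynomial.X ^ e * Polynomial.X ^ (j : ℕ) * y).coeff (d - m + (finSumFinEquiv r : ℕ))))
      (fun j : Fin (m + e) => if h : (j : ℕ) ≤ d - m + (finSumFinEquiv r : ℕ) ∧
          d - m + (finSumFinEquiv r : ℕ) - j < d + 1 then MvPolynomial.X ⟨_, h.2⟩ else 0) col

lemma condMat_mulVec {d m e : ℕ} {y : k[X]} (v : Fin (d + 1) → k) (p : Fin m → k) (q : Fin (m + e) → k)
    (r : Fin m ⊕ Fin (m + e)) :
    (((condMat d m e y).map (MvPolynomial.eval v)).mulVec (Sum.elim p q)) r =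
      (X ^ e * (∑ j, C (p j) * X ^ (j : ℕ)) * y + (∑ j, C (q j) * X ^ (j : ℕ)) * polyOf d v).coeff
        (d - m + (finSumFinEquiv r : ℕ)) := by
  rw [coeff_add, Matrix.mulVec, dotProduct, Fintype.sum_sum_type, Finset.mul_sum, Finset.sum_mul,
    Finset.sum_mul, finsetSum_coeff, finsetSum_coeff]
  congr 1
  · refine Finset.sum_congr rfl fun j _ => ?_
    simp only [Matrix.map_apply, condMat, Sum.elim_inl, MvPolynomial.eval_C]
    rw [show X ^ e * (C (p j) * X ^ (j : ℕ)) * y = C (p j) * (X ^ e * X ^ (j : ℕ) * y) by ring,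
      coeff_C_mul, mul_comm]
  · refine Finset.sum_congr rfl fun j _ => ?_
    simp only [Matrix.map_apply, condMat, Sum.elim_inr]
    rw [mul_assoc, coeff_C_mul, coeff_X_pow_mul', coeff_polyOf]
    by_cases h1 : (j : ℕ) ≤ d - m + (finSumFinEquiv r : ℕ)
    · by_cases h2 : d - m + (finSumFinEquiv r : ℕ) - j < d + 1
      · rw [dif_pos ⟨h1, h2⟩, if_pos h1, dif_pos h2, MvPolynomial.eval_X, mul_comm]
      · rw [dif_neg (fun h => h2 h.2), if_pos h1, dif_neg h2]; simp
    · rw [dif_neg (fun h => h1 h.1), if_neg h1]; simp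

lemma cond_of_det_ne_zero {d m e : ℕ} (y : k[X]) (v : Fin (d + 1) → k)
    (h : MvPolynomial.eval v (condMat d m e y).det ≠ 0) : Cond d m e y (polyOf d v) := by
  intro p q hp hq hcomb
  have hzero : ((condMat d m e y).map (MvPolynomial.eval v)).mulVec
      (Sum.elim (fun j : Fin m => p.coeff j) (fun j : Fin (m + e) => q.coeff j)) = 0 := by
    funext r
    rw [condMat_mulVec]
    have e1 : (∑ j : Fin m, C (p.coeff j) * X ^ (j : ℕ)) = p := by
      ext i
      rw [finsetSum_coeff]
      by_cases hi : i < m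
      · rw [Finset.sum_eq_single ⟨i, hi⟩]
        · simp
        · rintro b - hb
          have : i ≠ (b : ℕ) := fun e => hb (Fin.ext e.symm)
          simp [coeff_X_pow, this]
        · simp
      · rw [hp i (by omega)]
        exact Finset.sum_eq_zero fun b _ => by
          have : i ≠ (b : ℕ) := fun e => hi (e ▸ b.2)
          simp [coeff_X_pow, this]
    have e2 : (∑ j : Fin (m + e), C (q.coeff j) * X ^ (j : ℕ)) = q := by
      ext i
      rw [finsetSum_coeff]
      by_cases hi : i < m + e
      · rw [Finset.sum_eq_single ⟨i, hi⟩]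
        · simp
        · rintro b - hb
          have : i ≠ (b : ℕ) := fun e => hb (Fin.ext e.symm)
          simp [coeff_X_pow, this]
        · simp
      · rw [hq i (by omega)]
        exact Finset.sum_eq_zero fun b _ => by
          have : i ≠ (b : ℕ) := fun e => hi (e ▸ b.2)
          simp [coeff_X_pow, this]
    rw [e1, e2]
    exact hcomb _ (Nat.le_add_right _ _)
  have hdet : ((condMat d m e y).map (MvPolynomial.eval v)).det ≠ 0 := by
    rw [RingHom.map_det, RingHom.mapMatrix_apply] at h
    exact h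
  have hv := Matrix.eq_zero_of_mulVec_eq_zero hdet hzero
  refine ⟨?_, ?_⟩
  · ext i
    by_cases hi : i < m
    · simpa using congrFun hv (Sum.inl ⟨i, hi⟩)
    · simp [hp i (by omega)]
  · ext i
    by_cases hi : i < m + e
    · simpa using congrFun hv (Sum.inr ⟨i, hi⟩)
    · simp [hq i (by omega)]

/-- The witness: dropping the `m` lowest coefficients of a monic `y` of degree `d`. -/
lemma cond_witness {d m e : ℕ} (hm : m ≤ d) {y x r : k[X]}
    (hyd : y.coeff d ≠ 0) (hsplit : y = X ^ m * x + r) (hr : ∀ i, m ≤ i → r.coeff i = 0) :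
    Cond d m e y x := by
  intro p q hp hq hcomb
  have hxd : x.coeff (d - m) ≠ 0 := by
    have : y.coeff d = x.coeff (d - m) := by
      rw [hsplit, coeff_add, hr d hm, add_zero, coeff_X_pow_mul', if_pos hm]
    rwa [← this]
  have hx0 : x ≠ 0 := fun h => hxd (by simp [h])
  have hxle : d - m ≤ x.natDegree := le_natDegree_of_ne_zero hxd
  set u := q + X ^ (e + m) * p with hu
  have hcomb' : ∀ i, d - m ≤ i → (u * x + X ^ e * p * r).coeff i = 0 := fun i hi => by
    rw [show u * x + X ^ e * p * r = X ^ e * p * y + q * x by rw [hsplit, hu]; ring]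
    exact hcomb i hi
  by_cases hp0 : p = 0
  · refine ⟨hp0, ?_⟩
    by_contra hq0
    have := hcomb' (q * x).natDegree (by rw [natDegree_mul hq0 hx0]; omega)
    simp only [hu, hp0, mul_zero, zero_mul, add_zero] at this
    exact leadingCoeff_ne_zero.2 (mul_ne_zero hq0 hx0) this
  · exfalso
    have hpm : p.natDegree < m := by
      by_contra hge
      exact leadingCoeff_ne_zero.2 hp0 (hp _ (by omega))
    have hucoeff : u.coeff (p.natDegree + (e + m)) = p.leadingCoeff := by
      rw [hu, coeff_add, hq _ (by omega), zero_add, coeff_X_pow_mul', if_pos (by omega),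
        Nat.add_sub_cancel]
      rfl
    have hu0 : u ≠ 0 := fun h => leadingCoeff_ne_zero.2 hp0 (by rw [← hucoeff, h, coeff_zero])
    have hule : p.natDegree + (e + m) ≤ u.natDegree :=
      le_natDegree_of_ne_zero (by rw [hucoeff]; exact leadingCoeff_ne_zero.2 hp0)
    have hsmall : (X ^ e * p * r).coeff (u * x).natDegree = 0 := by
      refine coeff_eq_zero_of_natDegree_lt (lt_of_le_of_lt natDegree_mul_le ?_)
      have hrdeg : r.natDegree ≤ m - 1 := coeff_le fun i hi => hr i (by omega)
      have h2 : (X ^ e * p).natDegree ≤ e + p.natDegree := natDegree_mul_le.trans (by simp)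
      rw [natDegree_mul hu0 hx0]
      omega
    have := hcomb' (u * x).natDegree (by rw [natDegree_mul hu0 hx0]; omega)
    rw [coeff_add, hsmall, add_zero] at this
    exact leadingCoeff_ne_zero.2 (mul_ne_zero hu0 hx0) this

/-- For a monic `y` of degree `d` the condition determinant is a nonzero polynomial. -/
lemma det_condMat_ne_zero {d m e : ℕ} (he : e ≤ 1) (hm : m ≤ d) {y : k[X]} (hy : y.natDegree ≤ d)
    (hyd : y.coeff d ≠ 0) : (condMat d m e y).det ≠ 0 := by
  intro h0
  set x : k[X] := polyOf d (fun i => y.coeff (i + m)) with hx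
  set v : Fin (d + 1) → k := fun i => y.coeff (i + m)
  have hsplit : y = X ^ m * x + (y - X ^ m * x) := (add_sub_cancel _ _).symm
  have hc : Cond d m e y x := by
    refine cond_witness hm hyd hsplit fun i hi => ?_
    rw [coeff_sub, coeff_X_pow_mul', if_pos hi, hx, coeff_polyOf]
    split_ifs with h
    · show y.coeff i - y.coeff (i - m + m) = 0
      rw [Nat.sub_add_cancel hi, sub_self]
    · rw [sub_zero, coeff_eq_zero_of_natDegree_lt (by omega)]
  have hdet : ((condMat d m e y).map (MvPolynomial.eval v)).det = 0 := by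
    rw [← RingHom.mapMatrix_apply, ← RingHom.map_det, h0, map_zero]
  obtain ⟨w, hw0, hw⟩ := Matrix.exists_mulVec_eq_zero_iff.2 hdet
  have hw' : Sum.elim (fun j => w (Sum.inl j)) (fun j => w (Sum.inr j)) = w := Sum.elim_comp_inl_inr w
  rw [← hw'] at hw
  set p : k[X] := ∑ j : Fin m, C (w (Sum.inl j)) * X ^ (j : ℕ)
  set q : k[X] := ∑ j : Fin (m + e), C (w (Sum.inr j)) * X ^ (j : ℕ)
  have hp : ∀ i, m ≤ i → p.coeff i = 0 := fun i hi => by
    rw [finsetSum_coeff]
    exact Finset.sum_eq_zero fun b _ => by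
      have : i ≠ (b : ℕ) := fun e => by omega
      simp [coeff_X_pow, this]
  have hq : ∀ i, m + e ≤ i → q.coeff i = 0 := fun i hi => by
    rw [finsetSum_coeff]
    exact Finset.sum_eq_zero fun b _ => by
      have : i ≠ (b : ℕ) := fun e => by omega
      simp [coeff_X_pow, this]
  obtain ⟨hp0, hq0⟩ := hc p q hp hq fun i hi => by
    by_cases hlt : i - (d - m) < m + (m + e)
    · obtain ⟨r, hr⟩ := finSumFinEquiv.surjective (⟨i - (d - m), hlt⟩ : Fin (m + (m + e)))
      have := congrFun hw r
      rw [condMat_mulVec, hr, show d - m + (i - (d - m)) = i by omega] at this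
      exact this
    · have h1 : (X ^ e * p * y).coeff i = 0 := by
        by_cases hp0 : p = 0
        · simp [hp0]
        have hpm : p.natDegree < m := by
          by_contra hge
          exact leadingCoeff_ne_zero.2 hp0 (hp _ (by omega))
        refine coeff_eq_zero_of_natDegree_lt (lt_of_le_of_lt natDegree_mul_le ?_)
        have h1 : (X ^ e * p).natDegree ≤ e + p.natDegree := natDegree_mul_le.trans (by simp)
        omega
      have h2 : (q * x).coeff i = 0 := by
        by_cases hq0 : q = 0
        · simp [hq0]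
        have hqm : q.natDegree < m + e := by
          by_contra hge
          exact leadingCoeff_ne_zero.2 hq0 (hq _ (by omega))
        refine coeff_eq_zero_of_natDegree_lt (lt_of_le_of_lt natDegree_mul_le ?_)
        have hxdeg : x.natDegree ≤ d - m := coeff_le fun j hj => by
          rw [hx, coeff_polyOf]
          split_ifs with h
          · exact coeff_eq_zero_of_natDegree_lt (by dsimp only; omega)
          · rfl
        omega
      rw [coeff_add, h1, h2, add_zero]
  refine hw0 (funext fun r => ?_)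
  rcases r with j | j
  · have := congrArg (fun u : k[X] => u.coeff j) hp0
    simpa [p, finsetSum_coeff, coeff_X_pow, Fin.val_inj] using this
  · have := congrArg (fun u : k[X] => u.coeff j) hq0
    simpa [q, finsetSum_coeff, coeff_X_pow, Fin.val_inj] using this

/-- For a monic `y` of degree `d`: a nonzero polynomial in the coefficients of `x` outside whose zeros
all conditions hold. -/
theorem exists_good_poly {d : ℕ} {y : k[X]} (hy : y.natDegree ≤ d) (hyd : y.coeff d ≠ 0) :
    ∃ P : MvPolynomial (Fin (d + 1)) k, P ≠ 0 ∧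
      ∀ v, MvPolynomial.eval v P ≠ 0 → AllCond d y (polyOf d v) ∧ v 0 ≠ 0 := by
  classical
  refine ⟨MvPolynomial.X 0 * ∏ m ∈ Finset.range (d + 1), ∏ e ∈ Finset.range 2, (condMat d m e y).det,
    mul_ne_zero (MvPolynomial.X_ne_zero _) (Finset.prod_ne_zero_iff.2 fun m hm =>
      Finset.prod_ne_zero_iff.2 fun e he => det_condMat_ne_zero (by simp at he; omega)
        (by simp at hm; omega) hy hyd), fun v hv => ?_⟩
  simp only [map_mul, map_prod, MvPolynomial.eval_X, ne_eq, mul_eq_zero, not_or,
    Finset.prod_eq_zero_iff, not_exists, not_and] at hv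
  exact ⟨fun m e hm he => cond_of_det_ne_zero y v (hv.2 m (by simp; omega) e (by simp; omega)), hv.1⟩

end CfsgLib.QuadPair
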