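import Cfsg.Agent.QuadPair.Components
import Cfsg.Agent.RootGroups.Commuting

/-!
The kernel of the action of `G` on the classes of members with equal commuting sets meets each abelian group
`⟨members with the commuting set of A⟩` trivially, so it centralises all members.
-/

set_option autoImplicit false
universe u

open Cfsg
open scoped commutatorElement
open CfsgLib.RankOne (conjBy_conjBy conjBy_inv_conjBy conjBy_eq_self_iff conjBy_inj)
open CfsgLib.RootGroups (mem_centralizingMembers_iff conj_commutator_eq_bot)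

namespace CfsgLib.QuadPair

variable {k : Type u} [Field k] {M : Type u} [AddCommGroup M] [Module k M] [FiniteDimensional k M]
variable {G : Subgroup (LinearMap.GeneralLinearGroup k M)} {A B C : Subgroup (LinearMap.GeneralLinearGroup k M)}

/-- The members commuting with `A`. -/
abbrev Cm (G A : Subgroup (LinearMap.GeneralLinearGroup k M)) : Set (Subgroup (LinearMap.GeneralLinearGroup k M)) :=
  centralizingMembers (quadraticRootSubgroups G) A

lemma self_mem_Cm (hA : A ∈ quadraticRootSubgroups G) : A ∈ Cm G A := by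
  refine mem_centralizingMembers_iff.2 ⟨hA, ?_⟩
  obtain ⟨a, ha, rfl⟩ := mem_roots_iff.1 hA
  have := isMulCommutative_Ecl (G := G) ha.mem.1
  exact CfsgLib.RootGroups.commutator_eq_bot_iff.2 fun x hx y hy =>
    congrArg Subtype.val (mul_comm' (⟨x, hx⟩ : Ecl G a) ⟨y, hy⟩)

lemma mem_Cm_conj {g : LinearMap.GeneralLinearGroup k M} (hg : g ∈ G) :
    B ∈ Cm G (conjBy A g) ↔ conjBy B g⁻¹ ∈ Cm G A := by
  rw [mem_centralizingMembers_iff, mem_centralizingMembers_iff]
  constructor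
  · rintro ⟨h1, h2⟩
    refine ⟨conjBy_mem_roots h1 (inv_mem hg), ?_⟩
    rwa [← conj_commutator_eq_bot g⁻¹, conjBy_inv_conjBy] at h2
  · rintro ⟨h1, h2⟩
    have h1' := conjBy_mem_roots h1 hg
    rw [conjBy_conjBy, mul_inv_cancel, CfsgLib.RankOne.conjBy_one] at h1'
    refine ⟨h1', ?_⟩
    rwa [← conj_commutator_eq_bot g, conjBy_conjBy, mul_inv_cancel, CfsgLib.RankOne.conjBy_one] at h2

lemma Cm_conj_congr {g : LinearMap.GeneralLinearGroup k M} (hg : g ∈ G) (h : Cm G A = Cm G B) :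
    Cm G (conjBy A g) = Cm G (conjBy B g) := Set.ext fun X => by rw [mem_Cm_conj hg, mem_Cm_conj hg, h]

/-- The group generated by the members with the commuting set of `A`. -/
def UC (G A : Subgroup (LinearMap.GeneralLinearGroup k M)) : Subgroup (LinearMap.GeneralLinearGroup k M) :=
  ⨆ B ∈ {B | B ∈ quadraticRootSubgroups G ∧ Cm G B = Cm G A}, B

omit [FiniteDimensional k M] in
lemma le_UC (hA : A ∈ quadraticRootSubgroups G) : A ≤ UC G A := le_iSup₂ (f := fun C _ => C) A ⟨hA, rfl⟩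

omit [FiniteDimensional k M] in
lemma UC_congr (h : Cm G A = Cm G B) : UC G A = UC G B := by rw [UC, UC, h]

lemma UC_unipotent (h2 : (2 : k) ≠ 0) (h3 : Nat.card k ≠ 3) : IsUnipotentOn (UC G A) := by
  have hc : ∀ B ∈ {B | B ∈ quadraticRootSubgroups G ∧ Cm G B = Cm G A},
      ∀ C ∈ {B | B ∈ quadraticRootSubgroups G ∧ Cm G B = Cm G A}, ⁅B, C⁆ = ⊥ := fun B hB C hC => by
    have := self_mem_Cm hB.1
    rw [hB.2, ← hC.2] at this
    exact (mem_centralizingMembers_iff.1 this).2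
  refine unipotent_iSup (G := UC G A) (fun B hB => le_iSup₂ (f := fun C _ => C) B hB) ?_ ?_
  · intro B hB C hC
    obtain ⟨b, hb, rfl⟩ := mem_roots_iff.1 hB.1
    obtain ⟨c, hc', rfl⟩ := mem_roots_iff.1 hC.1
    exact (unipotent_sup_iff h2 h3 hb hc').2 (nilpotent_of_commutator_eq_bot hb hc' (hc _ hB _ hC))
  · intro B hB g hg
    have : conjBy B g = B := conjBy_eq_self_iff.2 (Subgroup.centralizer_le_normalizer _
      ((iSup₂_le fun C hC => Subgroup.commutator_eq_bot_iff_le_centralizer.1 (hc C hC B hB) :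
        UC G A ≤ Subgroup.centralizer (B : Set (LinearMap.GeneralLinearGroup k M))) hg))
    rw [this]; exact hB

lemma conjBy_UC_le {g : LinearMap.GeneralLinearGroup k M} (hg : g ∈ G) :
    conjBy (UC G A) g ≤ UC G (conjBy A g) := by
  rw [UC, conjBy, Subgroup.map_iSup]
  refine iSup_le fun B => ?_
  rw [Subgroup.map_iSup]
  exact iSup_le fun hB => le_iSup₂ (f := fun C _ => C) (conjBy B g) ⟨conjBy_mem_roots hB.1 hg, Cm_conj_congr hg hB.2⟩

/-- The elements of `G` fixing every commuting set. -/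
def classKer (G : Subgroup (LinearMap.GeneralLinearGroup k M)) : Subgroup (LinearMap.GeneralLinearGroup k M) where
  carrier := {g | g ∈ G ∧ ∀ A ∈ quadraticRootSubgroups G, Cm G (conjBy A g) = Cm G A}
  one_mem' := ⟨one_mem G, fun A _ => by rw [CfsgLib.RankOne.conjBy_one]⟩
  mul_mem' {g h} hg hh := ⟨mul_mem hg.1 hh.1, fun A hA => by
    rw [← conjBy_conjBy, hg.2 _ (conjBy_mem_roots hA hh.1), hh.2 A hA]⟩
  inv_mem' {g} hg := ⟨inv_mem hg.1, fun A hA => by
    have h := hg.2 _ (conjBy_mem_roots hA (inv_mem hg.1))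
    rw [conjBy_conjBy, mul_inv_cancel, CfsgLib.RankOne.conjBy_one] at h
    exact h.symm⟩

lemma conj_mem_classKer {g x : LinearMap.GeneralLinearGroup k M} (hg : g ∈ G) (hx : x ∈ classKer G) :
    g * x * g⁻¹ ∈ classKer G := by
  refine ⟨mul_mem (mul_mem hg hx.1) (inv_mem hg), fun A hA => ?_⟩
  have h := Cm_conj_congr hg (hx.2 _ (conjBy_mem_roots hA (inv_mem hg)))
  rw [conjBy_conjBy, conjBy_conjBy, conjBy_conjBy, mul_inv_cancel, CfsgLib.RankOne.conjBy_one] at h
  exact h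

/-- The kernel meets every `UC` trivially. -/
theorem classKer_inf_UC (h2 : (2 : k) ≠ 0) (h3 : Nat.card k ≠ 3) (hirr : IsIrreducibleFor G)
    (hA : A ∈ quadraticRootSubgroups G) : classKer G ⊓ UC G A = ⊥ := by
  set W := (fun X => classKer G ⊓ UC G X) '' quadraticRootSubgroups G
  have hinvle : ∀ X, ∀ g ∈ G, ∀ x ∈ classKer G ⊓ UC G X, g * x * g⁻¹ ∈ classKer G ⊓ UC G (conjBy X g) :=
    fun X g hg x hx => ⟨conj_mem_classKer hg hx.1, conjBy_UC_le hg ⟨x, hx.2, rfl⟩⟩
  have hWG : ∀ X ∈ W, X ≤ G := by rintro _ ⟨X, -, rfl⟩; exact fun x hx => hx.1.1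
  have hWW : ∀ X ∈ W, ∀ Y ∈ W, IsUnipotentOn (X ⊔ Y) := by
    rintro _ ⟨X, hX, rfl⟩ _ ⟨Y, hY, rfl⟩
    refine unipotent_sup (unipotent_mono inf_le_right (UC_unipotent h2 h3))
      (unipotent_mono inf_le_right (UC_unipotent h2 h3)) fun y hy => Subgroup.mem_normalizer_iff.2 fun x => ⟨fun hx => ?_,
        fun hx => ?_⟩
    · have := hinvle X y hy.1.1 x hx
      rwa [UC_congr (hy.1.2 X hX)] at this
    · have := hinvle X y⁻¹ (inv_mem hy.1.1) _ hx
      rw [UC_congr ((inv_mem hy.1 : y⁻¹ ∈ classKer G).2 X hX)] at this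
      simpa [mul_assoc] using this
  have hWconj : ∀ X ∈ W, ∀ g ∈ G, conjBy X g ∈ W := by
    rintro _ ⟨X, hX, rfl⟩ g hg
    refine ⟨conjBy X g, conjBy_mem_roots hX hg, le_antisymm (fun x hx => ?_) ?_⟩
    · refine ⟨g⁻¹ * x * g, ?_, by simp [mul_assoc]⟩
      have := hinvle _ g⁻¹ (inv_mem hg) x hx
      rw [conjBy_inv_conjBy, inv_inv] at this
      exact this
    · rintro _ ⟨x, hx, rfl⟩; exact hinvle X g hg x hx
  have hnorm : ∀ g ∈ G, ∀ h ∈ ⨆ X ∈ W, X, g⁻¹ * h * g ∈ ⨆ X ∈ W, X := fun g hg h hh => by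
    have key : conjBy (⨆ X ∈ W, X) g⁻¹ ≤ ⨆ X ∈ W, X := by
      simp only [conjBy, Subgroup.map_iSup]
      exact iSup₂_le fun X hX => le_iSup₂ (f := fun B _ => B) _ (hWconj X hX g⁻¹ (inv_mem hg))
    simpa using key ⟨h, hh, rfl⟩
  exact le_bot_iff.1 ((le_iSup₂ (f := fun B _ => B) (classKer G ⊓ UC G A) ⟨A, hA, rfl⟩).trans
    (eq_bot_of_normal_unipotent hirr (unipotent_iSup hWG hWW hWconj) hnorm).le)

/-- The kernel centralises every member. -/
theorem classKer_le_centralizer (h2 : (2 : k) ≠ 0) (h3 : Nat.card k ≠ 3) (hirr : IsIrreducibleFor G)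
    (hA : A ∈ quadraticRootSubgroups G) :
    classKer G ≤ Subgroup.centralizer (A : Set (LinearMap.GeneralLinearGroup k M)) := by
  intro x hx
  rw [Subgroup.mem_centralizer_iff]
  intro α hα
  have hαG : α ∈ G := by
    obtain ⟨a, ha, rfl⟩ := mem_roots_iff.1 hA
    exact Ecl_le ha.mem.1 hα
  have h1 : x * α * x⁻¹ * α⁻¹ ∈ classKer G ⊓ UC G A := by
    refine ⟨?_, (UC G A).mul_mem ?_ ((UC G A).inv_mem (le_UC hA hα))⟩
    · rw [show x * α * x⁻¹ * α⁻¹ = x * (α * x⁻¹ * α⁻¹) by simp only [mul_assoc]]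
      exact (classKer G).mul_mem hx (conj_mem_classKer hαG ((classKer G).inv_mem hx))
    · have h := conjBy_UC_le (A := A) hx.1 ⟨α, le_UC hA hα, rfl⟩
      rw [UC_congr (hx.2 A hA)] at h
      exact h
  rw [classKer_inf_UC h2 h3 hirr hA, Subgroup.mem_bot, mul_inv_eq_one, mul_inv_eq_iff_eq_mul] at h1
  exact h1.symm

end CfsgLib.QuadPair
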