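import Cfsg.Agent.QuadPair.Basic

/-!
A unipotent pair: `a b a = 0` for `a` of minimal rank; the bracket `ab - ba`.
-/

set_option autoImplicit false

open Cfsg

namespace CfsgLib.QuadPair

variable {k : Type*} [Field k] {M : Type*} [AddCommGroup M] [Module k M]
variable {G : Subgroup (LinearMap.GeneralLinearGroup k M)} {a b : Module.End k M}

lemma gset_add (ha : a ∈ gset G) (hb : b ∈ gset G) (hab : a * b = 0) (hba : b * a = 0) : a + b ∈ gset G := by
  refine ⟨?_, fun c => ?_⟩
  · rw [add_mul, mul_add, mul_add, ha.1, hb.1, hab, hba, add_zero, add_zero]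
  · obtain ⟨g, hg, eg⟩ := ha.2 c
    obtain ⟨h, hh, eh⟩ := hb.2 c
    refine ⟨g * h, mul_mem hg hh, ?_⟩
    rw [dl_mul, eg, eh, smul_mul_smul_comm, hab, smul_zero, add_zero, smul_add]

lemma gset_sub (ha : a ∈ gset G) (hb : b ∈ gset G) (hab : a * b = 0) (hba : b * a = 0) : a - b ∈ gset G := by
  rw [sub_eq_add_neg]
  exact gset_add ha (gset_neg hb) (by rw [mul_neg, hab, neg_zero]) (by rw [neg_mul, hba, neg_zero])

lemma dl_inv_of_sq {g : LinearMap.GeneralLinearGroup k M} (h : dl g * dl g = 0) : dl g⁻¹ = -dl g := by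
  have h1 : (g : Module.End k M) * (1 - dl g) = 1 := by
    rw [val_eq g, add_mul, one_mul, mul_sub, mul_one, h, sub_zero, sub_add_cancel]
  rw [dl, Units.inv_eq_of_mul_eq_one_right h1]; abel

lemma dl_commutator (ha : a * a = 0) (hb : b * b = 0) (haba : a * b * a = 0) (hbab : b * a * b = 0) {x y : k}
    {g h : LinearMap.GeneralLinearGroup k M} (eg : dl g = x • a) (eh : dl h = y • b) :
    dl (g * h * g⁻¹ * h⁻¹) = (x * y) • (a * b - b * a) := by
  have eg' : dl g⁻¹ = -(x • a) := by rw [dl_inv_of_sq (by rw [eg]; exact smul_sq ha x), eg]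
  have eh' : dl h⁻¹ = -(y • b) := by rw [dl_inv_of_sq (by rw [eh]; exact smul_sq hb y), eh]
  have a1 : ∀ z, a * (a * z) = 0 := fun z => by rw [← mul_assoc, ha, zero_mul]
  have b1 : ∀ z, b * (b * z) = 0 := fun z => by rw [← mul_assoc, hb, zero_mul]
  have a2 : a * (b * a) = 0 := by rw [← mul_assoc, haba]
  have b2 : b * (a * b) = 0 := by rw [← mul_assoc, hbab]
  have a3 : ∀ z, a * (b * (a * z)) = 0 := fun z => by rw [← mul_assoc, ← mul_assoc, haba, zero_mul]
  have b3 : ∀ z, b * (a * (b * z)) = 0 := fun z => by rw [← mul_assoc, ← mul_assoc, hbab, zero_mul]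
  rw [dl_mul, dl_mul, dl_mul, eg, eh, eg', eh']
  simp only [add_mul, mul_neg, neg_mul, smul_mul_smul_comm, mul_assoc,
    ha, hb, a2, b2, mul_zero, smul_zero, neg_zero, add_zero, zero_add]
  rw [smul_sub, mul_comm y x]
  abel

lemma bracket_sq (ha : a * a = 0) (hb : b * b = 0) (haba : a * b * a = 0) (hbab : b * a * b = 0) :
    (a * b - b * a) * (a * b - b * a) = 0 := by
  have e : (a * b - b * a) * (a * b - b * a) =
      a * b * a * b - a * (b * b) * a - b * (a * a) * b + b * a * b * a := by noncomm_ring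
  rw [e, haba, hbab, hb, ha]; simp

lemma bracket_mem (ha : a ∈ gset G) (hb : b ∈ gset G) (haba : a * b * a = 0) (hbab : b * a * b = 0) :
    a * b - b * a ∈ gset G := by
  refine ⟨bracket_sq ha.1 hb.1 haba hbab, fun c => ?_⟩
  obtain ⟨g, hg, eg⟩ := ha.2 c
  obtain ⟨h, hh, eh⟩ := hb.2 1
  refine ⟨g * h * g⁻¹ * h⁻¹, mul_mem (mul_mem (mul_mem hg hh) (inv_mem hg)) (inv_mem hh), ?_⟩
  rw [dl_commutator ha.1 hb.1 haba hbab eg eh, mul_one]

lemma rk_conj (g : LinearMap.GeneralLinearGroup k M) (a : Module.End k M) :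
    rk ((g : Module.End k M) * a * ((g⁻¹ : LinearMap.GeneralLinearGroup k M) : Module.End k M)) = rk a := by
  set e := LinearMap.GeneralLinearGroup.generalLinearEquiv k M g
  have h : LinearMap.range ((g : Module.End k M) * a * ((g⁻¹ : LinearMap.GeneralLinearGroup k M) : Module.End k M)) =
      (LinearMap.range a).map (g : Module.End k M) := by
    ext x
    constructor
    · rintro ⟨y, rfl⟩
      exact ⟨a (((g⁻¹ : LinearMap.GeneralLinearGroup k M) : Module.End k M) y), ⟨_, rfl⟩, rfl⟩
    · rintro ⟨_, ⟨y, rfl⟩, rfl⟩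
      refine ⟨(g : Module.End k M) y, ?_⟩
      show (g : Module.End k M) (a ((((g⁻¹ : LinearMap.GeneralLinearGroup k M) : Module.End k M) * (g : Module.End k M)) y)) = _
      rw [Units.inv_mul]; rfl
  rw [rk, h, rk]
  exact (Submodule.equivMapOfInjective _ e.injective (LinearMap.range a)).finrank_eq.symm

lemma isMin_conj (ha : IsMin G a) {g : LinearMap.GeneralLinearGroup k M} (hg : g ∈ G) :
    IsMin G ((g : Module.End k M) * a * ((g⁻¹ : LinearMap.GeneralLinearGroup k M) : Module.End k M)) := by
  refine ⟨gset_conj ha.mem hg, fun h => ha.ne ?_, fun b hb hb0 => (rk_conj g a).trans_le (ha.le b hb hb0)⟩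
  calc a = ((g⁻¹ : LinearMap.GeneralLinearGroup k M) : Module.End k M) *
      ((g : Module.End k M) * a * ((g⁻¹ : LinearMap.GeneralLinearGroup k M) : Module.End k M)) * (g : Module.End k M) := by
        simp only [← mul_assoc, Units.inv_mul, one_mul]; rw [mul_assoc, Units.inv_mul, mul_one]
    _ = 0 := by rw [h, mul_zero, zero_mul]

lemma pw_comm (a b : Module.End k M) (j : ℕ) : pw a b j = pw b a j := by rw [pw, pw, Set.pair_comm]

lemma pw_two_le (a b : Module.End k M) : pw a b 2 ≤ pw a b 1 * pw a b 1 := by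
  refine iSup_le fun i => ?_
  rw [pow_add _ i 2, sq, ← mul_assoc, ← pow_succ]
  exact mul_le_mul' (le_iSup (fun z => Submodule.span k {a, b} ^ (z + 1)) i)
    ((Submodule.pow_one _).symm.le.trans (le_iSup (fun z => Submodule.span k {a, b} ^ (z + 1)) 0))

/-- For a nilpotent pair `a, b` either `b ∈ k a` or `k a + A² < A` for the algebra `A` they generate. -/
lemma not_mem_or (ha : a * a = 0) (hb : b * b = 0) (hs : IsNilpotent (a * b + b * a)) :
    b ∈ Submodule.span k {a} ∨ b ∉ Submodule.span k {a} ⊔ pw a b 2 := by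
  by_cases hmem : b ∈ Submodule.span k {a} ⊔ pw a b 2
  · left
    have hN : pw a b 1 ≤ Submodule.span k {a} ⊔ pw a b 2 := by
      refine iSup_le fun i => ?_
      rcases i with _ | i
      · rw [zero_add, Submodule.pow_one, Submodule.span_le]
        rintro x (rfl | rfl)
        · exact Submodule.mem_sup_left (Submodule.mem_span_singleton_self _)
        · exact hmem
      · exact le_sup_of_le_right (le_iSup (fun z => Submodule.span k {a, b} ^ (z + 2)) i)
    have ha1 : Submodule.span k {a} ≤ pw a b 1 := by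
      rw [Submodule.span_le, Set.singleton_subset_iff]; exact mem_pw_one_left a b
    have haa : Submodule.span k {a} * Submodule.span k {a} ≤ ⊥ := by
      rw [Submodule.span_mul_span, Submodule.span_le]
      rintro _ ⟨x, rfl, y, rfl, rfl⟩
      simp [ha]
    have hstep : ∀ i, pw a b 2 ≤ pw a b (2 + i) := by
      intro i
      induction i with
      | zero => exact le_rfl
      | succ i ih =>
        refine (pw_two_le a b).trans ((mul_le_mul' (hN.trans (sup_le_sup_left ih _))
          (hN.trans (sup_le_sup_left ih _))).trans ?_)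
        rw [Submodule.sup_mul, Submodule.mul_sup, Submodule.mul_sup]
        refine sup_le (sup_le (haa.trans bot_le) ?_) (sup_le ?_ ?_)
        · exact (mul_le_mul' ha1 le_rfl).trans ((pw_mul a b _ _).trans (pw_anti a b (by omega)))
        · exact (mul_le_mul' le_rfl ha1).trans ((pw_mul a b _ _).trans (pw_anti a b (by omega)))
        · exact (pw_mul a b _ _).trans (pw_anti a b (by omega))
    obtain ⟨n, hn⟩ := exists_pw_eq_bot ha hb hs
    have h2 : pw a b 2 = ⊥ := le_bot_iff.1 ((hstep n).trans ((pw_anti a b (by omega)).trans hn.le))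
    rwa [h2, sup_bot_eq] at hmem
  · exact Or.inr hmem

/-- `a b a = 0` for `a` of minimal rank, `b ∈ gset G`, `⟨1 + k a, 1 + k b⟩` unipotent. -/
theorem aba_eq_zero [FiniteDimensional k M] (h2 : (2 : k) ≠ 0) (ha : IsMin G a) (hb : b ∈ gset G)
    (hs : IsNilpotent (a * b + b * a)) : a * b * a = 0 := by
  suffices ∀ n (a b : Module.End k M), Module.finrank k (pw a b 1) = n → IsMin G a → b ∈ gset G →
      IsNilpotent (a * b + b * a) → a * b * a = 0 from this _ a b rfl ha hb hs
  intro n
  induction n using Nat.strong_induction_on with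
  | _ n ih =>
    intro a b hn ha hb hs
    rcases not_mem_or ha.mem.1 hb.1 hs with h | h
    · obtain ⟨c, rfl⟩ := Submodule.mem_span_singleton.1 h
      rw [mul_smul_comm, smul_mul_assoc, ha.mem.1, zero_mul, smul_zero]
    obtain ⟨m, hm⟩ := pw_one_nilpotent ha.mem.1 hb.1 hs
    set S := Submodule.span k {a} ⊔ pw a b 2 with hS
    have haS : a ∈ S := Submodule.mem_sup_left (Submodule.mem_span_singleton_self _)
    have hSle : S ≤ pw a b 1 := sup_le (by rw [Submodule.span_le, Set.singleton_subset_iff]; exact mem_pw_one_left a b)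
      (pw_anti a b one_le_two)
    have hlt : S < pw a b 1 := lt_of_le_of_ne hSle fun e => h (e ▸ mem_pw_one_right a b)
    have hSS : S * S ≤ S := (mul_le_mul' hSle hSle).trans ((pw_mul a b 1 1).trans le_sup_right)
    have m2 : ∀ x y, x ∈ pw a b 1 → y ∈ pw a b 1 → x * y ∈ pw a b 2 := fun x y hx hy =>
      pw_mul a b 1 1 (Submodule.mul_mem_mul hx hy)
    have mA := mem_pw_one_left (k := k) a b
    have mB := mem_pw_one_right (k := k) a b
    have mBA : b * a ∈ pw a b 1 := pw_anti a b one_le_two (m2 _ _ mB mA)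
    -- the conjugates of `a`
    have hconj : ∀ c : k, ∃ a', IsMin G a' ∧ a' = a + c • (b * a - a * b) - (c * c) • (b * a * b) ∧
        a * a' * a = 0 ∧ a' * a * a' = 0 := by
      intro c
      obtain ⟨g, hg, eg⟩ := hb.2 c
      have hsq : dl g * dl g = 0 := by rw [eg]; exact smul_sq hb.1 c
      set a' := (g : Module.End k M) * a * ((g⁻¹ : LinearMap.GeneralLinearGroup k M) : Module.End k M) with ha'
      have e : a' = a + c • (b * a - a * b) - (c * c) • (b * a * b) := by
        rw [ha', val_eq g, val_eq g⁻¹, dl_inv_of_sq hsq, eg]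
        simp only [add_mul, one_mul, mul_add, mul_one, mul_neg, smul_mul_assoc, mul_smul_comm]
        module
      have ha'S : a' ∈ S := by
        rw [e]
        exact sub_mem (add_mem haS (Submodule.smul_mem _ _ (Submodule.mem_sup_right (sub_mem (m2 _ _ mB mA) (m2 _ _ mA mB)))))
          (Submodule.smul_mem _ _ (Submodule.mem_sup_right (m2 _ _ mBA mB)))
      have hmin : IsMin G a' := isMin_conj ha hg
      have hle : pw a a' 1 ≤ S := by
        refine iSup_le fun i => ?_
        have hP : Submodule.span k ({a, a'} : Set (Module.End k M)) ≤ S := by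
          rw [Submodule.span_le]; exact Set.insert_subset haS (Set.singleton_subset_iff.2 ha'S)
        induction i with
        | zero => rw [zero_add, Submodule.pow_one]; exact hP
        | succ i ihi => rw [pow_succ]; exact (mul_le_mul' ihi hP).trans hSS
      have hsub : pw a a' 1 ≤ pw a b 1 := hle.trans hSle
      have hnil : ∀ x ∈ pw a b 1, IsNilpotent x := fun x hx =>
        ⟨m, (Submodule.mem_bot k).1 (hm ▸ Submodule.pow_mem_pow _ hx m)⟩
      have hs' : IsNilpotent (a * a' + a' * a) := hnil _ (hSle (add_mem (hSS (Submodule.mul_mem_mul haS ha'S))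
        (hSS (Submodule.mul_mem_mul ha'S haS))))
      have hdim : Module.finrank k (pw a a' 1) < n := hn ▸
        Submodule.finrank_lt_finrank_of_lt (lt_of_le_of_lt hle hlt)
      exact ⟨a', hmin, e, ih _ hdim a a' rfl ha hmin.mem hs',
        ih _ (by rwa [pw_comm]) a' a rfl hmin ha.mem (by rwa [add_comm])⟩
    have a1 : ∀ z, a * (a * z) = 0 := fun z => by rw [← mul_assoc, ha.mem.1, zero_mul]
    have b1 : ∀ z, b * (b * z) = 0 := fun z => by rw [← mul_assoc, hb.1, zero_mul]
    -- `ababa = 0`
    have h5 : a * (b * (a * (b * a))) = 0 := by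
      obtain ⟨a', -, e, h3, -⟩ := hconj 1
      rw [e] at h3
      simpa [mul_add, add_mul, mul_sub, sub_mul, mul_assoc, ha.mem.1, a1] using h3
    have h5' : ∀ z, a * (b * (a * (b * (a * z)))) = 0 := fun z => by
      have := congrArg (· * z) h5
      simpa [mul_assoc] using this
    set u := a * b * a with hu
    set w := a * b * a * b - b * a * b * a with hw
    have hz : ∀ c : k, (2 * c) • u - (c * c) • w ∈ gset G := fun c => by
      obtain ⟨a', hmin, e, h3, h4⟩ := hconj c
      have := bracket_mem ha.mem hmin.mem h3 h4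
      convert this using 1
      rw [e, hu, hw]
      simp only [mul_add, add_mul, mul_sub, sub_mul, mul_smul_comm, smul_mul_assoc, mul_assoc, ha.mem.1, a1,
        mul_zero, smul_zero]
      module
    have huu : u * u = 0 := by simp [hu, mul_assoc, a1]
    have huw : u * w = 0 := by simp [hu, hw, mul_assoc, mul_sub, a1, h5']
    have hwu : w * u = 0 := by simp [hu, hw, mul_assoc, sub_mul, a1, h5, h5']
    have hww : w * w = 0 := by simp [hw, mul_assoc, sub_mul, mul_sub, a1, b1, h5, h5']
    have hprod : ∀ x y x' y' : k, (x • u - y • w) * (x' • u - y' • w) = 0 := fun x y x' y' => by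
      simp [sub_mul, mul_sub, smul_mul_smul_comm, huu, huw, hwu, hww]
    have hu' : u ∈ gset G := by
      have := gset_smul (gset_sub (hz 1) (hz (-1)) (hprod _ _ _ _) (hprod _ _ _ _)) ((4 : k)⁻¹)
      convert this using 1
      rw [sub_sub_sub_comm, ← sub_smul, ← sub_smul, show (2 : k) * 1 - 2 * -1 = 4 by ring,
        show (1 : k) * 1 - -1 * -1 = 0 by ring, zero_smul, sub_zero, smul_smul,
        inv_mul_cancel₀ (by rw [show (4 : k) = 2 * 2 by norm_num]; exact mul_ne_zero h2 h2), one_smul]
    by_contra hu0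
    have hrange := range_eq_of_le ha hu' hu0 (by rintro _ ⟨x, rfl⟩; exact ⟨(b * a) x, by rw [hu]; rfl⟩)
    refine hu0 (LinearMap.ext fun x => ?_)
    obtain ⟨y, hy⟩ := (hrange.symm ▸ LinearMap.mem_range_self a x : a x ∈ LinearMap.range u)
    show a (b (a x)) = 0
    rw [← hy]
    exact LinearMap.congr_fun (show a * b * u = 0 by simp [hu, mul_assoc, h5]) y

end CfsgLib.QuadPair
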