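import Cfsg.Agent.QuadPair.Partner

/-!
Unipotent pairs of classes: the commutator of two groups `E(σ)`, nilpotency class two, when two classes commute.
-/

set_option autoImplicit false
universe u

open Cfsg
open scoped commutatorElement

namespace CfsgLib.QuadPair

variable {k : Type u} [Field k] {M : Type u} [AddCommGroup M] [Module k M]
variable {G : Subgroup (LinearMap.GeneralLinearGroup k M)} {a b a' a'' b' : Module.End k M}

lemma commute_of_dl {g h : LinearMap.GeneralLinearGroup k M} (e : dl g * dl h = dl h * dl g) : g * h = h * g :=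
  dl_injective (by rw [dl_mul, dl_mul, e]; abel)

lemma mul_comm_dl {g h : LinearMap.GeneralLinearGroup k M} (e : g * h = h * g) : dl g * dl h = dl h * dl g := by
  have h1 := congrArg dl e
  rw [dl_mul, dl_mul, add_comm (dl h) (dl g)] at h1
  exact add_left_cancel h1

lemma cls_mul_cls (h : a * b = 0) (hx : a' ∈ cls G a) (hy : b' ∈ cls G b) : a' * b' = 0 :=
  mul_eq_zero_iff_le.2 (hy.2.1.trans ((mul_eq_zero_iff_le.1 h).trans hx.2.2))

lemma cls_neg_eq : cls G (-a) = cls G a := cls_eq_of_eq (LinearMap.range_neg a) (LinearMap.ker_neg a)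

lemma fixed_Ecl (ha : IsMin G a) : fixedSubmodule (Ecl G a) = LinearMap.ker a := by
  refine le_antisymm ?_ (le_iInf₂ fun g hg => ((mem_Ecl ha.mem.1).1 hg).2.2)
  have h : fixedSubmodule (Ecl G a) ≤ LinearMap.ker (dl (one_add a ha.mem.1)) :=
    iInf₂_le (f := fun g (_ : g ∈ Ecl G a) => LinearMap.ker (dl g)) _ (one_add_mem_Ecl ha.mem.1 (self_mem_cls ha))
  rwa [dl_one_add] at h

lemma commutator_Ecl (ha : IsMin G a) : commutatorSubmodule (Ecl G a) = LinearMap.range a := by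
  refine le_antisymm (iSup₂_le fun g hg => ((mem_Ecl ha.mem.1).1 hg).2.1) ?_
  have h : LinearMap.range (dl (one_add a ha.mem.1)) ≤ commutatorSubmodule (Ecl G a) :=
    le_iSup₂ (f := fun g (_ : g ∈ Ecl G a) => LinearMap.range (dl g)) _ (one_add_mem_Ecl ha.mem.1 (self_mem_cls ha))
  rwa [dl_one_add] at h

variable [FiniteDimensional k M]

lemma cls_congr (ha : IsMin G a) (hx : a' ∈ cls G a) (h0 : a' ≠ 0) : cls G a' = cls G a :=
  cls_eq_of_eq (isMin_of_mem_cls ha hx h0).2.1 (isMin_of_mem_cls ha hx h0).2.2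

/-- For a unipotent pair of classes `a' b' a' = 0`. -/
lemma pair_products (h2 : (2 : k) ≠ 0) (h3 : Nat.card k ≠ 3) (ha : IsMin G a) (hb : IsMin G b)
    (hs : IsNilpotent (a * b + b * a)) (ha' : a' ∈ cls G a) (hb' : b' ∈ cls G b) :
    a' * b' * a' = 0 ∧ b' * a' * b' = 0 := by
  rcases eq_or_ne a' 0 with rfl | ha0
  · simp
  rcases eq_or_ne b' 0 with rfl | hb0
  · simp
  have m1 := (isMin_of_mem_cls ha ha' ha0).1
  have m2 := (isMin_of_mem_cls hb hb' hb0).1
  have hn := (nilpotent_congr h2 h3 ha hb ha' ha0 hb' hb0).2 hs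
  exact ⟨aba_eq_zero h2 m1 m2.mem hn, aba_eq_zero h2 m2 m1.mem (by rwa [add_comm])⟩

/-- When the bracket vanishes the two classes commute. -/
lemma comm_of_bracket_zero (h2 : (2 : k) ≠ 0) (h3 : Nat.card k ≠ 3) (ha : IsMin G a) (hb : IsMin G b)
    (hs : IsNilpotent (a * b + b * a)) (hz : a * b - b * a = 0) (ha' : a' ∈ cls G a) (hb' : b' ∈ cls G b) :
    a' * b' = b' * a' := by
  rcases eq_or_ne a' 0 with rfl | ha0
  · simp
  rcases eq_or_ne b' 0 with rfl | hb0
  · simp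
  by_contra h
  exact (bracket_congr h2 h3 (isMin_of_mem_cls ha ha' ha0).1 (isMin_of_mem_cls hb hb' hb0).1
    ((nilpotent_congr h2 h3 ha hb ha' ha0 hb' hb0).2 hs) (sub_ne_zero.2 h)
    (cls_congr ha ha' ha0 ▸ self_mem_cls ha) ha.ne (cls_congr hb hb' hb0 ▸ self_mem_cls hb) hb.ne).1 hz

lemma bracket_mem_cls (h2 : (2 : k) ≠ 0) (h3 : Nat.card k ≠ 3) (ha : IsMin G a) (hb : IsMin G b)
    (hs : IsNilpotent (a * b + b * a)) (hz : a * b - b * a ≠ 0) (ha' : a' ∈ cls G a) (hb' : b' ∈ cls G b) :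
    a' * b' - b' * a' ∈ cls G (a * b - b * a) := by
  rcases eq_or_ne a' 0 with rfl | ha0
  · simpa using cls_zero
  rcases eq_or_ne b' 0 with rfl | hb0
  · simpa using cls_zero
  obtain ⟨p1, p2⟩ := pair_products h2 h3 ha hb hs ha' hb'
  obtain ⟨-, e1, e2⟩ := bracket_congr h2 h3 ha hb hs hz ha' ha0 hb' hb0
  exact ⟨bracket_mem ha'.1 hb'.1 p1 p2, e1.le, e2.ge⟩

lemma triple_zero (h2 : (2 : k) ≠ 0) (h3 : Nat.card k ≠ 3) (ha : IsMin G a) (hb : IsMin G b)
    (hs : IsNilpotent (a * b + b * a)) (ha' : a' ∈ cls G a) (ha'' : a'' ∈ cls G a) (hb' : b' ∈ cls G b) :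
    a' * b' * a'' = 0 := by
  have h : (a' * b' - b' * a') * a'' = 0 := by
    by_cases hz : a * b - b * a = 0
    · rw [comm_of_bracket_zero h2 h3 ha hb hs hz ha' hb', sub_self, zero_mul]
    · refine cls_mul_cls ?_ (bracket_mem_cls h2 h3 ha hb hs hz ha' hb') ha''
      rw [sub_mul, (pair_products h2 h3 ha hb hs (self_mem_cls ha) (self_mem_cls hb)).1, mul_assoc, ha.mem.1,
        mul_zero, sub_zero]
  rw [sub_mul, mul_assoc b', cls_mul_eq_zero ha.mem.1 ha' ha'', mul_zero, sub_zero] at h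
  exact h

lemma pairGrp_le_sup (ha : IsMin G a) (hb : IsMin G b) : pairGrp a b ≤ Ecl G a ⊔ Ecl G b := by
  rw [pairGrp, Subgroup.closure_le]
  rintro g (⟨c, hc⟩ | ⟨c, hc⟩)
  · exact Subgroup.mem_sup_left ((mem_Ecl ha.mem.1).2 (hc ▸ cls_smul (self_mem_cls ha) c))
  · exact Subgroup.mem_sup_right ((mem_Ecl hb.mem.1).2 (hc ▸ cls_smul (self_mem_cls hb) c))

/-- Two classes generate a unipotent group exactly when the pair is unipotent. -/
theorem unipotent_sup_iff (h2 : (2 : k) ≠ 0) (h3 : Nat.card k ≠ 3) (ha : IsMin G a) (hb : IsMin G b) :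
    IsUnipotentOn (Ecl G a ⊔ Ecl G b) ↔ IsNilpotent (a * b + b * a) := by
  refine ⟨fun h => (unipotent_pair_iff ha.mem.1 hb.mem.1).1 (unipotent_mono (pairGrp_le_sup ha hb) h), fun hs => ?_⟩
  set P := Submodule.span k (cls G a ∪ cls G b) with hP
  have hs' : IsNilpotent (b * a + a * b) := by rwa [add_comm]
  have hPPP : P * P * P = ⊥ := by
    rw [hP, Submodule.span_mul_span, Submodule.span_mul_span, Submodule.span_eq_bot]
    rintro _ ⟨_, ⟨x, hx, y, hy, rfl⟩, w, hw, rfl⟩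
    rcases hx with hx | hx <;> rcases hy with hy | hy <;> rcases hw with hw | hw
    all_goals first
      | (simp only [cls_mul_eq_zero ha.mem.1 hx hy, zero_mul]; done)
      | (simp only [cls_mul_eq_zero hb.mem.1 hx hy, zero_mul]; done)
      | (simp only [mul_assoc, cls_mul_eq_zero ha.mem.1 hy hw, mul_zero]; done)
      | (simp only [mul_assoc, cls_mul_eq_zero hb.mem.1 hy hw, mul_zero]; done)
      | exact triple_zero h2 h3 ha hb hs hx hw hy
      | exact triple_zero h2 h3 hb ha hs' hx hw hy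
  set N := P ⊔ P * P
  have e1 : P * P * (P * P) = ⊥ := by rw [← mul_assoc, hPPP, Submodule.bot_mul]
  have e2 : P * (P * P) = ⊥ := by rw [← mul_assoc, hPPP]
  have hNN : N * N ≤ P * P := by
    simp only [N, Submodule.sup_mul, Submodule.mul_sup, hPPP, e1, e2]
    simp
  have hN3 : N ^ 3 = ⊥ := by
    rw [pow_succ, sq, ← le_bot_iff]
    refine (mul_le_mul' hNN le_rfl).trans ?_
    simp only [N, Submodule.mul_sup, hPPP, e1]
    simp
  rw [Subgroup.sup_eq_closure]
  refine unipotent_closure (hNN.trans le_sup_right) ⟨3, hN3⟩ ?_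
  rintro g (hg | hg)
  · exact Submodule.mem_sup_left (Submodule.subset_span (Or.inl ((mem_Ecl ha.mem.1).1 hg)))
  · exact Submodule.mem_sup_left (Submodule.subset_span (Or.inr ((mem_Ecl hb.mem.1).1 hg)))

theorem commutator_eq_bot (h2 : (2 : k) ≠ 0) (h3 : Nat.card k ≠ 3) (ha : IsMin G a) (hb : IsMin G b)
    (hs : IsNilpotent (a * b + b * a)) (hz : a * b - b * a = 0) : ⁅Ecl G a, Ecl G b⁆ = ⊥ := by
  refine le_bot_iff.1 (Subgroup.commutator_le.2 fun g hg h hh => Subgroup.mem_bot.2 ?_)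
  exact commutatorElement_eq_one_iff_mul_comm.2 (commute_of_dl
    (comm_of_bracket_zero h2 h3 ha hb hs hz ((mem_Ecl ha.mem.1).1 hg) ((mem_Ecl hb.mem.1).1 hh)))

/-- A unipotent pair of classes with nonzero bracket. -/
theorem unipotent_pair (h2 : (2 : k) ≠ 0) (h3 : Nat.card k ≠ 3) (hirr : IsIrreducibleFor G) (ha : IsMin G a)
    (hb : IsMin G b) (hs : IsNilpotent (a * b + b * a)) (hz : a * b - b * a ≠ 0) :
    ⁅Ecl G a, Ecl G b⁆ = Ecl G (a * b - b * a) ∧ IsMin G (a * b - b * a) ∧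
      (∀ e ∈ Ecl G a, e ≠ 1 → Subgroup.closure ((fun f => e * f * e⁻¹ * f⁻¹) '' (Ecl G b : Set (LinearMap.GeneralLinearGroup k M))) =
        ⁅Ecl G a, Ecl G b⁆) ∧
      (∀ f ∈ Ecl G b, f ≠ 1 → Subgroup.closure ((fun e => e * f * e⁻¹ * f⁻¹) '' (Ecl G a : Set (LinearMap.GeneralLinearGroup k M))) =
        ⁅Ecl G a, Ecl G b⁆) ∧
      ⁅Ecl G a ⊔ Ecl G b, Ecl G a ⊔ Ecl G b⁆ ≠ ⊥ ∧
      ⁅⁅Ecl G a ⊔ Ecl G b, Ecl G a ⊔ Ecl G b⁆, Ecl G a ⊔ Ecl G b⁆ = ⊥ ∧
      ((Ecl G a ⊔ Ecl G b : Subgroup (LinearMap.GeneralLinearGroup k M)) : Set (LinearMap.GeneralLinearGroup k M)) ⊆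
        quadraticUnipotentCore G ⁅Ecl G a, Ecl G b⁆ := by
  have haba := aba_eq_zero h2 ha hb.mem hs
  have hbab := aba_eq_zero h2 hb ha.mem (by rwa [add_comm])
  obtain ⟨hzmin, er, ek, eab, eba, -⟩ := bracket_spaces ha hb haba hbab hz
  set z := a * b - b * a with hzdef
  have z2 := hzmin.mem.1
  have hmem : ∀ e ∈ Ecl G a, ∀ f ∈ Ecl G b, e * f * e⁻¹ * f⁻¹ ∈ Ecl G z := fun e he f hf => by
    have h1 := (mem_Ecl ha.mem.1).1 he
    have h2' := (mem_Ecl hb.mem.1).1 hf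
    obtain ⟨p1, p2⟩ := pair_products h2 h3 ha hb hs h1 h2'
    refine (mem_Ecl z2).2 ?_
    rw [dl_commutator h1.1.1 h2'.1.1 p1 p2 (one_smul k (dl e)).symm (one_smul k (dl f)).symm, mul_one, one_smul]
    exact bracket_mem_cls h2 h3 ha hb hs hz h1 h2'
  have hleft : ∀ e ∈ Ecl G a, e ≠ 1 → Subgroup.closure ((fun f => e * f * e⁻¹ * f⁻¹) '' (Ecl G b : Set (LinearMap.GeneralLinearGroup k M))) =
      Ecl G z := fun e he hne => by
    refine le_antisymm ((Subgroup.closure_le _).2 ?_) fun w hw => ?_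
    · rintro _ ⟨f, hf, rfl⟩; exact hmem e he f hf
    have h1 := (mem_Ecl ha.mem.1).1 he
    obtain ⟨y, hy, e'⟩ := bracket_surj h2 h3 hirr ha hb hs hz h1 (fun h => hne (dl_eq_zero.1 h)) ((mem_Ecl z2).1 hw)
    obtain ⟨p1, p2⟩ := pair_products h2 h3 ha hb hs h1 hy
    refine Subgroup.subset_closure ⟨_, one_add_mem_Ecl hb.mem.1 hy, dl_injective ?_⟩
    rw [dl_commutator h1.1.1 hy.1.1 p1 p2 (one_smul k (dl e)).symm
      ((dl_one_add hy.1.1).trans (one_smul k y).symm), mul_one, one_smul, e']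
  have hright : ∀ f ∈ Ecl G b, f ≠ 1 → Subgroup.closure ((fun e => e * f * e⁻¹ * f⁻¹) '' (Ecl G a : Set (LinearMap.GeneralLinearGroup k M))) =
      Ecl G z := fun f hf hne => by
    refine le_antisymm ((Subgroup.closure_le _).2 ?_) fun w hw => ?_
    · rintro _ ⟨e, he, rfl⟩; exact hmem e he f hf
    have h1 := (mem_Ecl hb.mem.1).1 hf
    obtain ⟨x, hx, e'⟩ := bracket_surj h2 h3 hirr hb ha (by rwa [add_comm]) (by rwa [← neg_sub, neg_ne_zero, ← hzdef])
      h1 (fun h => hne (dl_eq_zero.1 h))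
      (show dl w ∈ cls G (b * a - a * b) by rw [← neg_sub, cls_neg_eq, ← hzdef]; exact (mem_Ecl z2).1 hw)
    have hx' : -x ∈ cls G a := by simpa using cls_smul hx (-1)
    obtain ⟨p1, p2⟩ := pair_products h2 h3 ha hb hs hx' h1
    refine Subgroup.subset_closure ⟨_, one_add_mem_Ecl ha.mem.1 hx', dl_injective ?_⟩
    rw [dl_commutator hx'.1.1 h1.1.1 p1 p2 ((dl_one_add hx'.1.1).trans (one_smul k (-x)).symm)
      (one_smul k (dl f)).symm, mul_one, one_smul, ← e', neg_mul, mul_neg]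
    abel
  have ha1 : one_add a ha.mem.1 ∈ Ecl G a := one_add_mem_Ecl ha.mem.1 (self_mem_cls ha)
  have ha1' : one_add a ha.mem.1 ≠ 1 := fun h => ha.ne (by rw [← dl_one_add ha.mem.1, h, dl_one])
  have hK : ⁅Ecl G a, Ecl G b⁆ = Ecl G z := by
    refine le_antisymm (Subgroup.commutator_le.2 fun e he f hf => ?_) ?_
    · rw [commutatorElement_def]; exact hmem e he f hf
    · rw [← hleft _ ha1 ha1', Subgroup.closure_le]
      rintro _ ⟨f, hf, rfl⟩
      exact Subgroup.commutator_mem_commutator ha1 hf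
  set X := Ecl G a ⊔ Ecl G b with hX
  have za : z * a = 0 := by rw [hzdef, sub_mul, haba, mul_assoc, ha.mem.1, mul_zero, sub_zero]
  have az : a * z = 0 := by rw [hzdef, mul_sub, ← mul_assoc, ha.mem.1, zero_mul, ← mul_assoc, haba, sub_zero]
  have zb : z * b = 0 := by rw [hzdef, sub_mul, hbab, mul_assoc, hb.mem.1, mul_zero, sub_zero]
  have bz : b * z = 0 := by rw [hzdef, mul_sub, ← mul_assoc, hbab, ← mul_assoc, hb.mem.1, zero_mul, sub_zero]
  have hXc : X ≤ Subgroup.centralizer (Ecl G z : Set (LinearMap.GeneralLinearGroup k M)) := by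
    refine sup_le (fun g hg => ?_) (fun g hg => ?_) <;> rw [Subgroup.mem_centralizer_iff] <;>
      intro w hw <;> refine commute_of_dl ?_
    · rw [cls_mul_cls za ((mem_Ecl z2).1 hw) ((mem_Ecl ha.mem.1).1 hg),
        cls_mul_cls az ((mem_Ecl ha.mem.1).1 hg) ((mem_Ecl z2).1 hw)]
    · rw [cls_mul_cls zb ((mem_Ecl z2).1 hw) ((mem_Ecl hb.mem.1).1 hg),
        cls_mul_cls bz ((mem_Ecl hb.mem.1).1 hg) ((mem_Ecl z2).1 hw)]
  have hgen : ∀ s ∈ (Ecl G a : Set (LinearMap.GeneralLinearGroup k M)) ∪ Ecl G b,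
      ∀ t ∈ (Ecl G a : Set (LinearMap.GeneralLinearGroup k M)) ∪ Ecl G b, ⁅s, t⁆ ∈ Ecl G z := by
    have hab : ∀ {x : Module.End k M} (_ : x * x = 0) {s t : LinearMap.GeneralLinearGroup k M},
        s ∈ Ecl G x → t ∈ Ecl G x → ⁅s, t⁆ ∈ Ecl G z := fun {x} hx {s t} h h' => by
      rw [commutatorElement_eq_one_iff_mul_comm.2 (commute_of_dl (by
        rw [cls_mul_eq_zero hx ((mem_Ecl hx).1 h) ((mem_Ecl hx).1 h'),
          cls_mul_eq_zero hx ((mem_Ecl hx).1 h') ((mem_Ecl hx).1 h)]))]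
      exact one_mem _
    rintro s (hs' | hs') t (ht | ht)
    · exact hab ha.mem.1 hs' ht
    · rw [commutatorElement_def]; exact hmem s hs' t ht
    · rw [← commutatorElement_inv, commutatorElement_def]; exact inv_mem (hmem t ht s hs')
    · exact hab hb.mem.1 hs' ht
  have hcl : X = Subgroup.closure ((Ecl G a : Set (LinearMap.GeneralLinearGroup k M)) ∪ Ecl G b) :=
    Subgroup.sup_eq_closure _ _
  have hfix : ∀ g ∈ X, ∀ w ∈ Ecl G z, g * w * g⁻¹ = w := fun g hg w hw => by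
    rw [mul_inv_eq_iff_eq_mul]; exact (Subgroup.mem_centralizer_iff.1 (hXc hg) w hw).symm
  have hone : ∀ g ∈ X, ∀ t ∈ (Ecl G a : Set (LinearMap.GeneralLinearGroup k M)) ∪ Ecl G b, ⁅g, t⁆ ∈ Ecl G z := by
    intro g hg t ht
    rw [hcl] at hg
    induction hg using Subgroup.closure_induction with
    | mem s hs' => exact hgen s hs' t ht
    | one => rw [commutatorElement_one_left]; exact one_mem _
    | mul g h hg' _ ihg ihh =>
      rw [commutatorElement_def] at *
      have e : g * h * t * (g * h)⁻¹ * t⁻¹ = g * (h * t * h⁻¹ * t⁻¹) * g⁻¹ * (g * t * g⁻¹ * t⁻¹) := by group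
      rw [e, hfix g (hcl ▸ hg') _ ihh]
      exact mul_mem ihh ihg
    | inv g hg' ih =>
      rw [commutatorElement_def] at *
      have e : g⁻¹ * t * g⁻¹⁻¹ * t⁻¹ = g⁻¹ * (g * t * g⁻¹ * t⁻¹)⁻¹ * g⁻¹⁻¹ := by group
      rw [e, hfix g⁻¹ (inv_mem (hcl ▸ hg')) _ (inv_mem ih)]
      exact inv_mem ih
  have hXX : ⁅X, X⁆ ≤ Ecl G z := Subgroup.commutator_le.2 fun g hg h hh => by
    rw [hcl] at hh
    induction hh using Subgroup.closure_induction with
    | mem t ht => exact hone g hg t ht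
    | one => rw [commutatorElement_one_right]; exact one_mem _
    | mul h t hh' _ ihh iht =>
      rw [commutatorElement_def] at *
      have e : g * (h * t) * g⁻¹ * (h * t)⁻¹ = g * h * g⁻¹ * h⁻¹ * (h * (g * t * g⁻¹ * t⁻¹) * h⁻¹) := by group
      rw [e, hfix h (hcl ▸ hh') _ iht]
      exact mul_mem ihh iht
    | inv h hh' ih =>
      rw [commutatorElement_def] at *
      have e : g * h⁻¹ * g⁻¹ * h⁻¹⁻¹ = h⁻¹ * (g * h * g⁻¹ * h⁻¹)⁻¹ * h⁻¹⁻¹ := by group
      rw [e, hfix h⁻¹ (inv_mem (hcl ▸ hh')) _ (inv_mem ih)]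
      exact inv_mem ih
  refine ⟨hK, hzmin, fun e he hne => hK ▸ hleft e he hne, fun f hf hne => hK ▸ hright f hf hne, ?_, ?_, ?_⟩
  · intro h
    have h1 : Ecl G z ≤ ⊥ := hK ▸ h ▸ Subgroup.commutator_mono le_sup_left le_sup_right
    exact hz (by rw [← dl_one_add z2, Subgroup.mem_bot.1 (h1 (one_add_mem_Ecl z2 (self_mem_cls hzmin))), dl_one])
  · refine Subgroup.commutator_eq_bot_iff_le_centralizer.2 (hXX.trans ?_)
    rwa [Subgroup.le_centralizer_iff]
  rw [hK]
  intro g hg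
  let N : Submodule k (Module.End k M) :=
    { carrier := {x | z * x = 0 ∧ x * z = 0 ∧ ∀ m ∈ LinearMap.ker z, x m ∈ LinearMap.range z}
      add_mem' := fun {x y} hx hy => ⟨by rw [mul_add, hx.1, hy.1, add_zero], by rw [add_mul, hx.2.1, hy.2.1, add_zero],
        fun m hm => add_mem (hx.2.2 m hm) (hy.2.2 m hm)⟩
      zero_mem' := ⟨mul_zero _, zero_mul _, fun m _ => zero_mem _⟩
      smul_mem' := fun c x hx => ⟨by rw [mul_smul_comm, hx.1, smul_zero], by rw [smul_mul_assoc, hx.2.1, smul_zero],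
        fun m hm => Submodule.smul_mem _ c (hx.2.2 m hm)⟩ }
  have hNN : N * N ≤ N := Submodule.mul_le.2 fun x hx y hy => by
    refine ⟨by rw [← mul_assoc, hx.1, zero_mul], by rw [mul_assoc, hy.2.1, mul_zero], fun m hm => ?_⟩
    obtain ⟨u, hu⟩ := hy.2.2 m hm
    show x (y m) ∈ _
    rw [← hu, show x (z u) = 0 from LinearMap.congr_fun hx.2.1 u]
    exact zero_mem _
  have hN3 : N ^ 3 = ⊥ := by
    rw [pow_succ, sq, ← le_bot_iff]
    refine Submodule.mul_le.2 fun xy hxy w hw => ?_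
    rw [Submodule.mem_bot]
    refine Submodule.mul_induction_on hxy (fun x hx y hy => LinearMap.ext fun m => ?_)
      (fun x y hx hy => by rw [add_mul, hx, hy, add_zero])
    obtain ⟨u, hu⟩ := hy.2.2 (w m) (LinearMap.congr_fun hw.1 m)
    show x (y (w m)) = 0
    rw [← hu]
    exact LinearMap.congr_fun hx.2.1 u
  have hgenN : ∀ {x y : Module.End k M}, x ∈ cls G a ∧ y = b ∨ x ∈ cls G b ∧ y = a → x ∈ N := by
    rintro x y (⟨hx, -⟩ | ⟨hx, -⟩)
    · refine ⟨cls_mul_cls za (self_mem_cls hzmin) hx, cls_mul_cls az hx (self_mem_cls hzmin), fun m hm => ?_⟩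
      rw [ek] at hm
      obtain ⟨u, hu, _, ⟨t, rfl⟩, rfl⟩ := Submodule.mem_sup.1 hm.2
      rw [map_add, LinearMap.mem_ker.1 (hx.2.2 hu), zero_add, er]
      refine Submodule.mem_sup_left ⟨hx.2.1 ⟨_, rfl⟩, ?_⟩
      exact LinearMap.congr_fun (pair_products h2 h3 ha hb hs hx (self_mem_cls hb)).2 t
    · refine ⟨cls_mul_cls zb (self_mem_cls hzmin) hx, cls_mul_cls bz hx (self_mem_cls hzmin), fun m hm => ?_⟩
      rw [ek] at hm
      obtain ⟨u, hu, _, ⟨t, rfl⟩, rfl⟩ := Submodule.mem_sup.1 hm.1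
      rw [map_add, LinearMap.mem_ker.1 (hx.2.2 hu), zero_add, er]
      refine Submodule.mem_sup_right ⟨hx.2.1 ⟨_, rfl⟩, ?_⟩
      exact LinearMap.congr_fun (pair_products h2 h3 ha hb hs (self_mem_cls ha) hx).1 t
  have hgN : dl g ∈ N := by
    have : X ≤ grp N hNN ⟨3, hN3⟩ := sup_le
      (fun e he => hgenN (Or.inl ⟨(mem_Ecl ha.mem.1).1 he, rfl⟩))
      (fun f hf => hgenN (Or.inr ⟨(mem_Ecl hb.mem.1).1 hf, rfl⟩))
    exact this hg
  refine ⟨(sup_le (Ecl_le ha.mem.1) (Ecl_le hb.mem.1) : X ≤ G) hg,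
    Subgroup.centralizer_le_normalizer _ (hXc hg), fun m => ?_, fun m hm => ?_, fun m hm => ?_⟩
  · rw [fixed_Ecl hzmin]; exact LinearMap.congr_fun hgN.1 m
  · rw [commutator_Ecl hzmin]; rw [fixed_Ecl hzmin] at hm; exact hgN.2.2 m hm
  · rw [commutator_Ecl hzmin] at hm
    obtain ⟨u, rfl⟩ := hm
    exact sub_eq_zero.1 (LinearMap.congr_fun hgN.2.1 u)

/-- A commuting pair of nonzero members. -/
theorem commutator_eq_bot_of_comm (h2 : (2 : k) ≠ 0) (h3 : Nat.card k ≠ 3) (ha : IsMin G a) (hb : IsMin G b)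
    (hc : a * b = b * a) : ⁅Ecl G a, Ecl G b⁆ = ⊥ := by
  refine commutator_eq_bot h2 h3 ha hb ⟨2, ?_⟩ (sub_eq_zero.2 hc)
  rw [← hc, sq]
  calc (a * b + a * b) * (a * b + a * b) = 4 • (a * (b * a) * b) := by noncomm_ring
    _ = 0 := by rw [← hc, ← mul_assoc, ha.mem.1]; simp

/-- A member normalising a class commutes with it. -/
theorem commutator_eq_bot_of_conj (h2 : (2 : k) ≠ 0) (h3 : Nat.card k ≠ 3) (ha : IsMin G a) (hb : IsMin G b)
    (hc : b + (a * b - b * a) - a * b * a ∈ cls G b) : ⁅Ecl G a, Ecl G b⁆ = ⊥ := by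
  by_cases hs : IsNilpotent (a * b + b * a)
  · refine commutator_eq_bot h2 h3 ha hb hs ?_
    by_contra hz
    have haba := aba_eq_zero h2 ha hb.mem hs
    have hbab := aba_eq_zero h2 hb ha.mem (by rwa [add_comm])
    obtain ⟨hzmin, er, -, eab, -, edisj⟩ := bracket_spaces ha hb haba hbab hz
    rw [haba, sub_zero] at hc
    have hzc : a * b - b * a ∈ cls G b := by
      simpa using cls_add hb.mem.1 hc (cls_smul (self_mem_cls hb) (-1))
    obtain ⟨-, hr, hk⟩ := isMin_of_mem_cls hb hzc hz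
    have hab : a * b = 0 := LinearMap.range_eq_bot.1 (le_bot_iff.1 (edisj ▸
      le_inf (eab.le.trans inf_le_left) (eab.le.trans ((le_sup_left.trans er.ge).trans hr.le))))
    have hba : b * a = 0 := by
      rw [mul_eq_zero_iff_le, ← hk]
      refine mul_eq_zero_iff_le.1 ?_
      rw [sub_mul, haba, mul_assoc, ha.mem.1, mul_zero, sub_zero]
    exact hz (by rw [hab, hba, sub_zero])
  · exfalso
    have h0 : (b + (a * b - b * a) - a * b * a) * b = 0 := cls_mul_eq_zero hb.mem.1 hc (self_mem_cls hb)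
    have h1 : b * a * b + a * b * a * b = 0 := by
      have e : (b + (a * b - b * a) - a * b * a) * b = b * b + a * (b * b) - (b * a * b + a * b * a * b) := by
        noncomm_ring
      rw [e, hb.mem.1, mul_zero, add_zero, zero_sub, neg_eq_zero] at h0
      exact h0
    have h2' : b * a * b * a * b = 0 := by
      calc b * a * b * a * b = b * (b * a * b + a * b * a * b) - b * b * a * b := by noncomm_ring
        _ = 0 := by rw [h1, mul_zero, hb.mem.1]; simp
    have h3' : a * b * a * b * a = 0 := by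
      calc a * b * a * b * a = a * (b * a * b + a * b * a * b) * a - a * a * b * a * b * a := by noncomm_ring
        _ = 0 := by rw [h1, mul_zero, zero_mul, ha.mem.1]; simp
    exact hs ⟨3, by
      rw [pow_succ, sq]
      calc (a * b + b * a) * (a * b + b * a) * (a * b + b * a)
          = (a * b * a * b * a) * b + (a * b * a * (b * b) * a) + (a * (b * b) * a * a * b) + (a * (b * b) * a * b * a) +
            (b * (a * a) * b * a * b) + (b * (a * a) * b * b * a) + (b * a * b * (a * a) * b) + (b * a * b * a * b) * a := by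
              noncomm_ring
        _ = 0 := by rw [h2', h3', ha.mem.1, hb.mem.1]; simp⟩

/-- A non-unipotent pair does not generate a group of class two. -/
theorem nilpotent_of_class_two (h2 : (2 : k) ≠ 0) (h3 : Nat.card k ≠ 3) (ha : IsMin G a) (hb : IsMin G b)
    {X : Subgroup (LinearMap.GeneralLinearGroup k M)} (hX : pairGrp a b ≤ X) (hc : ⁅⁅X, X⁆, X⁆ = ⊥) :
    IsNilpotent (a * b + b * a) := by
  by_contra hs
  obtain ⟨R, _, _, _, ⟨P⟩⟩ := exists_sl2Pair h2 h3 ha hb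
    (fun h => hs ((unipotent_pair_iff ha.mem.1 hb.mem.1).1 h))
  set H := P.toCorner.hom.range with hH
  have hperf : ⁅H, H⁆ = H := by
    let : Field R := P.isField.toField
    rw [hH, MonoidHom.range_eq_map, ← Subgroup.map_commutator, commutator_sl2_eq_top h2 h3]
  have hle : H ≤ X := fun x hx => hX (P.range_hom h2 h3 ▸ hx)
  have : H ≤ ⊥ := by
    rw [← hc]
    exact hperf.ge.trans (Subgroup.commutator_mono (hperf.ge.trans (Subgroup.commutator_mono hle hle)) hle)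
  have h1 := dl_eq_zero.2 (Subgroup.mem_bot.1 (this ⟨uR (1 : R), rfl⟩))
  exact ha.ne (by rw [← P.e_a, ← P.map_one, ← P.dl_uR]; exact h1)

end CfsgLib.QuadPair
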