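import Cfsg.Agent.QuadPair.Classes

/-!
Irreducibility gives every minimal element a partner, and every partner is conjugate to it up to its class.
-/

set_option autoImplicit false
universe u

open Cfsg Matrix

namespace CfsgLib.QuadPair

variable {k : Type u} [Field k] {M : Type u} [AddCommGroup M] [Module k M]
variable {G : Subgroup (LinearMap.GeneralLinearGroup k M)} {a b c : Module.End k M}

/-- Conjugation by `g`. -/
noncomputable def cj (g : LinearMap.GeneralLinearGroup k M) : Module.End k M →ₐ[k] Module.End k M where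
  toFun x := (g : Module.End k M) * x * ((g⁻¹ : LinearMap.GeneralLinearGroup k M) : Module.End k M)
  map_one' := by rw [mul_one, Units.mul_inv]
  map_mul' x y := by
    simp only [mul_assoc]
    rw [← mul_assoc ((g⁻¹ : LinearMap.GeneralLinearGroup k M) : Module.End k M) (g : Module.End k M), Units.inv_mul,
      one_mul]
  map_zero' := by rw [mul_zero, zero_mul]
  map_add' x y := by rw [mul_add, add_mul]
  commutes' r := by
    rw [← (Algebra.commutes r (g : Module.End k M)), mul_assoc, Units.mul_inv, mul_one]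

lemma cj_apply (g : LinearMap.GeneralLinearGroup k M) (x : Module.End k M) :
    cj g x = (g : Module.End k M) * x * ((g⁻¹ : LinearMap.GeneralLinearGroup k M) : Module.End k M) := rfl

lemma cj_dl (g h : LinearMap.GeneralLinearGroup k M) : cj g (dl h) = dl (g * h * g⁻¹) := (dl_conj g h).symm

lemma cj_cj (g h : LinearMap.GeneralLinearGroup k M) (x : Module.End k M) : cj g (cj h x) = cj (g * h) x := by
  simp only [cj_apply, _root_.mul_inv_rev, Units.val_mul, mul_assoc]

lemma cj_one (x : Module.End k M) : cj (1 : LinearMap.GeneralLinearGroup k M) x = x := by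
  simp only [cj_apply, inv_one, Units.val_one, one_mul, mul_one]

lemma cj_injective (g : LinearMap.GeneralLinearGroup k M) : Function.Injective (cj g) := fun x y h => by
  have := congrArg (cj g⁻¹) h
  rwa [cj_cj, cj_cj, inv_mul_cancel, cj_one, cj_one] at this

lemma isNilpotent_cj {g : LinearMap.GeneralLinearGroup k M} :
    IsNilpotent (cj g a * cj g b + cj g b * cj g a) ↔ IsNilpotent (a * b + b * a) := by
  rw [← map_mul, ← map_mul, ← map_add]
  exact IsNilpotent.map_iff (cj_injective g)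

lemma isMin_cj (ha : IsMin G a) {g : LinearMap.GeneralLinearGroup k M} (hg : g ∈ G) : IsMin G (cj g a) :=
  isMin_conj ha hg

/-- A unipotent group has a nonzero fixed vector. -/
lemma exists_fixed {H : Subgroup (LinearMap.GeneralLinearGroup k M)} (hH : IsUnipotentOn H) {m : M} (hm : m ≠ 0) :
    ∃ w : M, w ≠ 0 ∧ ∀ h ∈ H, dl h w = 0 := by
  obtain ⟨n, hn⟩ := hH
  suffices ∀ n, ∀ m : M, m ≠ 0 →
      (∀ l : List (LinearMap.GeneralLinearGroup k M), (∀ g ∈ l, g ∈ H) → l.length = n → (l.map dl).prod m = 0) →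
      ∃ w : M, w ≠ 0 ∧ ∀ h ∈ H, dl h w = 0 from
    this n m hm fun l hl hlen => by rw [← map_dl, hn l hl hlen]; rfl
  intro n
  induction n with
  | zero => exact fun m hm h => absurd (by simpa using h [] (by simp) rfl) hm
  | succ n ih =>
    intro m hm h
    by_cases hfix : ∀ x ∈ H, dl x m = 0
    · exact ⟨m, hm, hfix⟩
    push Not at hfix
    obtain ⟨x, hx, hxm⟩ := hfix
    refine ih _ hxm fun l hl hlen => ?_
    have := h (l ++ [x]) (by simpa [or_imp, forall_and] using ⟨hl, hx⟩) (by simp [hlen])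
    rw [List.map_append, List.prod_append] at this
    simpa using this

/-- The group `1 + k x`. -/
def line (x : Module.End k M) : Subgroup (LinearMap.GeneralLinearGroup k M) :=
  Subgroup.closure {g | ∃ c : k, dl g = c • x}

lemma pairGrp_eq_sup (a b : Module.End k M) : pairGrp a b = line a ⊔ line b := Subgroup.closure_union _ _

lemma conjBy_line (x : Module.End k M) (g : LinearMap.GeneralLinearGroup k M) :
    conjBy (line x) g = line (cj g x) := by
  rw [conjBy, line, MonoidHom.map_closure, line]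
  congr 1
  ext y
  constructor
  · rintro ⟨h, ⟨c, hc⟩, rfl⟩
    refine ⟨c, (dl_conj g h).trans ?_⟩
    rw [hc, ← cj_apply, map_smul]
  · rintro ⟨c, hc⟩
    refine ⟨g⁻¹ * y * g, ⟨c, ?_⟩, by simp [mul_assoc]⟩
    have := dl_conj g⁻¹ y
    rw [inv_inv] at this
    rw [this]
    show _ * dl y * _ = _
    rw [hc]
    have h2 := cj_apply g⁻¹ (c • cj g x)
    rw [inv_inv] at h2
    rw [← h2, map_smul, cj_cj, inv_mul_cancel, cj_one]

lemma line_le (hx : a ∈ gset G) : line a ≤ G := (le_sup_left.trans (pairGrp_eq_sup a a).ge).trans (pairGrp_le hx hx)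

/-- A unipotent normal subgroup of an irreducible group is trivial. -/
theorem eq_bot_of_normal_unipotent (hirr : IsIrreducibleFor G) {N : Subgroup (LinearMap.GeneralLinearGroup k M)}
    (hN : IsUnipotentOn N) (hnorm : ∀ g ∈ G, ∀ h ∈ N, g⁻¹ * h * g ∈ N) : N = ⊥ := by
  obtain ⟨m, hm⟩ := hirr.1
  obtain ⟨w, hw0, hw⟩ := exists_fixed hN hm
  set U : Submodule k M := ⨅ h ∈ N, LinearMap.ker (dl h) with hU
  have hmemU : ∀ v, v ∈ U ↔ ∀ h ∈ N, dl h v = 0 := fun v => by simp [hU, Submodule.mem_iInf]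
  have hinv : ∀ g ∈ G, ∀ v ∈ U, (g : M →ₗ[k] M) v ∈ U := fun g hg v hv => by
    rw [hmemU] at hv ⊢
    intro h hh
    have e : dl h * (g : Module.End k M) = (g : Module.End k M) * dl (g⁻¹ * h * g) := by
      rw [dl, dl, Units.val_mul, Units.val_mul, mul_sub, mul_one, ← mul_assoc, ← mul_assoc, Units.mul_inv, one_mul]
      noncomm_ring
    show (dl h * (g : Module.End k M)) v = 0
    rw [e, Module.End.mul_apply, hv _ (hnorm g hg h hh), map_zero]
  rcases hirr.2 U hinv with h | h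
  · have hwU : w ∈ U := (hmemU w).2 hw
    rw [h, Submodule.mem_bot] at hwU
    exact absurd hwU hw0
  · refine (Subgroup.eq_bot_iff_forall N).2 fun x hx => dl_eq_zero.1 (LinearMap.ext fun v => ?_)
    exact (hmemU v).1 (h ▸ Submodule.mem_top) x hx

variable [FiniteDimensional k M]

/-- In an irreducible group a conjugation invariant family of pairwise unipotent members of `gset` is zero. -/
theorem eq_zero_of_pairwise (hirr : IsIrreducibleFor G) {V : Set (Module.End k M)} (hV : ∀ x ∈ V, x ∈ gset G)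
    (hconj : ∀ x ∈ V, ∀ g ∈ G, cj g x ∈ V) (hnil : ∀ x ∈ V, ∀ y ∈ V, IsNilpotent (x * y + y * x)) :
    ∀ x ∈ V, x = 0 := by
  intro x hx
  set W : Set (Subgroup (LinearMap.GeneralLinearGroup k M)) := line '' V
  have hWG : ∀ A ∈ W, A ≤ G := by rintro _ ⟨y, hy, rfl⟩; exact line_le (hV y hy)
  have hWW : ∀ A ∈ W, ∀ B ∈ W, IsUnipotentOn (A ⊔ B) := by
    rintro _ ⟨y, hy, rfl⟩ _ ⟨z, hz, rfl⟩
    rw [← pairGrp_eq_sup]
    exact (unipotent_pair_iff (hV y hy).1 (hV z hz).1).2 (hnil y hy z hz)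
  have hWconj : ∀ A ∈ W, ∀ g ∈ G, conjBy A g ∈ W := by
    rintro _ ⟨y, hy, rfl⟩ g hg
    exact ⟨_, hconj y hy g hg, (conjBy_line y g).symm⟩
  have hnorm : ∀ g ∈ G, ∀ h ∈ ⨆ A ∈ W, A, g⁻¹ * h * g ∈ ⨆ A ∈ W, A := fun g hg h hh => by
    have key : conjBy (⨆ A ∈ W, A) g⁻¹ ≤ ⨆ A ∈ W, A := by
      simp only [conjBy, Subgroup.map_iSup]
      exact iSup₂_le fun A hA => le_iSup₂ (f := fun B _ => B) _ (hWconj A hA g⁻¹ (inv_mem hg))
    simpa using key ⟨h, hh, rfl⟩
  have hmem : one_add x (hV x hx).1 ∈ ⨆ A ∈ W, A :=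
    le_iSup₂ (f := fun B _ => B) (line x) ⟨x, hx, rfl⟩ (Subgroup.subset_closure ⟨1, by rw [dl_one_add, one_smul]⟩)
  rw [eq_bot_of_normal_unipotent hirr (unipotent_iSup hWG hWW hWconj) hnorm, Subgroup.mem_bot] at hmem
  rw [← dl_one_add (hV x hx).1, hmem, dl_one]

/-- Every minimal element has a conjugate with which it is not unipotent. -/
theorem exists_partner (hirr : IsIrreducibleFor G) (ha : IsMin G a) :
    ∃ b, IsMin G b ∧ ¬ IsNilpotent (a * b + b * a) := by
  by_contra hno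
  push Not at hno
  refine ha.ne (eq_zero_of_pairwise hirr (V := {x | ∃ g ∈ G, x = cj g a}) ?_ ?_ ?_ a ⟨1, one_mem G, (cj_one a).symm⟩)
  · rintro _ ⟨g, hg, rfl⟩; exact (isMin_cj ha hg).mem
  · rintro _ ⟨g, hg, rfl⟩ h hh; exact ⟨h * g, mul_mem hh hg, cj_cj h g a⟩
  · rintro _ ⟨g, hg, rfl⟩ _ ⟨h, hh, rfl⟩
    rw [← isNilpotent_cj (g := g⁻¹), cj_cj, inv_mul_cancel, cj_one, cj_cj]
    exact hno _ (isMin_cj ha (mul_mem (inv_mem hg) hh))

namespace SL2Pair

variable {R : Type u} [CommRing R] [Algebra k R] [Module.Finite k R] (P : SL2Pair a b R)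

omit [FiniteDimensional k M] in
lemma hom_mem_pairGrp (h2 : (2 : k) ≠ 0) (h3 : Nat.card k ≠ 3) (x : SpecialLinearGroup (Fin 2) R) :
    P.toCorner.hom x ∈ pairGrp a b := by
  rw [← P.range_hom h2 h3]; exact ⟨x, rfl⟩

omit [FiniteDimensional k M] in
lemma hom_mem (h2 : (2 : k) ≠ 0) (h3 : Nat.card k ≠ 3) (ha : a ∈ gset G) (hb : b ∈ gset G)
    (x : SpecialLinearGroup (Fin 2) R) : P.toCorner.hom x ∈ G :=
  pairGrp_le ha hb (P.hom_mem_pairGrp h2 h3 x)

omit [Module.Finite k R] [FiniteDimensional k M] in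
lemma dl_uR (r : R) : dl (P.toCorner.hom (uR r)) = P.ψ r * a := by
  rw [dl, Corner.hom_coe, P.toCorner.Φ_uR, add_sub_cancel_left]

omit [Module.Finite k R] [FiniteDimensional k M] in
lemma dl_lR (r : R) : dl (P.toCorner.hom (lR r)) = P.ψ (r * P.toCorner.v) * b := by
  rw [dl, Corner.hom_coe, P.toCorner.Φ_lR, add_sub_cancel_left]

omit [Module.Finite k R] [FiniteDimensional k M] in
lemma psi_mul_ne {r : R} (hr : r ≠ 0) : P.ψ r * a ≠ 0 := fun h => hr (P.toCorner.eq_zero_of_psi_mul h)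

omit [FiniteDimensional k M] in
lemma psi_mem_cls (h2 : (2 : k) ≠ 0) (h3 : Nat.card k ≠ 3) (ha : a ∈ gset G) (hb : b ∈ gset G) (r : R) :
    P.ψ r * a ∈ cls G a := by
  refine ⟨⟨?_, fun t => ⟨P.toCorner.hom (uR (t • r)), P.hom_mem h2 h3 ha hb _, ?_⟩⟩, ?_, fun m hm => ?_⟩
  · rw [P.toCorner.psi_mul_psi r r (P.comm_a r), ha.1, mul_zero]
  · rw [P.dl_uR, map_smul, smul_mul_assoc]
  · rw [(P.comm_a r).eq]; rintro _ ⟨x, rfl⟩; exact ⟨_, rfl⟩
  · show P.ψ r (a m) = 0
    rw [LinearMap.mem_ker.1 hm, map_zero]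

omit [Module.Finite k R] [FiniteDimensional k M] in
lemma cj_w (r : R) : cj (P.toCorner.hom (uR 1 * lR (-1) * uR 1)) (P.ψ r * a) = P.ψ (-r * P.toCorner.v) * b := by
  rw [← P.dl_uR, cj_dl, ← P.dl_lR, ← map_inv, ← map_mul, ← map_mul]
  congr 2
  rw [mul_inv_eq_iff_eq_mul]
  apply sl2_ext <;> simp [Matrix.mul_apply, Fin.sum_univ_two]

end SL2Pair

/-- The two classes are conjugate. -/
def Rel (G : Subgroup (LinearMap.GeneralLinearGroup k M)) (a b : Module.End k M) : Prop :=
  ∃ g ∈ G, Ecl G b = conjBy (Ecl G a) g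

omit [FiniteDimensional k M] in
lemma conjBy_mul {A : Subgroup (LinearMap.GeneralLinearGroup k M)} (g h : LinearMap.GeneralLinearGroup k M) :
    conjBy (conjBy A h) g = conjBy A (g * h) := by
  rw [conjBy, conjBy, conjBy, Subgroup.map_map, map_mul]
  rfl

omit [FiniteDimensional k M] in
lemma conjBy_one {A : Subgroup (LinearMap.GeneralLinearGroup k M)} : conjBy A 1 = A := by
  rw [conjBy]
  rw [map_one]
  exact Subgroup.map_id A

omit [FiniteDimensional k M] in
lemma Rel.symm (h : Rel G a b) : Rel G b a := by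
  obtain ⟨g, hg, e⟩ := h
  exact ⟨g⁻¹, inv_mem hg, by rw [e, conjBy_mul, inv_mul_cancel, conjBy_one]⟩

omit [FiniteDimensional k M] in
lemma Rel.trans (h : Rel G a b) (h' : Rel G b c) : Rel G a c := by
  obtain ⟨g, hg, e⟩ := h
  obtain ⟨g', hg', e'⟩ := h'
  exact ⟨g' * g, mul_mem hg' hg, by rw [e', e, conjBy_mul]⟩

/-- A partner is conjugate up to its class. -/
theorem rel_of_not_nilpotent (h2 : (2 : k) ≠ 0) (h3 : Nat.card k ≠ 3) (ha : IsMin G a) (hb : IsMin G b)
    (hs : ¬ IsNilpotent (a * b + b * a)) : Rel G a b := by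
  obtain ⟨R, _, _, _, ⟨P⟩⟩ := exists_sl2Pair h2 h3 ha hb
    (fun h => hs ((unipotent_pair_iff ha.mem.1 hb.mem.1).1 h))
  have hw := P.hom_mem h2 h3 ha.mem hb.mem (uR 1 * lR (-1) * uR 1)
  refine ⟨_, hw, ?_⟩
  rw [conjBy_Ecl hw, ← cj_apply]
  have e := P.cj_w 1
  rw [P.map_one, P.e_a] at e
  rw [e]
  refine (Ecl_eq_of_mem hb (P.symm.psi_mem_cls h2 h3 hb.mem ha.mem _) ?_).symm
  refine P.symm.psi_mul_ne ?_
  have : Nontrivial R := P.isField.nontrivial
  intro h
  have h' := P.toCorner.v_mul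
  rw [neg_one_mul, neg_eq_zero] at h
  rw [h, zero_mul] at h'
  exact zero_ne_one h'

/-- The class as a subspace. -/
def clsSub (ha : a * a = 0) : Submodule k (Module.End k M) where
  carrier := cls G a
  add_mem' hx hy := cls_add ha hx hy
  zero_mem' := cls_zero
  smul_mem' c _ hx := cls_smul hx c

omit [FiniteDimensional k M] in
lemma mem_clsSub (ha : a * a = 0) {x : Module.End k M} : x ∈ clsSub (G := G) ha ↔ x ∈ cls G a := Iff.rfl

lemma finrank_le_of_rel (ha : a * a = 0) (hb : b * b = 0) (h : Rel G a b) :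
    Module.finrank k (clsSub (G := G) ha) ≤ Module.finrank k (clsSub (G := G) hb) := by
  obtain ⟨g, -, e⟩ := h
  have hmaps : ∀ x ∈ clsSub (G := G) ha, (cj g).toLinearMap x ∈ clsSub (G := G) hb := fun x hx => by
    have hm : g * one_add x hx.1.1 * g⁻¹ ∈ Ecl G b := by
      rw [e]; exact ⟨_, one_add_mem_Ecl ha hx, rfl⟩
    rw [mem_Ecl hb, ← cj_dl, dl_one_add] at hm
    exact hm
  exact LinearMap.finrank_le_finrank_of_injective (f := (cj g).toLinearMap.restrict hmaps)
    fun x y hxy => Subtype.ext (cj_injective g (congrArg Subtype.val hxy))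

lemma finrank_eq_of_rel (ha : a * a = 0) (hb : b * b = 0) (h : Rel G a b) :
    Module.finrank k (clsSub (G := G) ha) = Module.finrank k (clsSub (G := G) hb) :=
  le_antisymm (finrank_le_of_rel ha hb h) (finrank_le_of_rel hb ha h.symm)

omit [FiniteDimensional k M] in
lemma bracket_rel (h : Rel G (a * b - b * a) c) : Rel G (b * a - a * b) c := by
  obtain ⟨g, hg, e⟩ := h
  refine ⟨g, hg, ?_⟩
  rw [e, Ecl_eq_of_eq (G := G) (a := b * a - a * b) (b := a * b - b * a)] <;>
    rw [← neg_sub]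
  · exact LinearMap.range_neg _
  · exact LinearMap.ker_neg _

/-- A unipotent pair with nonzero bracket: a common partner of the first member and the bracket. -/
theorem common_partner (h2 : (2 : k) ≠ 0) (hirr : IsIrreducibleFor G) (ha : IsMin G a)
    (hb : IsMin G b) (hs : IsNilpotent (a * b + b * a)) (hz : a * b - b * a ≠ 0) :
    ∃ g', IsMin G g' ∧ ¬ IsNilpotent (a * g' + g' * a) ∧
      ¬ IsNilpotent ((a * b - b * a) * g' + g' * (a * b - b * a)) := by
  have haba := aba_eq_zero h2 ha hb.mem hs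
  have hbab := aba_eq_zero h2 hb ha.mem (by rwa [add_comm])
  set z := a * b - b * a with hzdef
  have hzmin : IsMin G z := (bracket_spaces ha hb haba hbab hz).1
  obtain ⟨g, hg, hgz⟩ := exists_partner hirr hzmin
  by_cases hag : IsNilpotent (a * g + g * a)
  swap
  · exact ⟨g, hg, hag, hgz⟩
  set τ := one_add b hb.mem.1
  have hτ : τ ∈ G := by
    obtain ⟨x, hx, e⟩ := hb.mem.2 1
    exact (dl_injective (by rw [e, one_smul, dl_one_add]) : x = τ) ▸ hx
  have hcj : ∀ x : Module.End k M, cj τ x = x + (b * x - x * b) - b * x * b := fun x => by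
    rw [cj_apply, val_eq τ, val_eq τ⁻¹, dl_inv_of_sq (by rw [dl_one_add]; exact hb.mem.1), dl_one_add]
    noncomm_ring
  have eτa : cj τ a = a - z := by rw [hcj, hbab, hzdef]; noncomm_ring
  have eτz : cj τ z = z := by
    have h1 : b * z = 0 := by rw [hzdef, mul_sub, ← mul_assoc, hbab, ← mul_assoc, hb.mem.1]; simp
    have h2 : z * b = 0 := by rw [hzdef, sub_mul, mul_assoc, hb.mem.1, hbab]; simp
    rw [hcj, h1, h2]; simp
  have hgag : g * a * g = 0 := aba_eq_zero h2 hg ha.mem (by rwa [add_comm])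
  have hgzg : g * z * g ≠ 0 := fun h => hgz ⟨2, by
    rw [sq]
    calc (z * g + g * z) * (z * g + g * z)
        = z * (g * z * g) + z * (g * g) * z + g * (z * z) * g + (g * z * g) * z := by noncomm_ring
      _ = 0 := by rw [h, hg.mem.1, hzmin.mem.1]; simp⟩
  have hnew : ¬ IsNilpotent ((a - z) * g + g * (a - z)) := fun h => by
    have := aba_eq_zero h2 hg (eτa ▸ isMin_cj ha hτ).mem (by rwa [add_comm])
    rw [mul_sub, sub_mul, hgag, zero_sub, neg_eq_zero] at this
    exact hgzg this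
  refine ⟨cj τ⁻¹ g, isMin_cj hg (inv_mem hτ), fun h => hnew ?_, fun h => hgz ?_⟩
  · rw [← isNilpotent_cj (g := τ), cj_cj, mul_inv_cancel, cj_one, eτa] at h; exact h
  · rw [← isNilpotent_cj (g := τ), cj_cj, mul_inv_cancel, cj_one, eτz] at h; exact h

/-- For a unipotent pair with nonzero bracket the first class and the class of the bracket are conjugate. -/
theorem rel_bracket (h2 : (2 : k) ≠ 0) (h3 : Nat.card k ≠ 3) (hirr : IsIrreducibleFor G) (ha : IsMin G a)
    (hb : IsMin G b) (hs : IsNilpotent (a * b + b * a)) (hz : a * b - b * a ≠ 0) :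
    Rel G a (a * b - b * a) := by
  have hzmin : IsMin G (a * b - b * a) :=
    (bracket_spaces ha hb (aba_eq_zero h2 ha hb.mem hs) (aba_eq_zero h2 hb ha.mem (by rwa [add_comm])) hz).1
  obtain ⟨g, hg, h1, h1'⟩ := common_partner h2 hirr ha hb hs hz
  exact (rel_of_not_nilpotent h2 h3 ha hg h1).trans (rel_of_not_nilpotent h2 h3 hzmin hg h1').symm

/-- In a unipotent pair with nonzero bracket, bracketing with a fixed nonzero member maps onto the bracket class. -/
theorem bracket_surj (h2 : (2 : k) ≠ 0) (h3 : Nat.card k ≠ 3) (hirr : IsIrreducibleFor G) (ha : IsMin G a)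
    (hb : IsMin G b) (hs : IsNilpotent (a * b + b * a)) (hz : a * b - b * a ≠ 0) {a' : Module.End k M}
    (ha' : a' ∈ cls G a) (ha0 : a' ≠ 0) {w : Module.End k M} (hw : w ∈ cls G (a * b - b * a)) :
    ∃ b' ∈ cls G b, a' * b' - b' * a' = w := by
  have haba := aba_eq_zero h2 ha hb.mem hs
  have hbab := aba_eq_zero h2 hb ha.mem (by rwa [add_comm])
  set z := a * b - b * a with hzdef
  have hzmin : IsMin G z := (bracket_spaces ha hb haba hbab hz).1
  have hz2 := hzmin.mem.1
  have hb2 := hb.mem.1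
  have hkey : ∀ x ∈ cls G b, x ≠ 0 → a' * x - x * a' ∈ cls G z ∧ a' * x - x * a' ≠ 0 := fun x hx hx0 => by
    obtain ⟨m1, -, -⟩ := isMin_of_mem_cls ha ha' ha0
    obtain ⟨m2, -, -⟩ := isMin_of_mem_cls hb hx hx0
    obtain ⟨h0, e1, e2⟩ := bracket_congr h2 h3 ha hb hs hz ha' ha0 hx hx0
    have hn := (nilpotent_congr h2 h3 ha hb ha' ha0 hx hx0).2 hs
    exact ⟨⟨bracket_mem m1.mem m2.mem (aba_eq_zero h2 m1 m2.mem hn)
      (aba_eq_zero h2 m2 m1.mem (by rwa [add_comm])), e1.le, e2.ge⟩, h0⟩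
  set f : Module.End k M →ₗ[k] Module.End k M := LinearMap.mulLeft k a' - LinearMap.mulRight k a' with hf
  have hmaps : ∀ x ∈ clsSub (G := G) hb2, f x ∈ clsSub (G := G) hz2 := fun x hx => by
    rcases eq_or_ne x 0 with rfl | hx0
    · rw [map_zero]; exact zero_mem _
    · exact (hkey x hx hx0).1
  have hinj : Function.Injective (f.restrict hmaps) := by
    rw [injective_iff_map_eq_zero]
    rintro ⟨x, hx⟩ h
    by_contra h0
    exact (hkey x hx fun e => h0 (Subtype.ext e)).2 (congrArg Subtype.val h)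
  have e1 : Rel G a z := rel_bracket h2 h3 hirr ha hb hs hz
  have e2 : Rel G b z := (bracket_rel (rel_bracket h2 h3 hirr hb ha (by rwa [add_comm])
    (by rw [← neg_sub, neg_ne_zero]; exact hz)).symm).symm
  obtain ⟨⟨x, hx⟩, e⟩ := (LinearMap.injective_iff_surjective_of_finrank_eq_finrank
    (finrank_eq_of_rel hb2 hz2 e2)).1 hinj ⟨w, hw⟩
  exact ⟨x, hx, congrArg Subtype.val e⟩

end CfsgLib.QuadPair
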