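import Cfsg.Agent.QuadPair.Pairs

/-!
Two classes forming a non-unipotent pair generate a special rank one group; its central involution.
-/

set_option autoImplicit false
universe u

open Cfsg Matrix
open scoped commutatorElement

namespace CfsgLib.QuadPair

variable {k : Type u} [Field k] {M : Type u} [AddCommGroup M] [Module k M]
variable {G : Subgroup (LinearMap.GeneralLinearGroup k M)} {a b x : Module.End k M}

lemma lR_inv {R : Type u} [CommRing R] (r : R) : (lR r)⁻¹ = lR (-r) :=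
  inv_eq_of_mul_eq_one_right (by rw [← lR_add, add_neg_cancel, lR_zero])

lemma uR_inv {R : Type u} [CommRing R] (r : R) : (uR r)⁻¹ = uR (-r) :=
  inv_eq_of_mul_eq_one_right (by rw [← uR_add, add_neg_cancel, uR_zero])

lemma witness_identity {R : Type u} [CommRing R] :
    (lR (1 : R))⁻¹ * uR 1 * lR 1 = (uR 1)⁻¹ * (lR 1)⁻¹ * uR 1 := by
  rw [lR_inv, uR_inv]
  apply sl2_ext <;> simp [Matrix.mul_apply, Fin.sum_univ_two]

lemma mem_normalizer_of_conjBy {A : Subgroup (LinearMap.GeneralLinearGroup k M)}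
    {n : LinearMap.GeneralLinearGroup k M} (h : conjBy A n = A) :
    n ∈ Subgroup.normalizer (A : Set (LinearMap.GeneralLinearGroup k M)) := by
  refine Subgroup.mem_normalizer_iff.2 fun x => ⟨fun hx => h ▸ ⟨x, hx, rfl⟩, fun hx => ?_⟩
  rw [← h] at hx
  obtain ⟨y, hy, e⟩ := hx
  exact mul_left_cancel (mul_right_cancel (e : n * y * n⁻¹ = n * x * n⁻¹)) ▸ hy

lemma isMulCommutative_Ecl (ha : a * a = 0) : IsMulCommutative (Ecl G a) := by
  refine ⟨⟨fun x y => Subtype.ext (commute_of_dl ?_)⟩⟩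
  rw [cls_mul_eq_zero ha ((mem_Ecl ha).1 x.2) ((mem_Ecl ha).1 y.2),
    cls_mul_eq_zero ha ((mem_Ecl ha).1 y.2) ((mem_Ecl ha).1 x.2)]

lemma isNilpotent_Ecl (ha : a * a = 0) : Group.IsNilpotent (Ecl G a) := by
  let : CommGroup (Ecl G a) :=
    { mul_comm := (isMulCommutative_Ecl (G := G) ha).is_comm.comm }
  infer_instance

lemma conj_mem_cls_of_normalizer (hb : IsMin G b) {n : LinearMap.GeneralLinearGroup k M} (hsq : dl n * dl n = 0)
    (hn : n ∈ Subgroup.normalizer (Ecl G b : Set (LinearMap.GeneralLinearGroup k M))) :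
    b + (dl n * b - b * dl n) - dl n * b * dl n ∈ cls G b := by
  have hm := (Subgroup.mem_normalizer_iff.1 hn (one_add b hb.mem.1)).1 (one_add_mem_Ecl hb.mem.1 (self_mem_cls hb))
  rw [mem_Ecl hb.mem.1, dl_conj, dl_one_add, val_eq n, val_eq n⁻¹, dl_inv_of_sq hsq] at hm
  convert hm using 1
  noncomm_ring

lemma nilpotent_of_comm (ha : a * a = 0) (hc : a * b = b * a) : IsNilpotent (a * b + b * a) := by
  refine ⟨2, ?_⟩
  rw [← hc, sq]
  calc (a * b + a * b) * (a * b + a * b) = 4 • (a * (b * a) * b) := by noncomm_ring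
    _ = 0 := by rw [← hc, ← mul_assoc, ha]; simp

/-- Commuting classes form a nilpotent pair. -/
lemma nilpotent_of_commutator_eq_bot (ha : IsMin G a) (hb : IsMin G b) (h : ⁅Ecl G a, Ecl G b⁆ = ⊥) :
    IsNilpotent (a * b + b * a) := by
  refine nilpotent_of_comm ha.mem.1 ?_
  have hm := Subgroup.commutator_mem_commutator (one_add_mem_Ecl ha.mem.1 (self_mem_cls ha))
    (one_add_mem_Ecl hb.mem.1 (self_mem_cls hb))
  rw [h, Subgroup.mem_bot, commutatorElement_eq_one_iff_mul_comm] at hm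
  simpa [dl_one_add] using mul_comm_dl hm

variable [FiniteDimensional k M]

/-- The element of the second class matched with a member of the first. -/
theorem exists_witness (h2 : (2 : k) ≠ 0) (h3 : Nat.card k ≠ 3) (ha : IsMin G a) (hb : IsMin G b)
    (hs : ¬ IsNilpotent (a * b + b * a)) {α : LinearMap.GeneralLinearGroup k M} (hα : α ∈ Ecl G a) (hα1 : α ≠ 1) :
    ∃ β ∈ Ecl G b, β ≠ 1 ∧ conjBy (Ecl G a) β⁻¹ = conjBy (Ecl G b) α⁻¹ ∧ β⁻¹ * α * β = α⁻¹ * β⁻¹ * α := by
  have hα' := (mem_Ecl ha.mem.1).1 hα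
  have hα0 : dl α ≠ 0 := fun h => hα1 (dl_eq_zero.1 h)
  have hmin := (isMin_of_mem_cls ha hα' hα0).1
  obtain ⟨R, _, _, _, ⟨P⟩⟩ := exists_sl2Pair h2 h3 hmin hb (fun h => hs
    ((nilpotent_congr h2 h3 ha hb hα' hα0 (self_mem_cls hb) hb.ne).1 ((unipotent_pair_iff hmin.mem.1 hb.mem.1).1 h)))
  have eα : α = P.toCorner.hom (uR 1) := dl_injective (by rw [P.dl_uR, P.map_one, P.e_a])
  set β := P.toCorner.hom (lR 1) with hβdef
  have hdl : dl β = P.ψ P.toCorner.v * b := by rw [P.dl_lR, one_mul]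
  have hcls : dl β ∈ cls G b := hdl ▸ P.symm.psi_mem_cls h2 h3 hb.mem hmin.mem P.toCorner.v
  have hv : P.toCorner.v ≠ 0 := fun h => by
    have : Nontrivial R := P.isField.nontrivial
    have h' := P.toCorner.v_mul
    rw [h, zero_mul] at h'
    exact zero_ne_one h'
  have hβ0 : dl β ≠ 0 := hdl ▸ P.symm.psi_mul_ne hv
  have hβ : β ∈ Ecl G b := (mem_Ecl hb.mem.1).2 hcls
  have hβ1 : β ≠ 1 := fun h => hβ0 (h ▸ dl_one)
  have hid : β⁻¹ * α * β = α⁻¹ * β⁻¹ * α := by
    rw [eα, hβdef, ← map_inv, ← map_inv, ← map_mul, ← map_mul, ← map_mul, ← map_mul, witness_identity]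
  refine ⟨β, hβ, hβ1, ?_, hid⟩
  have hβi := (mem_Ecl hb.mem.1).1 (inv_mem hβ)
  have hβi0 : dl β⁻¹ ≠ 0 := fun h => hβ1 (inv_eq_one.1 (dl_eq_zero.1 h))
  rw [← Ecl_eq_of_mem ha hα' hα0, ← Ecl_eq_of_mem hb hβi hβi0,
    conjBy_Ecl (inv_mem (Ecl_le hb.mem.1 hβ)), conjBy_Ecl (inv_mem (Ecl_le ha.mem.1 hα)), ← cj_apply, ← cj_apply,
    cj_dl, cj_dl, inv_inv, inv_inv, hid]

/-- A non-unipotent pair of classes is a special rank one pair. -/
theorem special_rankOne (h2 : (2 : k) ≠ 0) (h3 : Nat.card k ≠ 3) (ha : IsMin G a) (hb : IsMin G b)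
    (hs : ¬ IsNilpotent (a * b + b * a)) : IsSpecialRankOnePair (Ecl G a) (Ecl G b) := by
  have hs' : ¬ IsNilpotent (b * a + a * b) := by rwa [add_comm]
  refine ⟨⟨fun e => hs (nilpotent_of_comm ha.mem.1 ?_), isNilpotent_Ecl ha.mem.1, isNilpotent_Ecl hb.mem.1,
    fun α hα hα1 => ?_, fun β hβ hβ1 => ?_⟩, fun α hα hα1 β' hβ' hβ'1 hc => ?_⟩
  · have hba : b ∈ cls G a := by
      have := one_add_mem_Ecl hb.mem.1 (self_mem_cls hb)
      rw [← e, mem_Ecl ha.mem.1, dl_one_add] at this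
      exact this
    rw [cls_mul_eq_zero ha.mem.1 (self_mem_cls ha) hba, cls_mul_eq_zero ha.mem.1 hba (self_mem_cls ha)]
  · obtain ⟨β, h1, h1', h1'', -⟩ := exists_witness h2 h3 ha hb hs hα hα1
    exact ⟨β, h1, h1', h1''⟩
  · obtain ⟨α, h1, h1', h1'', -⟩ := exists_witness h2 h3 hb ha hs' hβ hβ1
    exact ⟨α, h1, h1', h1''⟩
  · obtain ⟨β, hβ, -, hcβ, hid⟩ := exists_witness h2 h3 ha hb hs hα hα1
    suffices β = β' by rw [← this]; exact hid
    by_contra hne
    have hN : conjBy (Ecl G a) (β * β'⁻¹) = Ecl G a := by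
      rw [← conjBy_mul, hc, ← hcβ, conjBy_mul, mul_inv_cancel, conjBy_one]
    have hn := mul_mem hβ (inv_mem hβ')
    have hn' := (mem_Ecl hb.mem.1).1 hn
    have hn0 : dl (β * β'⁻¹) ≠ 0 := fun h => hne (mul_inv_eq_one.1 (dl_eq_zero.1 h))
    obtain ⟨hm, -, -⟩ := isMin_of_mem_cls hb hn' hn0
    have h0 := commutator_eq_bot_of_conj h2 h3 hm ha
      (conj_mem_cls_of_normalizer ha hm.mem.1 (mem_normalizer_of_conjBy hN))
    rw [Ecl_eq_of_mem hb hn' hn0] at h0
    exact hs' (nilpotent_of_commutator_eq_bot hb ha h0)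

/-- The central involution of a non-unipotent pair of classes and the decomposition it gives. -/
theorem involution (h2 : (2 : k) ≠ 0) (h3 : Nat.card k ≠ 3) (ha : IsMin G a) (hb : IsMin G b)
    (hs : ¬ IsNilpotent (a * b + b * a)) :
    (∃! i : LinearMap.GeneralLinearGroup k M, i ∈ Ecl G a ⊔ Ecl G b ∧ i ≠ 1 ∧ i * i = 1 ∧
        (∀ x ∈ Ecl G a ⊔ Ecl G b, i * x = x * i) ∧
        (∀ m ∈ commutatorSubmodule (Ecl G a ⊔ Ecl G b), (i : M →ₗ[k] M) m = -m) ∧
        (∀ m ∈ fixedSubmodule (Ecl G a ⊔ Ecl G b), (i : M →ₗ[k] M) m = m)) ∧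
      IsCompl (fixedSubmodule (Ecl G a ⊔ Ecl G b)) (commutatorSubmodule (Ecl G a ⊔ Ecl G b)) := by
  obtain ⟨R, _, _, _, ⟨P⟩⟩ := exists_sl2Pair h2 h3 ha hb (fun h => hs ((unipotent_pair_iff ha.mem.1 hb.mem.1).1 h))
  set X := Ecl G a ⊔ Ecl G b with hX
  set e := P.e
  have hae : a * e = a := by rw [← P.toCorner.comm_e_a.eq]; exact P.e_a
  have hbe : b * e = b := by rw [← P.toCorner.comm_e_b.eq]; exact P.e_b
  have hee : e * e = e := P.toCorner.e_mul_e
  have hgen : ∀ {y z : Module.End k M}, e * y = y → y * e = y → z ∈ cls G y → e * z = z ∧ z * e = z := by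
    intro y z h1 h2' hz
    constructor
    · refine LinearMap.ext fun m => ?_
      obtain ⟨u, hu⟩ := hz.2.1 (⟨m, rfl⟩ : z m ∈ LinearMap.range z)
      show e (z m) = z m
      rw [← hu]; exact LinearMap.congr_fun h1 u
    · refine LinearMap.ext fun m => sub_eq_zero.1 ?_
      show z (e m) - z m = 0
      rw [← map_sub]
      refine hz.2.2 (show y (e m - m) = 0 from ?_)
      rw [map_sub, sub_eq_zero]; exact LinearMap.congr_fun h2' m
  have key : ∀ g ∈ X, e * dl g = dl g ∧ dl g * e = dl g := by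
    intro g hg
    rw [hX, Subgroup.sup_eq_closure] at hg
    induction hg using Subgroup.closure_induction with
    | mem g hg =>
      rcases hg with hg | hg
      · exact hgen P.e_a hae ((mem_Ecl ha.mem.1).1 hg)
      · exact hgen P.e_b hbe ((mem_Ecl hb.mem.1).1 hg)
    | one => simp [dl_one]
    | mul g h _ _ hg hh =>
      rw [dl_mul]
      exact ⟨by rw [mul_add, mul_add, hg.1, hh.1, ← mul_assoc, hg.1],
        by rw [add_mul, add_mul, hg.2, hh.2, mul_assoc, hh.2]⟩
    | inv g _ hg =>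
      have e1 : dl g⁻¹ = -dl g * ((g⁻¹ : LinearMap.GeneralLinearGroup k M) : Module.End k M) := by
        rw [dl, dl, neg_mul, sub_mul, one_mul, Units.mul_inv, neg_sub]
      exact ⟨by rw [e1, ← mul_assoc, mul_neg, hg.1], by rw [dl_inv_eq, mul_assoc, hg.2]⟩
  have hs_e : P.ψ P.toCorner.v * (a * b + b * a) = e := by rw [P.toCorner.psi_mul_s, P.toCorner.v_mul, P.map_one]
  have ha1 : one_add a ha.mem.1 ∈ X := Subgroup.mem_sup_left (one_add_mem_Ecl ha.mem.1 (self_mem_cls ha))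
  have hb1 : one_add b hb.mem.1 ∈ X := Subgroup.mem_sup_right (one_add_mem_Ecl hb.mem.1 (self_mem_cls hb))
  have hfix : fixedSubmodule X = LinearMap.ker e := by
    refine le_antisymm (fun m hm => ?_) (le_iInf₂ fun g hg m hm => ?_)
    · simp only [fixedSubmodule, Submodule.mem_iInf] at hm
      have h1 : dl (one_add a ha.mem.1) m = 0 := hm _ ha1
      have h1' : dl (one_add b hb.mem.1) m = 0 := hm _ hb1
      rw [dl_one_add] at h1 h1'
      show e m = 0
      rw [← hs_e]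
      simp [h1, h1']
    · show dl g m = 0
      rw [← (key g hg).2, Module.End.mul_apply, LinearMap.mem_ker.1 hm, map_zero]
  have hcom : commutatorSubmodule X = LinearMap.range e := by
    refine le_antisymm (iSup₂_le fun g hg => ?_) ?_
    · show LinearMap.range (dl g) ≤ _
      rintro _ ⟨m, rfl⟩
      exact ⟨dl g m, LinearMap.congr_fun (key g hg).1 m⟩
    · have hle : ∀ g ∈ X, LinearMap.range (dl g) ≤ commutatorSubmodule X := fun g hg =>
        le_iSup₂ (f := fun g (_ : g ∈ X) => LinearMap.range (dl g)) g hg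
      have l1 := hle _ ha1
      have l2 := hle _ hb1
      rw [dl_one_add] at l1 l2
      have e2 : e = a * (P.ψ P.toCorner.v * b) + b * (P.ψ P.toCorner.v * a) := by
        rw [← hs_e, mul_add, ← mul_assoc a, ← (P.comm_a _).eq, ← mul_assoc b, ← (P.comm_b _).eq, mul_assoc, mul_assoc]
      rintro _ ⟨m, rfl⟩
      rw [e2]
      exact add_mem (l1 ⟨_, rfl⟩) (l2 ⟨_, rfl⟩)
  set i := P.toCorner.hom (uR 1 * lR (-1) * uR 1 * (uR 1 * lR (-1) * uR 1)) with hidef
  have hiX : i ∈ X := pairGrp_le_sup ha hb (P.hom_mem_pairGrp h2 h3 _)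
  have hi : (i : Module.End k M) = 1 - e - e := by
    rw [hidef, Corner.hom_coe]
    have hm : (uR (1 : R) * lR (-1) * uR 1 * (uR 1 * lR (-1) * uR 1)).1 = !![-1, 0; 0, -1] := by
      ext r c; fin_cases r <;> fin_cases c <;> simp [Matrix.mul_apply, Fin.sum_univ_two]
    rw [hm]
    have := P.toCorner.e_sum
    simp [Corner.Φ]
    linear_combination (norm := abel) (-1 : ℤ) • this
  have happ : ∀ m, (i : M →ₗ[k] M) m = m - e m - e m := fun m => by
    show (i : Module.End k M) m = _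
    rw [hi]; rfl
  have hprop : i ≠ 1 ∧ i * i = 1 ∧ (∀ x ∈ X, i * x = x * i) ∧
      (∀ m ∈ commutatorSubmodule X, (i : M →ₗ[k] M) m = -m) ∧
      (∀ m ∈ fixedSubmodule X, (i : M →ₗ[k] M) m = m) := by
    refine ⟨fun h => ?_, Units.ext ?_, fun x hx => Units.ext ?_, fun m hm => ?_, fun m hm => ?_⟩
    · have h' : (i : Module.End k M) = 1 := congrArg Units.val h
      rw [hi, sub_sub, sub_eq_self, ← two_smul k e, smul_eq_zero] at h'
      exact ha.ne (by rw [← P.e_a, show P.e = 0 from h'.resolve_left h2, zero_mul])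
    · rw [Units.val_mul, hi, Units.val_one]
      simp only [sub_mul, mul_sub, one_mul, mul_one, hee]
      abel
    · rw [Units.val_mul, Units.val_mul, hi, val_eq x]
      simp only [sub_mul, mul_sub, mul_add, add_mul, one_mul, mul_one, (key x hx).1, (key x hx).2]
      abel
    · rw [hcom] at hm
      obtain ⟨u, rfl⟩ := hm
      rw [happ, show e (e u) = e u from LinearMap.congr_fun hee u]
      abel
    · rw [hfix, LinearMap.mem_ker] at hm
      rw [happ, hm, sub_zero, sub_zero]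
  refine ⟨⟨i, ⟨hiX, hprop⟩, ?_⟩, ?_⟩
  · rintro j ⟨-, -, -, -, hj1, hj2⟩
    refine Units.ext (LinearMap.ext fun m => ?_)
    rw [hi]
    have h1 : (j : M →ₗ[k] M) (m - e m) = m - e m := hj2 _ (by
      rw [hfix, LinearMap.mem_ker, map_sub, show e (e m) = e m from LinearMap.congr_fun hee m, sub_self])
    have h1' : (j : M →ₗ[k] M) (e m) = -(e m) := hj1 _ (hcom ▸ ⟨m, rfl⟩)
    show (j : M →ₗ[k] M) m = m - e m - e m
    calc (j : M →ₗ[k] M) m = (j : M →ₗ[k] M) (m - e m) + (j : M →ₗ[k] M) (e m) := by rw [← map_add, sub_add_cancel]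
      _ = _ := by rw [h1, h1', ← sub_eq_add_neg]
  · rw [hfix, hcom]
    refine IsCompl.of_eq ?_ ?_
    · rw [eq_bot_iff]
      rintro m ⟨h1, u, rfl⟩
      rw [Submodule.mem_bot, ← show e (e u) = e u from LinearMap.congr_fun hee u]
      exact h1
    · rw [eq_top_iff]
      intro m _
      rw [← sub_add_cancel m (e m)]
      refine Submodule.add_mem_sup ?_ ⟨m, rfl⟩
      rw [LinearMap.mem_ker, map_sub, show e (e m) = e m from LinearMap.congr_fun hee m, sub_self]

end CfsgLib.QuadPair
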