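import Cfsg.Agent.QuadPair.RingGroup
import Cfsg.Agent.SL2.PSL
import Cfsg.Agent.H29.Dickson.Solvable

/-!
For finite `k`: if `R = k[s]` is not a field, the iterated commutators of `⟨u(c), l(c s)⟩` contain some `u(r)`,
`r` a nonzero non-unit.
-/

set_option autoImplicit false

open Matrix
open scoped commutatorElement

namespace CfsgLib.QuadPair

lemma exists_fixed_of_dvd {G : Type*} [Group G] [Finite G] {p : ℕ} [Fact p.Prime] (N : Subgroup G) [hN : N.Normal]
    {u : G} (hu : u ^ p = 1) (hdvd : p ∣ Nat.card N) :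
    ∃ g ∈ N, g ≠ 1 ∧ (∃ j, g ^ p ^ j = 1) ∧ g * u = u * g := by
  have hup : IsPGroup p (Subgroup.zpowers u) := by
    refine IsPGroup.of_card_dvd_pow (n := 1) ?_
    rw [pow_one, Nat.card_zpowers]
    exact orderOf_dvd_of_pow_eq_one hu
  obtain ⟨P, hP⟩ := hup.exists_le_sylow
  set Q : Subgroup G := (P : Subgroup G) ⊓ N
  have hQp : IsPGroup p Q := P.isPGroup'.to_inf_left
  have hQ : Q ≠ ⊥ := by
    obtain ⟨g, hg⟩ := exists_prime_orderOf_dvd_card' p hdvd
    have hg' : IsPGroup p (Subgroup.zpowers (g : G)) := by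
      refine IsPGroup.of_card_dvd_pow (n := 1) ?_
      rw [pow_one, Nat.card_zpowers, Subgroup.orderOf_coe, hg]
    obtain ⟨P', hP'⟩ := hg'.exists_le_sylow
    obtain ⟨x, hx⟩ := MulAction.exists_smul_eq G P' P
    intro hbot
    have hmem : x * g * x⁻¹ ∈ Q := ⟨by
      rw [← hx]
      exact Subgroup.smul_mem_pointwise_smul (g : G) (MulAut.conj x) (P' : Subgroup G)
        (hP' (Subgroup.mem_zpowers _)), hN.conj_mem _ g.2 x⟩
    rw [hbot, Subgroup.mem_bot, conj_eq_one_iff, OneMemClass.coe_eq_one] at hmem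
    rw [hmem, orderOf_one] at hg
    exact (Fact.out : p.Prime).one_lt.ne hg
  have hdvdQ : p ∣ Nat.card Q :=
    hQp.card_eq_or_dvd.resolve_left fun h => hQ (Subgroup.card_eq_one.1 h)
  let : MulAction (Subgroup.zpowers u) Q :=
    { smul := fun a x => ⟨(a : G) * x * (a : G)⁻¹,
        Subgroup.mul_mem _ (Subgroup.mul_mem _ (hP a.2) x.2.1) (Subgroup.inv_mem _ (hP a.2)),
        hN.conj_mem _ x.2.2 _⟩
      one_smul := fun x => Subtype.ext (show (1 : G) * x * (1 : G)⁻¹ = x by simp)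
      mul_smul := fun a b x => Subtype.ext (show ((a : G) * b) * x * ((a : G) * b)⁻¹ =
        a * (b * x * (b : G)⁻¹) * (a : G)⁻¹ by group) }
  obtain ⟨g, hg, hg1⟩ := hup.exists_fixed_point_of_prime_dvd_card_of_fixed_point Q hdvdQ (a := 1)
    (fun a => Subtype.ext (show (a : G) * (1 : G) * (a : G)⁻¹ = 1 by simp))
  obtain ⟨j, hj⟩ := (isPGroup_iff_pow_pow_eq_one.1 hQp) g
  refine ⟨g, g.2.2, fun e => hg1 (Subtype.ext e.symm), ⟨j, congrArg Subtype.val hj⟩, ?_⟩
  have := congrArg Subtype.val (hg ⟨u, Subgroup.mem_zpowers u⟩)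
  exact (mul_inv_eq_iff_eq_mul.1 (show u * (g : G) * u⁻¹ = g from this)).symm

lemma center_of_normal_coprime {F : Type*} [Field F] [Finite F] {p : ℕ} [Fact p.Prime] [CharP F p]
    (h4 : 4 ≤ Nat.card F) (N : Subgroup (SpecialLinearGroup (Fin 2) F)) [N.Normal]
    (hN : ¬ p ∣ Nat.card N) {g : SpecialLinearGroup (Fin 2) F} (hg : g ∈ N) : g = 1 ∨ g = -1 := by
  have := Fintype.ofFinite F
  have hs := (CfsgLib.H29.Dickson.not_solvable_PSL (K := F) (by rwa [← Nat.card_eq_fintype_card])).1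
  have hnorm : (N.map CfsgLib.SL2.proj).Normal :=
    Subgroup.Normal.map inferInstance _ CfsgLib.SL2.proj_surjective
  rcases hnorm.eq_bot_or_eq_top with h | h
  · have : CfsgLib.SL2.proj g ∈ (⊥ : Subgroup (Matrix.ProjectiveSpecialLinearGroup (Fin 2) F)) :=
      h ▸ ⟨g, hg, rfl⟩
    exact CfsgLib.SL2.proj_eq_one_iff.1 (Subgroup.mem_bot.1 this)
  · exfalso
    refine hN (dvd_trans ?_ (Subgroup.card_map_dvd N CfsgLib.SL2.proj))
    rw [h, Subgroup.card_top]
    have ho : orderOf (CfsgLib.SL2.proj (CfsgLib.SL2.upperU (1 : F))) = p := by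
      refine orderOf_eq_prime (CfsgLib.SL2.proj_pow_char p (Or.inl (by simp))) fun e => ?_
      rcases CfsgLib.SL2.proj_eq_one_iff.1 e with e | e
      · exact one_ne_zero (α := F) (by simpa using congrArg (fun g : SpecialLinearGroup (Fin 2) F => g.1 0 1) e)
      · exact one_ne_zero (α := F) (by simpa using congrArg (fun g : SpecialLinearGroup (Fin 2) F => g.1 0 1) e)
    calc p = orderOf (CfsgLib.SL2.proj (CfsgLib.SL2.upperU (1 : F))) := ho.symm
      _ ∣ _ := orderOf_dvd_natCard _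

variable {R : Type*} [CommRing R] {p : ℕ}

lemma mul_e (g h : SpecialLinearGroup (Fin 2) R) (i j : Fin 2) :
    (g * h).1 i j = g.1 i 0 * h.1 0 j + g.1 i 1 * h.1 1 j := by
  show (g.1 * h.1) i j = _
  rw [Matrix.mul_apply, Fin.sum_univ_two]

lemma neg_comm_uR {b : SpecialLinearGroup (Fin 2) R} {r : R} (h : b * uR r = uR r * b) :
    b.1 1 0 * r = 0 := by
  have := congrArg (fun g : SpecialLinearGroup (Fin 2) R => g.1 1 1) h
  simp only [mul_e] at this
  simpa using this

lemma upper_pow {g : SpecialLinearGroup (Fin 2) R} (h : g.1 1 0 = 0) (n : ℕ) :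
    (g ^ n).1 0 0 = g.1 0 0 ^ n ∧ (g ^ n).1 1 0 = 0 := by
  induction n with
  | zero => simp
  | succ n ih => rw [pow_succ, mul_e, mul_e, ih.1, ih.2, h]; simp [pow_succ]

lemma exists_eq_uR {g : SpecialLinearGroup (Fin 2) R} (hp : Odd p) (hpow : ∃ j, g ^ p ^ j = 1)
    (hc : g * uR 1 = uR 1 * g) : ∃ r, g = uR r := by
  have h10 : g.1 1 0 = 0 := by simpa using neg_comm_uR hc
  have h01 := congrArg (fun g : SpecialLinearGroup (Fin 2) R => g.1 0 1) hc
  simp only [mul_e] at h01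
  simp at h01
  have hd : g.1 0 0 * g.1 1 1 - g.1 0 1 * g.1 1 0 = 1 := (det_fin_two g.1).symm.trans g.2
  have h11 : g.1 1 1 = g.1 0 0 := by linear_combination -h01
  obtain ⟨j, hj⟩ := hpow
  have hz : g.1 0 0 ^ p ^ j = 1 := by rw [← (upper_pow h10 _).1, hj]; simp
  have hsq : g.1 0 0 ^ 2 = 1 := by rw [h10, h11] at hd; linear_combination hd
  obtain ⟨i, hi⟩ := hp.pow (n := j)
  have h00 : g.1 0 0 = 1 := by rwa [hi, pow_succ, pow_mul, hsq, one_pow, one_mul] at hz
  exact ⟨g.1 0 1, by apply sl2_ext <;> simp [h00, h10, h11]⟩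

lemma exists_pow_eq_one_of_nilpotent_entries [Fact p.Prime] [CharP R p] {J : Ideal R} (hJ : ∃ N, J ^ N = ⊥)
    {g : SpecialLinearGroup (Fin 2) R} (hg : ∀ i j, (g.1 - 1) i j ∈ J) : ∃ j, g ^ p ^ j = 1 := by
  obtain ⟨N, hN⟩ := hJ
  have hX : ∀ n, ∀ i j, ((g.1 - 1) ^ n) i j ∈ J ^ n := fun n => by
    induction n with
    | zero => intro i j; simp
    | succ n ih =>
      intro i j
      rw [pow_succ, pow_succ, Matrix.mul_apply]
      exact Ideal.sum_mem _ fun l _ => Ideal.mul_mem_mul (ih i l) (hg l j)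
  have : CharP (Matrix (Fin 2) (Fin 2) R) p := inferInstance
  have : ExpChar (Matrix (Fin 2) (Fin 2) R) p := ExpChar.prime Fact.out
  refine ⟨N, ?_⟩
  suffices h : g.1 ^ p ^ N = 1 by apply Subtype.ext; simpa using h
  calc g.1 ^ p ^ N = ((g.1 - 1) + 1) ^ p ^ N := by rw [sub_add_cancel]
    _ = (g.1 - 1) ^ p ^ N + 1 ^ p ^ N := add_pow_expChar_pow_of_commute p N (Commute.one_right _)
    _ = 1 := by
      have h0 : (g.1 - 1) ^ p ^ N = 0 := by
        refine pow_eq_zero_of_le (Nat.lt_pow_self (Fact.out : p.Prime).one_lt).le ?_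
        ext i j
        have := hX N i j
        rw [hN, Ideal.mem_bot] at this
        exact this
      rw [h0, zero_add, one_pow]

set_option maxHeartbeats 2000000 in
/-- Two residue fields give a field isomorphism respecting `s`, for a subgroup with small kernels. -/
lemma graph_hom {k F₁ F₂ : Type*} [Field k] [Field F₁] [Field F₂] [Algebra k F₁] [Algebra k F₂]
    (hp : Odd p) [CharP F₁ p] (h2 : (2 : F₂) ≠ 0) (h21 : (2 : F₁) ≠ 0)
    (X : Subgroup (SpecialLinearGroup (Fin 2) F₁ × SpecialLinearGroup (Fin 2) F₂))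
    (hsurj : ∀ g, ∃ b, (g, b) ∈ X) (hker : ∀ b, (1, b) ∈ X → b = 1 ∨ b = -1)
    (huk : ∀ c : k, (uR (algebraMap k F₁ c), uR (algebraMap k F₂ c)) ∈ X) {s₁ : F₁} {s₂ : F₂}
    (hl : (lR s₁, lR s₂) ∈ X) (hs₁ : s₁ ≠ 0) :
    ∃ θ : F₁ →ₐ[k] F₂, θ s₁ = s₂ := by
  have huq : ∀ {g b b'}, (g, b) ∈ X → (g, b') ∈ X → b' = b ∨ b' = -b := fun {g b b'} h h' => by
    have := mul_mem (inv_mem h) h'
    rw [Prod.inv_mk, Prod.mk_mul_mk, inv_mul_cancel] at this
    rcases hker _ this with e | e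
    · exact Or.inl ((inv_mul_eq_one.1 e).symm)
    · exact Or.inr (by rw [inv_mul_eq_iff_eq_mul.1 e, mul_neg, mul_one])
  have hpe : Even (p + 1) := hp.add_one
  have huR1 : (uR (1 : F₁), uR (1 : F₂)) ∈ X := by simpa using huk 1
  have hupow : ∀ (n : ℕ) (x : F₁), uR x ^ n = uR ((n : F₁) * x) := fun n x => by
    induction n with
    | zero => simp [uR_zero]
    | succ n ih => rw [pow_succ, ih, ← uR_add]; congr 1; push_cast; ring
  have hex : ∀ x : F₁, ∃ y : F₂, (uR x, uR y) ∈ X := fun x => by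
    obtain ⟨b, hb⟩ := hsurj (uR x)
    have h' := pow_mem hb (p + 1)
    rw [Prod.pow_mk, hupow] at h'
    simp only [Nat.cast_add, CharP.cast_eq_zero F₁ p, Nat.cast_one, zero_add, one_mul] at h'
    set b' := b ^ (p + 1) with hb'
    have hbp : b' ^ p = 1 := by
      have h1 := pow_mem hb p
      rw [Prod.pow_mk, hupow] at h1
      simp only [CharP.cast_eq_zero F₁ p, zero_mul, uR_zero] at h1
      rw [hb', pow_right_comm]
      rcases hker _ h1 with e | e <;> simp [e, hpe.neg_one_pow]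
    have h3 := mul_mem h' huR1
    have h4 := mul_mem huR1 h'
    simp only [Prod.mk_mul_mk, ← uR_add] at h3 h4
    rw [add_comm] at h4
    rcases huq h4 h3 with e | e
    · obtain ⟨y, hy⟩ := exists_eq_uR (g := b') hp ⟨1, by rwa [pow_one]⟩ e
      exact ⟨y, hy ▸ h'⟩
    · exfalso
      have e10 := congrArg (fun g : SpecialLinearGroup (Fin 2) F₂ => g.1 1 0) e
      have e00 := congrArg (fun g : SpecialLinearGroup (Fin 2) F₂ => g.1 0 0) e
      simp only [mul_e, SpecialLinearGroup.coe_neg, Matrix.neg_apply] at e00 e10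
      simp at e00 e10
      have a10 : b'.1 1 0 = 0 := (mul_eq_zero.1 (show 2 * b'.1 1 0 = 0 by linear_combination e10)).resolve_left h2
      have a00 : b'.1 0 0 = 0 := (mul_eq_zero.1 (show 2 * b'.1 0 0 = 0 by linear_combination e00 - a10)).resolve_left h2
      have hd : b'.1 0 0 * b'.1 1 1 - b'.1 0 1 * b'.1 1 0 = 1 := (det_fin_two b'.1).symm.trans b'.2
      rw [a10, a00] at hd; simp at hd
  choose θ hθ using hex
  have huniq : ∀ {x y}, (uR x, uR y) ∈ X → y = θ x := fun {x y} h => by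
    rcases huq (hθ x) h with e | e
    · exact uR_injective e
    · have := congrArg (fun g : SpecialLinearGroup (Fin 2) F₂ => g.1 0 0) e
      simp at this
      exact absurd (by linear_combination this : (2 : F₂) = 0) h2
  have hadd : ∀ x y, θ (x + y) = θ x + θ y := fun x y => (huniq (by
    have := mul_mem (hθ x) (hθ y)
    rwa [Prod.mk_mul_mk, ← uR_add, ← uR_add] at this)).symm
  have hk : ∀ c : k, θ (algebraMap k F₁ c) = algebraMap k F₂ c := fun c => (huniq (huk c)).symm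
  have h1 : θ 1 = 1 := by simpa using hk 1
  have hsq : ∀ t x, θ (t ^ 2 * x) = θ (t ^ 2) * θ x := fun t x => by
    by_cases ht : t = 0
    · have h0 : θ 0 = 0 := by simpa using hk 0
      simp [ht, h0]
    obtain ⟨b, hb⟩ := hsurj ⟨!![t, 0; 0, t⁻¹], by simp [ht]⟩
    have key : ∀ x, b * uR (θ x) = uR (θ (t ^ 2 * x)) * b := fun x => by
      set gt : SpecialLinearGroup (Fin 2) F₁ := ⟨!![t, 0; 0, t⁻¹], by simp [ht]⟩ with hgt
      have h : (gt * uR x * gt⁻¹, b * uR (θ x) * b⁻¹) ∈ X := mul_mem (mul_mem hb (hθ x)) (inv_mem hb)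
      have e1 : gt * uR x * gt⁻¹ = uR (t ^ 2 * x) := by
        rw [mul_inv_eq_iff_eq_mul]
        apply sl2_ext <;> simp only [mul_e] <;> simp [hgt]
        field_simp
      rw [e1] at h
      rcases huq (hθ (t ^ 2 * x)) h with e | e
      · exact mul_inv_eq_iff_eq_mul.1 e
      · exfalso
        have e' := mul_inv_eq_iff_eq_mul.1 e
        have e00 := congrArg (fun g : SpecialLinearGroup (Fin 2) F₂ => g.1 0 0) e'
        have e10 := congrArg (fun g : SpecialLinearGroup (Fin 2) F₂ => g.1 1 0) e'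
        simp only [mul_e, SpecialLinearGroup.coe_neg, Matrix.neg_apply] at e00 e10
        simp at e00 e10
        have a10 : b.1 1 0 = 0 := (mul_eq_zero.1 (show 2 * b.1 1 0 = 0 by linear_combination e10)).resolve_left h2
        have a00 : b.1 0 0 = 0 := (mul_eq_zero.1
          (show 2 * b.1 0 0 = 0 by linear_combination e00 - θ (t ^ 2 * x) * a10)).resolve_left h2
        have hd : b.1 0 0 * b.1 1 1 - b.1 0 1 * b.1 1 0 = 1 := (det_fin_two b.1).symm.trans b.2
        rw [a10, a00] at hd; simp at hd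
    have ea := congrArg (fun g : SpecialLinearGroup (Fin 2) F₂ => g.1 1 1) (key 1)
    have eb := congrArg (fun g : SpecialLinearGroup (Fin 2) F₂ => g.1 0 1) (key 1)
    have ec := congrArg (fun g : SpecialLinearGroup (Fin 2) F₂ => g.1 0 1) (key x)
    simp only [mul_e] at ea eb ec
    simp [h1] at ea eb ec
    have hd : b.1 0 0 * b.1 1 1 - b.1 0 1 * b.1 1 0 = 1 := (det_fin_two b.1).symm.trans b.2
    have h10 : b.1 1 0 = 0 := ea
    rw [h10, mul_zero, sub_zero] at hd
    linear_combination (-b.1 0 0) * ec - (θ (t ^ 2 * x)) * hd + θ x * b.1 0 0 * eb + θ x * θ (t ^ 2) * hd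
  have hmul : ∀ x y, θ (x * y) = θ x * θ y := fun x y => by
    have hA := hsq (x + 1) y
    have hB := hsq x y
    rw [show (x + 1) ^ 2 * y = x ^ 2 * y + (x * y + x * y) + y by ring,
      show (x + 1) ^ 2 = x ^ 2 + (x + x) + 1 by ring, hadd, hadd, hadd, hadd, hadd, hadd, hB, h1] at hA
    have : (2 : F₂) * (θ (x * y) - θ x * θ y) = 0 := by linear_combination hA
    exact sub_eq_zero.1 ((mul_eq_zero.1 this).resolve_left h2)
  let θ' : F₁ →ₐ[k] F₂ :=
    { toFun := θ, map_one' := h1, map_mul' := hmul, map_zero' := by simpa using hk 0, map_add' := hadd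
      commutes' := hk }
  refine ⟨θ', ?_⟩
  show θ s₁ = s₂
  obtain ⟨b, hb⟩ := hsurj ⟨!![0, 1; -1, 0], by simp⟩
  have hconj : ∀ x, (lR (-x), b * uR (θ x) * b⁻¹) ∈ X := fun x => by
    set gw : SpecialLinearGroup (Fin 2) F₁ := ⟨!![0, 1; -1, 0], by simp⟩ with hgw
    have h : (gw * uR x * gw⁻¹, b * uR (θ x) * b⁻¹) ∈ X := mul_mem (mul_mem hb (hθ x)) (inv_mem hb)
    have e : gw * uR x * gw⁻¹ = lR (-x) := by
      rw [mul_inv_eq_iff_eq_mul]
      apply sl2_ext <;> simp only [mul_e] <;> simp [hgw]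
    rwa [e] at h
  have hd : b.1 0 0 * b.1 1 1 - b.1 0 1 * b.1 1 0 = 1 := (det_fin_two b.1).symm.trans b.2
  have hs : θ (-s₁) = -θ s₁ := by
    have := hadd (-s₁) s₁
    rw [neg_add_cancel, show θ 0 = 0 by simpa using hk 0] at this
    linear_combination -this
  have hne : θ s₁ ≠ 0 := fun e => hs₁ (θ'.toRingHom.injective (e.trans (map_zero θ'.toRingHom).symm))
  have h := hconj (-s₁)
  rw [neg_neg] at h
  have e : b * uR (θ (-s₁)) = lR s₂ * b := by
    rcases huq hl h with e | e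
    · exact mul_inv_eq_iff_eq_mul.1 e
    · exfalso
      have e' := mul_inv_eq_iff_eq_mul.1 e
      have e00 := congrArg (fun g : SpecialLinearGroup (Fin 2) F₂ => g.1 0 0) e'
      have e01 := congrArg (fun g : SpecialLinearGroup (Fin 2) F₂ => g.1 0 1) e'
      simp only [mul_e, SpecialLinearGroup.coe_neg, Matrix.neg_apply] at e00 e01
      simp at e00 e01
      have a00 : b.1 0 0 = 0 := (mul_eq_zero.1 (show 2 * b.1 0 0 = 0 by linear_combination e00)).resolve_left h2
      have a01 : b.1 0 1 = 0 := (mul_eq_zero.1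
        (show 2 * b.1 0 1 = 0 by linear_combination e01 - θ (-s₁) * a00)).resolve_left h2
      rw [a00, a01] at hd; simp at hd
  have e01 := congrArg (fun g : SpecialLinearGroup (Fin 2) F₂ => g.1 0 1) e
  have e11 := congrArg (fun g : SpecialLinearGroup (Fin 2) F₂ => g.1 1 1) e
  simp only [mul_e] at e01 e11
  simp at e01 e11
  have a00 : b.1 0 0 = 0 := e01.resolve_right fun h0 => hne (by linear_combination -h0 + hs)
  rw [a00, zero_mul, zero_sub] at hd
  have hbr : (uR 1 * lR (-1) * uR 1, uR 1 * (b * uR (θ 1) * b⁻¹) * uR 1) ∈ X :=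
    mul_mem (mul_mem huR1 (hconj 1)) huR1
  set gw : SpecialLinearGroup (Fin 2) F₁ := ⟨!![0, 1; -1, 0], by simp⟩ with hgw
  have hw : (uR (1 : F₁) * lR (-1 : F₁)) * uR (1 : F₁) = gw := by
    apply sl2_ext
    all_goals rw [mul_e, mul_e, mul_e]
    all_goals simp [hgw]
  rw [hw, h1] at hbr
  have hz : (uR 1 * (b * uR 1 * b⁻¹) * uR 1 : SpecialLinearGroup (Fin 2) F₂).1 0 0 = 0 := by
    rcases huq hb hbr with e' | e' <;> rw [e'] <;> simp [a00]
  simp only [mul_e, CfsgLib.SL2.inv00, CfsgLib.SL2.inv10] at hz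
  simp [a00] at hz
  have h10 : b.1 1 0 ^ 2 = 1 := by linear_combination -hz + hd
  linear_combination (-b.1 1 0) * e11 + (b.1 1 0) ^ 2 * hs - θ s₁ * h10 + s₂ * hd

end CfsgLib.QuadPair
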