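import Cfsg.Agent.QuadPair.GenField
import Cfsg.Agent.SLn.Simple

/-!
Iterated commutators in the group generated by `u(c)`, `l(c s)` over `R = k[s]`.
-/

set_option autoImplicit false

open Matrix
open scoped commutatorElement

namespace CfsgLib.QuadPair

section lcs

variable {S T : Type*} [Group S] [Group T]

/-- The lower central series of a subgroup, as subgroups of the ambient group. -/
def lcsIn (G : Subgroup S) : ℕ → Subgroup S
  | 0 => G
  | n + 1 => ⁅lcsIn G n, G⁆

lemma lcsIn_map (G : Subgroup S) (f : S →* T) (n : ℕ) : (lcsIn G n).map f = lcsIn (G.map f) n := by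
  induction n with
  | zero => rfl
  | succ n ih => rw [lcsIn, lcsIn, Subgroup.map_commutator, ih]

lemma lcsIn_mono {G H : Subgroup S} (h : G ≤ H) (n : ℕ) : lcsIn G n ≤ lcsIn H n := by
  induction n with
  | zero => exact h
  | succ n ih => exact Subgroup.commutator_mono ih h

lemma lcsIn_le (G : Subgroup S) (n : ℕ) : lcsIn G n ≤ G := by
  induction n with
  | zero => exact le_rfl
  | succ n ih => exact (Subgroup.commutator_mono ih le_rfl).trans (Subgroup.commutator_le.2 fun a ha b hb => by
      rw [commutatorElement_def]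
      exact mul_mem (mul_mem (mul_mem ha hb) (inv_mem ha)) (inv_mem hb))

lemma conj_mem_lcsIn {G : Subgroup S} {g x : S} (hg : g ∈ G) {n : ℕ} (hx : x ∈ lcsIn G n) :
    g * x * g⁻¹ ∈ lcsIn G n := by
  have h : (lcsIn G n).map (MulAut.conj g).toMonoidHom ≤ lcsIn G n := by
    rw [lcsIn_map]
    refine lcsIn_mono ?_ n
    rintro _ ⟨y, hy, rfl⟩
    exact mul_mem (mul_mem hg hy) (inv_mem hg)
  exact h ⟨x, hx, rfl⟩

lemma lcsIn_top (h : ⁅(⊤ : Subgroup S), (⊤ : Subgroup S)⁆ = ⊤) (n : ℕ) : lcsIn (⊤ : Subgroup S) n = ⊤ := by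
  induction n with
  | zero => rfl
  | succ n ih => rw [lcsIn, ih, h]

end lcs

variable {R : Type*} [CommRing R] {k : Type*} [Field k] [Algebra k R]

lemma exists_sq_ne (h2 : (2 : k) ≠ 0) (h3 : Nat.card k ≠ 3) : ∃ t : k, t ≠ 0 ∧ t ^ 2 ≠ 1 := by
  classical
  by_contra hne
  push Not at hne
  have hall : ∀ x : k, x ∈ ({0, 1, -1} : Finset k) := fun x => by
    by_cases hx : x = 0
    · simp [hx]
    · rcases sq_eq_one_iff.mp (hne x hx) with h' | h' <;> simp [h']
  have := Fintype.ofFinset ({0, 1, -1} : Finset k) (p := (Set.univ : Set k)) (fun x => by simp [hall x])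
  have h11 : (1 : k) ≠ -1 := fun e => h2 (by linear_combination e)
  have hu : (Set.univ : Set k) = (({0, 1, -1} : Finset k) : Set k) := (Set.eq_univ_of_forall hall).symm
  apply h3
  rw [← Nat.card_univ, hu, Nat.card_coe_set_eq, Set.ncard_coe_finset, Finset.card_insert_of_notMem (by simp),
    Finset.card_insert_of_notMem (by simp [h11]), Finset.card_singleton]

lemma commutator_sl2_eq_top {F : Type*} [Field F] [Algebra k F] (h2 : (2 : k) ≠ 0) (h3 : Nat.card k ≠ 3) :
    ⁅(⊤ : Subgroup (SpecialLinearGroup (Fin 2) F)), (⊤ : Subgroup (SpecialLinearGroup (Fin 2) F))⁆ = ⊤ := by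
  obtain ⟨t, ht, ht1⟩ := exists_sq_ne h2 h3
  have := CfsgLib.SLn.commutator_eq_top (F := F) (ι := Fin 2) (Or.inr ⟨algebraMap k F t, by simp [ht], by
    rw [← map_pow]; exact fun e => ht1 ((algebraMap k F).injective (e.trans (map_one _).symm))⟩)
  rwa [commutator_def] at this

lemma lcsIn_gens_field {F : Type*} [Field F] [Algebra k F] [Module.Finite k F] (h2 : (2 : k) ≠ 0)
    (h3 : Nat.card k ≠ 3) {s : F} (hs : s ≠ 0) (hgen : Algebra.adjoin k {s} = ⊤) (n : ℕ) :
    lcsIn (gens k s) n = ⊤ := by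
  rw [gens_eq_top h2 h3 hs hgen, lcsIn_top (commutator_sl2_eq_top (k := k) h2 h3)]

/-- `u` scaled by `k` stays in the iterated commutators. -/
lemma smul_mem_lcsIn {s r : R} {n : ℕ} (hr : uR r ∈ lcsIn (gens k s) n) (t : k) :
    uR (algebraMap k R t * r) ∈ lcsIn (gens k s) n := by
  by_cases ht : t = 0
  · simp [ht, uR_zero, one_mem]
  have h := lcsIn_mono (map_diagConj_le s (Units.mk0 t ht)) n
  rw [← lcsIn_map] at h
  have := h ⟨_, hr, rfl⟩
  rw [diagConj_uR] at this
  simpa using this

/-- The iterated commutators contain all `u(r)` when the group does (and `s` is a unit). -/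
theorem uR_mem_lcsIn_of_uR (h2 : (2 : k) ≠ 0) (h3 : Nat.card k ≠ 3) {s : R} (hs : IsUnit s)
    (hu : ∀ x, uR x ∈ gens k s) (n : ℕ) (r : R) : uR r ∈ lcsIn (gens k s) n := by
  obtain ⟨t, ht, ht1⟩ := exists_sq_ne h2 h3
  have hl := lR_mem_gens_of_uR hs hu
  set a := algebraMap k R t
  set a' := algebraMap k R t⁻¹
  have haa : a * a' = 1 := by rw [← map_mul, mul_inv_cancel₀ ht, map_one]
  set g := uR a * lR (-a') * uR a * (uR (-1) * lR 1 * uR (-1))
  have hg : g ∈ gens k s :=
    mul_mem (mul_mem (mul_mem (hu _) (hl _)) (hu _)) (mul_mem (mul_mem (hu _) (hl _)) (hu _))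
  have hcomm : ∀ r, ⁅uR r, g⁆ = uR ((1 - a * a) * r) := fun r => by
    have hgm : (g : Matrix (Fin 2) (Fin 2) R) = !![a, 0; 0, a'] := by
      ext i j
      fin_cases i <;> fin_cases j <;> simp [g, Matrix.mul_apply, Fin.sum_univ_two]
      all_goals first
        | linear_combination haa
        | linear_combination -haa
        | linear_combination a * haa
        | linear_combination (-a) * haa
    have e : g * uR r * g⁻¹ = uR (a * a * r) := by
      rw [mul_inv_eq_iff_eq_mul]
      apply sl2_ext <;> simp [hgm, Matrix.mul_apply, Fin.sum_univ_two]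
      linear_combination (-(a * r)) * haa
    rw [commutatorElement_def, show uR r * g * (uR r)⁻¹ * g⁻¹ = uR r * (g * uR r * g⁻¹)⁻¹ by group, e]
    rw [mul_inv_eq_iff_eq_mul, ← uR_add]
    congr 1; ring
  induction n generalizing r with
  | zero => exact hu r
  | succ n ih =>
    have hne : (1 - t * t) ≠ 0 := fun e => ht1 (by rw [sq]; linear_combination -e)
    have := Subgroup.commutator_mem_commutator (ih (algebraMap k R (1 - t * t)⁻¹ * r)) hg
    rw [hcomm, ← mul_assoc, ← map_mul (algebraMap k R) t t, ← map_one (algebraMap k R), ← map_sub,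
      ← map_mul, mul_inv_cancel₀ hne, map_one, one_mul] at this
    exact this

end CfsgLib.QuadPair
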