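import Mathlib
import Cfsg.Prelude.Def_RootSubgroups

/-!
A family of subgroups of an ambient group, seen inside the subgroup it generates.
-/

set_option autoImplicit false

open Cfsg

namespace CfsgLib.QuadPair

variable {Γ : Type*} [Group Γ] {H A B : Subgroup Γ} {S : Set (Subgroup Γ)}

lemma map_subgroupOf_of_le (h : A ≤ H) : (A.subgroupOf H).map H.subtype = A := by
  rw [Subgroup.subgroupOf_map_subtype, inf_eq_left.2 h]

lemma map_conjBy_subtype (A' : Subgroup H) (g : H) :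
    (conjBy A' g).map H.subtype = conjBy (A'.map H.subtype) (g : Γ) := by
  rw [conjBy, conjBy, Subgroup.map_map, Subgroup.map_map]
  rfl

lemma conjBy_subgroupOf (hA : A ≤ H) (g : H) :
    conjBy (A.subgroupOf H) g = (conjBy A (g : Γ)).subgroupOf H := by
  refine Subgroup.map_injective H.subtype_injective ?_
  rw [map_conjBy_subtype, map_subgroupOf_of_le hA, map_subgroupOf_of_le]
  rintro _ ⟨x, hx, rfl⟩
  exact mul_mem (mul_mem g.2 (hA hx)) (inv_mem g.2)

lemma isNilpotent_subgroupOf (hA : A ≤ H) (h : Group.IsNilpotent A) : Group.IsNilpotent (A.subgroupOf H) :=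
  (Group.isNilpotent_congr (Subgroup.subgroupOfEquivOfLe hA)).2 h

lemma rankOneCondition_subgroupOf (hA : A ≤ H) (hB : B ≤ H) (h : RankOneCondition A B) :
    RankOneCondition (A.subgroupOf H) (B.subgroupOf H) := by
  intro a ha ha1
  obtain ⟨b, hb, hb1, he⟩ := h a ha fun e => ha1 (Subtype.ext e)
  refine ⟨⟨b, hB hb⟩, hb, fun e => hb1 (congrArg Subtype.val e), ?_⟩
  rw [conjBy_subgroupOf hA, conjBy_subgroupOf hB]
  exact congrArg (fun X : Subgroup Γ => X.subgroupOf H) he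

lemma subgroupOf_inj' (hA : A ≤ H) (hB : B ≤ H) (h : A.subgroupOf H = B.subgroupOf H) : A = B := by
  rw [← map_subgroupOf_of_le hA, ← map_subgroupOf_of_le hB, h]

lemma isRankOnePair_subgroupOf (hA : A ≤ H) (hB : B ≤ H) (h : IsRankOnePair A B) :
    IsRankOnePair (A.subgroupOf H) (B.subgroupOf H) :=
  ⟨fun e => h.ne (subgroupOf_inj' hA hB e), isNilpotent_subgroupOf hA h.nilpotent_left,
    isNilpotent_subgroupOf hB h.nilpotent_right, rankOneCondition_subgroupOf hA hB h.cond_left,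
    rankOneCondition_subgroupOf hB hA h.cond_right⟩

lemma commutator_subgroupOf (hA : A ≤ H) (hB : B ≤ H) :
    ⁅A.subgroupOf H, B.subgroupOf H⁆ = (⁅A, B⁆).subgroupOf H := by
  refine Subgroup.map_injective H.subtype_injective ?_
  rw [Subgroup.map_commutator, map_subgroupOf_of_le hA, map_subgroupOf_of_le hB, map_subgroupOf_of_le]
  exact Subgroup.commutator_le.2 fun a ha b hb =>
    mul_mem (mul_mem (mul_mem (hA ha) (hB hb)) (inv_mem (hA ha))) (inv_mem (hB hb))

lemma closure_image_subgroupOf (hB : B ≤ H) (a : H) :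
    (Subgroup.closure ((fun b : H => a * b * a⁻¹ * b⁻¹) '' (B.subgroupOf H : Set H))).map H.subtype =
      Subgroup.closure ((fun b : Γ => (a : Γ) * b * (a : Γ)⁻¹ * b⁻¹) '' (B : Set Γ)) := by
  rw [MonoidHom.map_closure, Set.image_image]
  congr 1
  ext x
  constructor
  · rintro ⟨b, hb, rfl⟩; exact ⟨b, hb, rfl⟩
  · rintro ⟨b, hb, rfl⟩; exact ⟨⟨b, hB hb⟩, hb, rfl⟩

lemma closure_image_subgroupOf' (hA : A ≤ H) (b : H) :
    (Subgroup.closure ((fun a : H => a * b * a⁻¹ * b⁻¹) '' (A.subgroupOf H : Set H))).map H.subtype =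
      Subgroup.closure ((fun a : Γ => a * (b : Γ) * a⁻¹ * (b : Γ)⁻¹) '' (A : Set Γ)) := by
  rw [MonoidHom.map_closure, Set.image_image]
  congr 1
  ext x
  constructor
  · rintro ⟨a, ha, rfl⟩; exact ⟨a, ha, rfl⟩
  · rintro ⟨a, ha, rfl⟩; exact ⟨⟨a, hA ha⟩, ha, rfl⟩

lemma rootCommutatorCase_subgroupOf (hS : ∀ A ∈ S, A ≤ H) (hA : A ≤ H) (hB : B ≤ H)
    (h : RootCommutatorCase S A B) :
    RootCommutatorCase ((fun A : Subgroup Γ => A.subgroupOf H) '' S) (A.subgroupOf H) (B.subgroupOf H) := by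
  obtain ⟨h1, h2, h3, h4⟩ := h
  rw [RootCommutatorCase, commutator_subgroupOf hA hB]
  refine ⟨⟨_, h1, rfl⟩, fun c hc x hx => ?_, fun a ha ha1 => ?_, fun b hb hb1 => ?_⟩
  · refine Subtype.ext (h2 _ hc _ ?_)
    have := Subgroup.mem_map_of_mem H.subtype hx
    rwa [Subgroup.map_sup, map_subgroupOf_of_le hA, map_subgroupOf_of_le hB] at this
  · refine Subgroup.map_injective H.subtype_injective ?_
    rw [closure_image_subgroupOf hB, map_subgroupOf_of_le (hS _ h1)]
    exact h3 _ ha fun e => ha1 (Subtype.ext e)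
  · refine Subgroup.map_injective H.subtype_injective ?_
    rw [closure_image_subgroupOf' hA, map_subgroupOf_of_le (hS _ h1)]
    exact h4 _ hb fun e => hb1 (Subtype.ext e)

/-- A conjugation invariant family with the three cases is a set of abstract root subgroups of its join. -/
theorem rootSet_subgroupOf (hH : (⨆ A ∈ S, A) = H) (hcomm : ∀ A ∈ S, IsMulCommutative A)
    (hne : ∀ A ∈ S, A ≠ ⊥) (hconj : ∀ A ∈ S, ∀ g ∈ H, conjBy A g ∈ S)
    (hpair : ∀ A ∈ S, ∀ B ∈ S, ⁅A, B⁆ = ⊥ ∨ IsRankOnePair A B ∨ RootCommutatorCase S A B) :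
    IsRootSubgroupSet ((fun A : Subgroup Γ => A.subgroupOf H) '' S) := by
  have hle : ∀ A ∈ S, A ≤ H := fun A hA => hH ▸ le_iSup₂ (f := fun B _ => B) A hA
  refine ⟨?_, ?_, ?_, ?_, ?_⟩
  · rintro _ ⟨A, hA, rfl⟩
    have := hcomm A hA
    refine ⟨⟨fun x y => Subtype.ext (Subtype.ext ?_)⟩⟩
    show ((x : H) : Γ) * ((y : H) : Γ) = ((y : H) : Γ) * ((x : H) : Γ)
    exact congrArg Subtype.val (mul_comm' (⟨((x : H) : Γ), x.2⟩ : A) ⟨((y : H) : Γ), y.2⟩)
  · rintro _ ⟨A, hA, rfl⟩ e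
    exact hne A hA (by rw [← map_subgroupOf_of_le (hle A hA), show A.subgroupOf H = ⊥ from e, Subgroup.map_bot])
  · refine Subgroup.map_injective H.subtype_injective ?_
    rw [← MonoidHom.range_eq_map, H.range_subtype, iSup_image, Subgroup.map_iSup]
    conv_rhs => rw [← hH]
    refine iSup_congr fun A => ?_
    rw [Subgroup.map_iSup]
    exact iSup_congr fun hA => map_subgroupOf_of_le (hle A hA)
  · rintro _ ⟨A, hA, rfl⟩ g
    exact ⟨conjBy A g, hconj A hA g g.2, (conjBy_subgroupOf (hle A hA) g).symm⟩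
  · rintro _ ⟨A, hA, rfl⟩ _ ⟨B, hB, rfl⟩
    rcases hpair A hA B hB with h | h | h
    · refine Or.inl ?_
      rw [commutator_subgroupOf (hle A hA) (hle B hB), h, Subgroup.bot_subgroupOf]
    · exact Or.inr (Or.inl (isRankOnePair_subgroupOf (hle A hA) (hle B hB) h))
    · exact Or.inr (Or.inr (rootCommutatorCase_subgroupOf hle (hle A hA) (hle B hB) h))

end CfsgLib.QuadPair
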