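import Cfsg.Agent.QuadPair.Cocentral
import Cfsg.Agent.QuadPair.Transfer
import Cfsg.Agent.RootGroups.Basic

/-!
The three cases for two classes, and the `SL₂(k)` inside a rank one pair.
-/

set_option autoImplicit false
universe u

open Cfsg Matrix
open scoped commutatorElement

namespace CfsgLib.QuadPair

variable {k : Type u} [Field k] {M : Type u} [AddCommGroup M] [Module k M]
variable {G : Subgroup (LinearMap.GeneralLinearGroup k M)} {a b : Module.End k M}

lemma three_lt_card (h2 : (2 : k) ≠ 0) (h3 : Nat.card k ≠ 3) : 3 < ENat.card k := by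
  cases finite_or_infinite k
  · have := Fintype.ofFinite k
    rw [ENat.card_eq_coe_fintype_card]
    have h1 := Fintype.one_lt_card (α := k)
    have h2' : Fintype.card k ≠ 2 := fun h => h2 <| by
      have := FiniteField.cast_card_eq_zero k
      rw [h] at this
      exact_mod_cast this
    rw [Nat.card_eq_fintype_card] at h3
    exact_mod_cast (show 3 < Fintype.card k by omega)
  · rw [ENat.card_eq_top_of_infinite]
    exact ENat.coe_lt_top 3

lemma Ecl_ne_bot (ha : IsMin G a) : Ecl G a ≠ ⊥ := fun h => ha.ne <| by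
  have h1 := one_add_mem_Ecl ha.mem.1 (self_mem_cls ha)
  rw [h, Subgroup.mem_bot] at h1
  rw [← dl_one_add ha.mem.1, h1, dl_one]

lemma conjBy_mem_roots [FiniteDimensional k M] {A : Subgroup (LinearMap.GeneralLinearGroup k M)}
    (hA : A ∈ quadraticRootSubgroups G) {g : LinearMap.GeneralLinearGroup k M} (hg : g ∈ G) :
    conjBy A g ∈ quadraticRootSubgroups G := by
  obtain ⟨a, ha, rfl⟩ := mem_roots_iff.1 hA
  exact mem_roots_iff.2 ⟨_, isMin_conj ha hg, conjBy_Ecl hg⟩

variable [FiniteDimensional k M]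

/-- In a unipotent pair conjugates of one class by the other commute with it. -/
lemma conj_commute_of_nilpotent (h2 : (2 : k) ≠ 0) (h3 : Nat.card k ≠ 3) (ha : IsMin G a) (hb : IsMin G b)
    (hs : IsNilpotent (a * b + b * a)) {g h h' : LinearMap.GeneralLinearGroup k M} (hg : g ∈ Ecl G a)
    (hh : h ∈ Ecl G b) (hh' : h' ∈ Ecl G b) : g * h * g⁻¹ * h' = h' * (g * h * g⁻¹) := by
  have hx := (mem_Ecl ha.mem.1).1 hg
  have hy := (mem_Ecl hb.mem.1).1 hh
  have hy' := (mem_Ecl hb.mem.1).1 hh'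
  have hs' : IsNilpotent (b * a + a * b) := by rwa [add_comm]
  have t1 := triple_zero h2 h3 hb ha hs' hy hy' hx
  have t2 := triple_zero h2 h3 hb ha hs' hy' hy hx
  have z1 := cls_mul_eq_zero hb.mem.1 hy hy'
  have z2 := cls_mul_eq_zero hb.mem.1 hy' hy
  have hp := (pair_products h2 h3 ha hb hs hx hy).1
  refine commute_of_dl ?_
  rw [dl_conj, val_eq g, val_eq g⁻¹, dl_inv_of_sq hx.1.1,
    show (1 + dl g) * dl h * (1 + -dl g) = dl h + dl g * dl h - dl h * dl g - dl g * dl h * dl g by noncomm_ring,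
    hp, sub_zero, sub_mul, add_mul, z1, mul_assoc (dl g), z1, mul_zero, t1, mul_sub, mul_add, z2,
    ← mul_assoc (dl h'), ← mul_assoc (dl h'), z2, zero_mul, t2]

/-- Two classes form a rank one pair exactly when the pair is not unipotent. -/
theorem rankOne_iff (h2 : (2 : k) ≠ 0) (h3 : Nat.card k ≠ 3) (ha : IsMin G a) (hb : IsMin G b) :
    IsRankOnePair (Ecl G a) (Ecl G b) ↔ ¬ IsNilpotent (a * b + b * a) := by
  refine ⟨fun h hs => ?_, fun h => (special_rankOne h2 h3 ha hb h).1⟩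
  have h1 : one_add a ha.mem.1 ≠ 1 := fun e => ha.ne (by rw [← dl_one_add ha.mem.1, e, dl_one])
  have h1' : one_add b hb.mem.1 ≠ 1 := fun e => hb.ne (by rw [← dl_one_add hb.mem.1, e, dl_one])
  have ha1 := one_add_mem_Ecl ha.mem.1 (self_mem_cls ha)
  have hb1 := one_add_mem_Ecl hb.mem.1 (self_mem_cls hb)
  exact CfsgLib.RootGroups.not_conj_commute h ha1 h1 hb1 h1' hb1 h1'
    (conj_commute_of_nilpotent h2 h3 ha hb hs ha1 hb1 hb1)

/-- The three cases. -/
theorem pair_cases (h2 : (2 : k) ≠ 0) (h3 : Nat.card k ≠ 3) (hirr : IsIrreducibleFor G)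
    {S : Set (Subgroup (LinearMap.GeneralLinearGroup k M))} (ha : IsMin G a) (hb : IsMin G b)
    (hS : IsNilpotent (a * b + b * a) → a * b - b * a ≠ 0 → Ecl G (a * b - b * a) ∈ S) :
    ⁅Ecl G a, Ecl G b⁆ = ⊥ ∨ IsRankOnePair (Ecl G a) (Ecl G b) ∨ RootCommutatorCase S (Ecl G a) (Ecl G b) := by
  by_cases hs : IsNilpotent (a * b + b * a)
  · by_cases hz : a * b - b * a = 0
    · exact Or.inl (commutator_eq_bot h2 h3 ha hb hs hz)
    obtain ⟨h1, -, h4, h5, -, h7, -⟩ := unipotent_pair h2 h3 hirr ha hb hs hz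
    refine Or.inr (Or.inr ⟨h1 ▸ hS hs hz, fun c hc x hx => ?_, h4, h5⟩)
    have hle := Subgroup.commutator_eq_bot_iff_le_centralizer.1 h7
    exact (Subgroup.mem_centralizer_iff.1 (hle (Subgroup.commutator_mono le_sup_left le_sup_right hc)) x hx).symm
  · exact Or.inr (Or.inl ((rankOne_iff h2 h3 ha hb).2 hs))

theorem pair_cases_roots (h2 : (2 : k) ≠ 0) (h3 : Nat.card k ≠ 3) (hirr : IsIrreducibleFor G)
    (ha : IsMin G a) (hb : IsMin G b) :
    ⁅Ecl G a, Ecl G b⁆ = ⊥ ∨ IsRankOnePair (Ecl G a) (Ecl G b) ∨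
      RootCommutatorCase (quadraticRootSubgroups G) (Ecl G a) (Ecl G b) :=
  pair_cases h2 h3 hirr ha hb fun hs hz => mem_roots_iff.2
    ⟨_, (unipotent_pair h2 h3 hirr ha hb hs hz).2.1, rfl⟩

/-- A member of `Σ` has a rank one partner. -/
theorem exists_rankOne (h2 : (2 : k) ≠ 0) (h3 : Nat.card k ≠ 3) (hirr : IsIrreducibleFor G) (ha : IsMin G a) :
    ∃ b, IsMin G b ∧ IsRankOnePair (Ecl G a) (Ecl G b) := by
  obtain ⟨b, hb, hs⟩ := exists_partner hirr ha
  exact ⟨b, hb, (rankOne_iff h2 h3 ha hb).2 hs⟩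

/-- A rank one pair contains the unitriangular subgroups of a copy of `SL₂(k)`. -/
theorem psl2_pair (h2 : (2 : k) ≠ 0) (h3 : Nat.card k ≠ 3) (ha : IsMin G a) (hb : IsMin G b)
    (h : IsRankOnePair (Ecl G a) (Ecl G b)) :
    ∃ A₀ B₀ : Subgroup (LinearMap.GeneralLinearGroup k M), A₀ ≤ Ecl G a ∧ B₀ ≤ Ecl G b ∧
      ∃ (k₁ : Type u) (_ : Field k₁), 3 < ENat.card k₁ ∧ IsPSL2PairOver k₁ A₀ B₀ := by
  obtain ⟨R, _, _, _, ⟨P⟩⟩ := exists_sl2Pair h2 h3 ha hb
    (fun hu => (rankOne_iff h2 h3 ha hb).1 h ((unipotent_pair_iff ha.mem.1 hb.mem.1).1 hu))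
  have : Nontrivial R := P.isField.nontrivial
  set φ := P.toCorner.hom.comp (Matrix.SpecialLinearGroup.map (n := Fin 2) (algebraMap k R))
  have hU : ∀ g : SpecialLinearGroup (Fin 2) k, g.1 1 0 = 0 ∧ g.1 0 0 = 1 ∧ g.1 1 1 = 1 → g = uR (g.1 0 1) :=
    fun g hg => by apply sl2_ext <;> simp [hg]
  have hL : ∀ g : SpecialLinearGroup (Fin 2) k, g.1 0 1 = 0 ∧ g.1 0 0 = 1 ∧ g.1 1 1 = 1 → g = lR (g.1 1 0) :=
    fun g hg => by apply sl2_ext <;> simp [hg]
  have mu : ∀ t : k, Matrix.SpecialLinearGroup.map (algebraMap k R) (uR t) = uR (algebraMap k R t) := fun t => by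
    apply sl2_ext <;> simp [RingHom.mapMatrix_apply]
  have ml : ∀ t : k, Matrix.SpecialLinearGroup.map (algebraMap k R) (lR t) = lR (algebraMap k R t) := fun t => by
    apply sl2_ext <;> simp [RingHom.mapMatrix_apply]
  refine ⟨(upperUnipotentSL2 k).map φ, (lowerUnipotentSL2 k).map φ, ?_, ?_, k, inferInstance,
    three_lt_card h2 h3, φ, ?_, ?_, rfl, rfl⟩
  · rw [upperUnipotentSL2, MonoidHom.map_closure, Subgroup.closure_le]
    rintro _ ⟨g, hg, rfl⟩
    refine (mem_Ecl ha.mem.1).2 ?_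
    rw [hU g hg, MonoidHom.comp_apply, mu, P.dl_uR]
    exact P.psi_mem_cls h2 h3 ha.mem hb.mem _
  · rw [lowerUnipotentSL2, MonoidHom.map_closure, Subgroup.closure_le]
    rintro _ ⟨g, hg, rfl⟩
    refine (mem_Ecl hb.mem.1).2 ?_
    rw [hL g hg, MonoidHom.comp_apply, ml, P.dl_lR]
    exact P.symm.psi_mem_cls h2 h3 hb.mem ha.mem _
  · rw [MonoidHom.range_eq_map, ← Subgroup.map_sup]
    congr 1
    refine (eq_top_of_uR_lR ?_ ?_).symm
    · exact fun x => Subgroup.mem_sup_left (Subgroup.subset_closure (by simp))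
    · exact fun x => Subgroup.mem_sup_right (Subgroup.subset_closure (by simp))
  · have hinj : Function.Injective φ := fun x y hxy => by
      have h1 := P.toCorner.hom_injective hxy
      have key : ∀ i j, x.1 i j = y.1 i j := fun i j => (algebraMap k R).injective <| by
        simpa [RingHom.mapMatrix_apply] using congrArg (fun g : SpecialLinearGroup (Fin 2) R => g.1 i j) h1
      exact sl2_ext (key 0 0) (key 0 1) (key 1 0) (key 1 1)
    rw [(MonoidHom.ker_eq_bot_iff φ).2 hinj]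
    exact bot_le

end CfsgLib.QuadPair
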