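import Cfsg.Agent.QuadPair.GenField
import Mathlib

/-!
A normal subgroup of `SL₂(F)` containing the commutators of `u(1)` with all `l(x)` is everything.
-/

set_option autoImplicit false

open Matrix
open scoped commutatorElement

namespace CfsgLib.QuadPair

variable {F : Type*} [Field F]

/-- The diagonal element. -/
def diagEl (q : Fˣ) : SpecialLinearGroup (Fin 2) F :=
  ⟨!![(q : F), 0; 0, ((q⁻¹ : Fˣ) : F)], by rw [det_fin_two_of, mul_zero, sub_zero, Units.mul_inv]⟩

@[simp] lemma diagEl_coe (q : Fˣ) :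
    (diagEl q : Matrix (Fin 2) (Fin 2) F) = !![(q : F), 0; 0, ((q⁻¹ : Fˣ) : F)] := rfl

lemma diagEl_uR (q : Fˣ) (r : F) : diagEl q * uR r * (diagEl q)⁻¹ = uR ((q : F) ^ 2 * r) := by
  rw [mul_inv_eq_iff_eq_mul]
  apply sl2_ext <;> simp [Matrix.mul_apply, Fin.sum_univ_two] <;> field_simp

lemma weyl_uR (r : F) :
    (uR 1 * lR (-1) * uR 1) * uR r * (uR 1 * lR (-1) * uR 1)⁻¹ = lR (-r) := by
  rw [mul_inv_eq_iff_eq_mul]
  apply sl2_ext <;> simp [Matrix.mul_apply, Fin.sum_univ_two]

/-- A normal subgroup meeting the upper unitriangular group is everything. -/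
theorem sl2_eq_top_of_uR (h2 : (2 : F) ≠ 0) {N : Subgroup (SpecialLinearGroup (Fin 2) F)} (hN : N.Normal) {r : F}
    (hr : r ≠ 0) (h : uR r ∈ N) : N = ⊤ := by
  have hsq : ∀ q : F, uR (q ^ 2 * r) ∈ N := fun q => by
    rcases eq_or_ne q 0 with rfl | hq
    · rw [zero_pow (by norm_num), zero_mul, uR_zero]; exact one_mem _
    · simpa [diagEl_uR] using hN.conj_mem _ h (diagEl (Units.mk0 q hq))
  have hu : ∀ x, uR x ∈ N := fun x => by
    have e : x = ((x / r + 1) / 2) ^ 2 * r + -(((x / r - 1) / 2) ^ 2 * r) := by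
      have : (4 : F) ≠ 0 := by rw [show (4 : F) = 2 * 2 by norm_num]; exact mul_ne_zero h2 h2
      field_simp
      ring
    have hi : ∀ y : F, (uR y)⁻¹ = uR (-y) := fun y =>
      inv_eq_of_mul_eq_one_right (by rw [← uR_add, add_neg_cancel, uR_zero])
    rw [e, uR_add, ← hi]
    exact mul_mem (hsq _) (inv_mem (hsq _))
  refine eq_top_of_uR_lR hu fun x => ?_
  have := hN.conj_mem _ (hu (-x)) (uR 1 * lR (-1) * uR 1)
  rwa [weyl_uR, neg_neg] at this

/-- A normal subgroup containing every `⁅u(1), l(x)⁆` is everything. -/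
theorem sl2_eq_top_of_commutators (h2 : (2 : F) ≠ 0) {t : F} (ht : t ≠ 0) (ht1 : t ^ 2 ≠ 1)
    {N : Subgroup (SpecialLinearGroup (Fin 2) F)} (hN : N.Normal) (h : ∀ x : F, ⁅uR (1 : F), lR x⁆ ∈ N) :
    N = ⊤ := by
  have hc : ∀ g : SpecialLinearGroup (Fin 2) F, ⁅uR (1 : F), g⁆ ∈ N := by
    let C : Subgroup (SpecialLinearGroup (Fin 2) F) :=
      (Subgroup.centralizer {QuotientGroup.mk' N (uR (1 : F))}).comap (QuotientGroup.mk' N)
    have hC : C = ⊤ := eq_top_of_uR_lR
      (fun x => by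
        simp only [C, Subgroup.mem_comap, Subgroup.mem_centralizer_singleton_iff, ← map_mul, ← uR_add, add_comm])
      (fun x => by
        simp only [C, Subgroup.mem_comap, Subgroup.mem_centralizer_singleton_iff]
        refine (commutatorElement_eq_one_iff_mul_comm.1 ?_).symm
        rw [← map_commutatorElement]
        exact (QuotientGroup.eq_one_iff _).2 (h x))
    intro g
    have hg : g ∈ C := hC ▸ Subgroup.mem_top g
    simp only [C, Subgroup.mem_comap, Subgroup.mem_centralizer_singleton_iff] at hg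
    rw [← QuotientGroup.eq_one_iff]
    exact (map_commutatorElement (QuotientGroup.mk' N) _ _).trans (commutatorElement_eq_one_iff_mul_comm.2 hg.symm)
  refine sl2_eq_top_of_uR h2 hN (r := 1 - t ^ 2) (sub_ne_zero.2 (Ne.symm ht1)) ?_
  have := hc (diagEl (Units.mk0 t ht))
  rw [commutatorElement_def, mul_assoc, mul_assoc, ← mul_assoc (diagEl _)] at this
  have e : diagEl (Units.mk0 t ht) * (uR 1)⁻¹ * (diagEl (Units.mk0 t ht))⁻¹ = uR (-(t ^ 2)) := by
    rw [show (uR (1 : F))⁻¹ = uR (-1) from inv_eq_of_mul_eq_one_right (by rw [← uR_add, add_neg_cancel, uR_zero]),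
      diagEl_uR]
    simp
  rwa [e, ← uR_add, ← sub_eq_add_neg] at this

end CfsgLib.QuadPair
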