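import Cfsg.Agent.QuadPair.Kernel
import Cfsg.Agent.QuadPair.SL2Normal

/-!
Each component generates a quasisimple group.
-/

set_option autoImplicit false
universe u

open Cfsg Matrix
open scoped commutatorElement
open CfsgLib.RootGroups (mem_centralizingMembers_iff reach_symm)

namespace CfsgLib.QuadPair

variable {k : Type u} [Field k] {M : Type u} [AddCommGroup M] [Module k M] [FiniteDimensional k M]
variable {G A B D N : Subgroup (LinearMap.GeneralLinearGroup k M)}

/-- `N` is normalised by the group of the component of `A`. -/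
def NormalIn (G A N : Subgroup (LinearMap.GeneralLinearGroup k M)) : Prop :=
  ∀ g ∈ compGrp G A, ∀ x ∈ N, g * x * g⁻¹ ∈ N

/-- For a rank one pair, a normalised subgroup pulls back to a normal subgroup of `SL₂`. -/
lemma exists_pullback (h2 : (2 : k) ≠ 0) (h3 : Nat.card k ≠ 3) (hN : NormalIn G A N)
    {a b : Module.End k M} (ha : IsMin G a) (hb : IsMin G b) (hAa : Ecl G a ∈ part G A) (hAb : Ecl G b ∈ part G A)
    (hr : IsRankOnePair (Ecl G a) (Ecl G b)) :
    ∃ (R : Type u) (_ : Field R) (_ : Algebra k R) (_ : Module.Finite k R) (P : SL2Pair a b R),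
      (N.comap P.toCorner.hom).Normal := by
  obtain ⟨R, _, _, _, ⟨P⟩⟩ := exists_sl2Pair h2 h3 ha hb
    (fun hu => (rankOne_iff h2 h3 ha hb).1 hr ((unipotent_pair_iff ha.mem.1 hb.mem.1).1 hu))
  have hle : ∀ x, P.toCorner.hom x ∈ compGrp G A := fun x =>
    sup_le (le_compGrp hAa) (le_compGrp hAb) (pairGrp_le_sup ha hb (P.hom_mem_pairGrp h2 h3 x))
  let F : Field R := P.isField.toField
  refine ⟨R, F, ‹Algebra k R›, ‹Module.Finite k R›, P, ⟨fun x hx y => ?_⟩⟩
  rw [Subgroup.mem_comap, map_mul, map_mul, map_inv]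
  exact hN _ (hle y) _ hx

lemma two_ne_zero' (h2 : (2 : k) ≠ 0) (R : Type u) [Field R] [Algebra k R] : (2 : R) ≠ 0 := by
  rw [← map_ofNat (algebraMap k R) 2]
  exact (map_ne_zero _).2 h2

/-- A normalised subgroup containing a nonidentity member element contains every rank one partner. -/
lemma le_of_rankOne (h2 : (2 : k) ≠ 0) (h3 : Nat.card k ≠ 3) (hN : NormalIn G A N) (hB : B ∈ part G A)
    (hD : D ∈ part G A) (hr : IsRankOnePair B D) {e : LinearMap.GeneralLinearGroup k M} (he : e ∈ B) (he1 : e ≠ 1)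
    (heN : e ∈ N) : D ≤ N := by
  obtain ⟨b, hb, rfl⟩ := mem_roots_iff.1 hB.1
  obtain ⟨d, hd, rfl⟩ := mem_roots_iff.1 hD.1
  intro δ hδ
  by_cases hδ1 : δ = 1
  · rw [hδ1]; exact one_mem _
  have he' := (mem_Ecl hb.mem.1).1 he
  have he0 : dl e ≠ 0 := fun h => he1 (dl_eq_zero.1 h)
  have hδ' := (mem_Ecl hd.mem.1).1 hδ
  have hδ0 : dl δ ≠ 0 := fun h => hδ1 (dl_eq_zero.1 h)
  have m1 := (isMin_of_mem_cls hb he' he0).1
  have m2 := (isMin_of_mem_cls hd hδ' hδ0).1
  rw [← Ecl_eq_of_mem hb he' he0, ← Ecl_eq_of_mem hd hδ' hδ0] at hr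
  rw [← Ecl_eq_of_mem hb he' he0] at hB
  rw [← Ecl_eq_of_mem hd hδ' hδ0] at hD
  obtain ⟨R, _, _, _, P, hM⟩ := exists_pullback h2 h3 hN m1 m2 hB hD hr
  have htop := sl2_eq_top_of_uR (two_ne_zero' h2 R) hM (r := 1) one_ne_zero (by
    have : P.toCorner.hom (uR 1) = e := dl_injective (by rw [P.dl_uR, P.map_one, P.e_a])
    rw [Subgroup.mem_comap, this]; exact heN)
  have hδe : P.toCorner.hom (lR P.sR) = δ := dl_injective (by
    rw [P.dl_lR, mul_comm, P.toCorner.v_mul, P.map_one, P.e_b])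
  rw [← hδe, ← Subgroup.mem_comap, htop]
  exact Subgroup.mem_top _

/-- A normalised subgroup containing a nonidentity member element contains the component. -/
theorem compGrp_le_of_mem (h2 : (2 : k) ≠ 0) (h3 : Nat.card k ≠ 3) (hirr : IsIrreducibleFor G)
    (hN : NormalIn G A N) (hB : B ∈ part G A) {e : LinearMap.GeneralLinearGroup k M} (he : e ∈ B) (he1 : e ≠ 1)
    (heN : e ∈ N) : compGrp G A ≤ N := by
  have hBN : B ≤ N := by
    obtain ⟨b, hb, rfl⟩ := mem_roots_iff.1 hB.1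
    obtain ⟨d, hd, hr⟩ := exists_rankOne h2 h3 hirr hb
    have hD := mem_part_of_adj hB (mem_roots_iff.2 ⟨d, hd, rfl⟩) hr
    have hDN := le_of_rankOne h2 h3 hN hB hD hr he he1 heN
    obtain ⟨δ, hδ, hδ1⟩ := CfsgLib.RankOne.nonidentity_left (RankOnePair_symm hr)
    exact le_of_rankOne h2 h3 hN hD hB (RankOnePair_symm hr) hδ hδ1 (hDN hδ)
  refine iSup₂_le fun C hC => ?_
  have hr := (reach_symm hB.2).trans hC.2
  clear hC
  suffices C ∈ part G A ∧ C ≤ N from this.2
  induction hr with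
  | refl => exact ⟨hB, hBN⟩
  | @tail X Y _ hXY ih =>
    have hY := mem_part_of_adj ih.1 hXY.2.1 hXY.2.2
    obtain ⟨x, hx, hx1⟩ := CfsgLib.RankOne.nonidentity_left hXY.2.2
    exact ⟨hY, le_of_rankOne h2 h3 hN ih.1 hY hXY.2.2 hx hx1 (ih.2 hx)⟩

/-- Commutators of a nonidentity element with a whole non-commuting member give a member element. -/
lemma exists_mem_of_commutators (h2 : (2 : k) ≠ 0) (h3 : Nat.card k ≠ 3) (hirr : IsIrreducibleFor G)
    (hA : A ∈ quadraticRootSubgroups G) (hN : NormalIn G A N) (hB : B ∈ part G A) (hD : D ∈ quadraticRootSubgroups G)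
    (hne : ⁅B, D⁆ ≠ ⊥) {β : LinearMap.GeneralLinearGroup k M} (hβ : β ∈ B) (hβ1 : β ≠ 1)
    (h : ∀ δ ∈ D, ⁅β, δ⁆ ∈ N) :
    ∃ E ∈ part G A, ∃ e ∈ E, e ≠ 1 ∧ e ∈ N := by
  have hDp : D ∈ part G A := by
    by_contra hn
    rw [← part_eq hA hB] at hn
    exact hne (commutator_eq_bot_of_not_mem h2 h3 hirr hB.1 hD hn)
  obtain ⟨b, hb, rfl⟩ := mem_roots_iff.1 hB.1
  obtain ⟨d, hd, rfl⟩ := mem_roots_iff.1 hD
  have hβ' := (mem_Ecl hb.mem.1).1 hβ
  have hβ0 : dl β ≠ 0 := fun h => hβ1 (dl_eq_zero.1 h)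
  have m1 := (isMin_of_mem_cls hb hβ' hβ0).1
  rw [← Ecl_eq_of_mem hb hβ' hβ0] at hB hne
  have hd1 := one_add_mem_Ecl hd.mem.1 (self_mem_cls hd)
  rcases pair_cases_roots h2 h3 hirr m1 hd with hc | hr | hcase
  · exact absurd hc hne
  · obtain ⟨R, _, _, _, P, hM⟩ := exists_pullback h2 h3 hN m1 hd hB hDp hr
    have hβe : P.toCorner.hom (uR 1) = β := dl_injective (by rw [P.dl_uR, P.map_one, P.e_a])
    obtain ⟨t, ht, ht1⟩ := exists_sq_ne h2 h3
    have htop := sl2_eq_top_of_commutators (two_ne_zero' h2 R) (t := algebraMap k R t) ((map_ne_zero _).2 ht)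
      (by rw [← map_pow]; exact fun e => ht1 ((algebraMap k R).injective (e.trans (map_one _).symm))) hM
      fun x => by
        rw [Subgroup.mem_comap, map_commutatorElement, hβe]
        exact h _ ((mem_Ecl hd.mem.1).2 (by rw [P.dl_lR]; exact P.symm.psi_mem_cls h2 h3 hd.mem m1.mem _))
    refine ⟨_, hB, β, (mem_Ecl m1.mem.1).2 (self_mem_cls m1), hβ1, ?_⟩
    rw [← hβe, ← Subgroup.mem_comap, htop]
    exact Subgroup.mem_top _
  · have hs : IsNilpotent (dl β * d + d * dl β) := by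
      by_contra hs
      have hb1 := one_add_mem_Ecl m1.mem.1 (self_mem_cls m1)
      have hn1 : ∀ {x : Module.End k M} (hx : IsMin G x), one_add x hx.mem.1 ≠ 1 := fun {x} hx e =>
        hx.ne (by rw [← dl_one_add hx.mem.1, e, dl_one])
      refine CfsgLib.RootGroups.not_conj_commute ((rankOne_iff h2 h3 m1 hd).2 hs) hb1 (hn1 m1) hd1 (hn1 hd) hd1
        (hn1 hd) ?_
      have hc := hcase.2.1 _ (Subgroup.commutator_mem_commutator hb1 hd1) _ (Subgroup.mem_sup_right hd1)
      rw [commutatorElement_def] at hc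
      simpa using (Commute.mul_left hc (Commute.refl (one_add d hd.mem.1))).eq
    have hz : dl β * d - d * dl β ≠ 0 := fun hz => hne (commutator_eq_bot h2 h3 m1 hd hs hz)
    have hE := bracket_mem_part h2 h3 hirr m1 hd hs hz
    obtain ⟨p1, p2⟩ := pair_products h2 h3 m1 hd hs (self_mem_cls m1) (self_mem_cls hd)
    refine ⟨_, mem_part_of_part hB hE, _, ?_, ?_, h _ hd1⟩
    · rw [← (unipotent_pair h2 h3 hirr m1 hd hs hz).1]
      exact Subgroup.commutator_mem_commutator ((mem_Ecl m1.mem.1).2 (self_mem_cls m1)) hd1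
    · intro e
      refine hz ?_
      have := dl_commutator (g := β) (h := one_add d hd.mem.1) m1.mem.1 hd.mem.1 p1 p2 (one_smul k (dl β)).symm
        ((dl_one_add hd.mem.1).trans (one_smul k d).symm)
      rw [← commutatorElement_def, e, dl_one, mul_one, one_smul] at this
      exact this.symm

/-- A normalised subgroup of the component group is central or everything. -/
theorem normal_dichotomy (h2 : (2 : k) ≠ 0) (h3 : Nat.card k ≠ 3) (hirr : IsIrreducibleFor G)
    (hA : A ∈ quadraticRootSubgroups G) (hN : NormalIn G A N) (hle : N ≤ compGrp G A) :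
    N ≤ Subgroup.centralizer (compGrp G A : Set (LinearMap.GeneralLinearGroup k M)) ∨ compGrp G A ≤ N := by
  by_cases hroot : ∃ E ∈ part G A, ∃ e ∈ E, e ≠ 1 ∧ e ∈ N
  · obtain ⟨E, hE, e, he, he1, heN⟩ := hroot
    exact Or.inr (compGrp_le_of_mem h2 h3 hirr hN hE he he1 heN)
  refine Or.inl fun n hn => ?_
  suffices hK : n ∈ classKer G by
    refine Subgroup.mem_centralizer_iff.2 fun x hx => ?_
    have hle' : compGrp G A ≤ Subgroup.centralizer {n} := iSup₂_le fun B hB α hα => by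
      rw [Subgroup.mem_centralizer_singleton_iff]
      exact Subgroup.mem_centralizer_iff.1 (classKer_le_centralizer h2 h3 hirr hB.1 hK) α hα
    exact Subgroup.mem_centralizer_singleton_iff.1 (hle' hx)
  refine ⟨compGrp_le A (hle hn), fun B hB => ?_⟩
  by_cases hBp : B ∈ part G A
  swap
  · have hcent : compGrp G A ≤ Subgroup.centralizer (B : Set (LinearMap.GeneralLinearGroup k M)) :=
      iSup₂_le fun C hC => Subgroup.commutator_eq_bot_iff_le_centralizer.1
        (commutator_eq_bot_of_not_mem h2 h3 hirr hC.1 hB (by rwa [part_eq hA hC]))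
    rw [CfsgLib.RankOne.conjBy_eq_self_iff.2 (Subgroup.centralizer_le_normalizer _ (hcent (hle hn)))]
  by_contra hne
  apply hroot
  set B' := conjBy B n with hB'
  have hB'p : B' ∈ part G A := conjBy_mem_part hA (hle hn) B hBp
  obtain ⟨α, hα, hα1⟩ : ∃ α ∈ B, α ≠ 1 := by
    obtain ⟨b, hb, rfl⟩ := mem_roots_iff.1 hB
    exact ⟨_, one_add_mem_Ecl hb.mem.1 (self_mem_cls hb), fun e => hb.ne (by rw [← dl_one_add hb.mem.1, e, dl_one])⟩
  set α' := n * α * n⁻¹ with hα'
  have hα'B : α' ∈ B' := CfsgLib.RankOne.conj_mem_conjBy hα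
  have hα'1 : α' ≠ 1 := CfsgLib.RootGroups.conj_ne_one hα1
  have hx : α' * α⁻¹ ∈ N := by
    rw [hα', show n * α * n⁻¹ * α⁻¹ = n * (α * n⁻¹ * α⁻¹) by simp only [mul_assoc]]
    exact mul_mem hn (hN α (le_compGrp hBp hα) _ (inv_mem hn))
  have hxc : ∀ y ∈ G, ∀ x ∈ N, (y ∈ compGrp G A ∨ ⁅x, y⁆ = 1) → ⁅x, y⁆ ∈ N := by
    intro y _ x hxN hy
    rcases hy with hy | hy
    · rw [commutatorElement_def, mul_assoc, mul_assoc]
      exact mul_mem hxN (by rw [← mul_assoc]; exact hN y hy _ (inv_mem hxN))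
    · rw [hy]; exact one_mem _
  have hroots : ∀ {C}, C ∈ quadraticRootSubgroups G → C ≤ G := fun hC => by
    obtain ⟨c, hc, rfl⟩ := mem_roots_iff.1 hC
    exact Ecl_le hc.mem.1
  by_cases hcomm : ⁅B', B⁆ = ⊥
  swap
  · refine exists_mem_of_commutators h2 h3 hirr hA hN hB'p hB hcomm hα'B hα'1 fun y hy => ?_
    have h := hxc y (hroots hB hy) _ hx (Or.inl (le_compGrp hBp hy))
    have hαy : α⁻¹ * y = y * α⁻¹ := CfsgLib.RootGroups.commutator_eq_bot_iff.1
      ((mem_centralizingMembers_iff.1 (self_mem_Cm hB)).2) _ (inv_mem hα) _ hy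
    rwa [commutatorElement_def, _root_.mul_inv_rev, inv_inv, mul_assoc α' α⁻¹ y, hαy,
      show α' * (y * α⁻¹) * (α * α'⁻¹) * y⁻¹ = α' * y * α'⁻¹ * y⁻¹ by group, ← commutatorElement_def] at h
  -- a member separating the two commuting sets
  obtain ⟨D, hD⟩ : ∃ D, ¬ (D ∈ Cm G B' ↔ D ∈ Cm G B) := by
    by_contra hall
    push Not at hall
    exact hne (Set.ext hall)
  by_cases hDB : D ∈ Cm G B
  · obtain ⟨hDS, hDc⟩ := mem_centralizingMembers_iff.1 hDB
    have hDB' : ⁅B', D⁆ ≠ ⊥ := fun e => hD ⟨fun _ => hDB, fun _ => mem_centralizingMembers_iff.2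
      ⟨hDS, by rwa [Subgroup.commutator_comm]⟩⟩
    refine exists_mem_of_commutators h2 h3 hirr hA hN hB'p hDS hDB' hα'B hα'1 fun y hy => ?_
    have hDp : D ∈ part G A := by
      by_contra hn'
      rw [← part_eq hA hB'p] at hn'
      exact hDB' (commutator_eq_bot_of_not_mem h2 h3 hirr hB'p.1 hDS hn')
    have h := hxc y (hroots hDS hy) _ hx (Or.inl (le_compGrp hDp hy))
    have hαy : α⁻¹ * y = y * α⁻¹ := (CfsgLib.RootGroups.commutator_eq_bot_iff.1 hDc _ hy _ (inv_mem hα)).symm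
    rwa [commutatorElement_def, _root_.mul_inv_rev, inv_inv, mul_assoc α' α⁻¹ y, hαy,
      show α' * (y * α⁻¹) * (α * α'⁻¹) * y⁻¹ = α' * y * α'⁻¹ * y⁻¹ by group, ← commutatorElement_def] at h
  · have hDB' : D ∈ Cm G B' := by
      by_contra h
      exact hD ⟨fun h' => absurd h' h, fun h' => absurd h' hDB⟩
    obtain ⟨hDS, hDc⟩ := mem_centralizingMembers_iff.1 hDB'
    have hBD : ⁅B, D⁆ ≠ ⊥ := fun e => hDB (mem_centralizingMembers_iff.2 ⟨hDS, by rwa [Subgroup.commutator_comm]⟩)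
    refine exists_mem_of_commutators h2 h3 hirr hA hN hBp hDS hBD (inv_mem hα) (inv_ne_one.2 hα1) fun y hy => ?_
    have hDp : D ∈ part G A := by
      by_contra hn'
      rw [← part_eq hA hBp] at hn'
      exact hBD (commutator_eq_bot_of_not_mem h2 h3 hirr hB hDS hn')
    have hx' : α⁻¹ * α' ∈ N := by
      have := hN α⁻¹ (inv_mem (le_compGrp hBp hα)) _ hx
      rwa [show α⁻¹ * (α' * α⁻¹) * α⁻¹⁻¹ = α⁻¹ * α' by group] at this
    have h := hxc y (hroots hDS hy) _ hx' (Or.inl (le_compGrp hDp hy))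
    have hαy : α' * y = y * α' := (CfsgLib.RootGroups.commutator_eq_bot_iff.1 hDc _ hy _ hα'B).symm
    rwa [commutatorElement_def, _root_.mul_inv_rev, inv_inv, mul_assoc α⁻¹ α' y, hαy,
      show α⁻¹ * (y * α') * (α'⁻¹ * α) * y⁻¹ = α⁻¹ * y * α⁻¹⁻¹ * y⁻¹ by group, ← commutatorElement_def] at h

/-- The component groups are quasisimple. -/
theorem isQuasisimple_compGrp (h2 : (2 : k) ≠ 0) (h3 : Nat.card k ≠ 3) (hirr : IsIrreducibleFor G)
    (hA : A ∈ quadraticRootSubgroups G) : IsQuasisimple (compGrp G A) := by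
  set H := compGrp G A with hH
  have hHH : ⁅H, H⁆ = H := le_antisymm (Subgroup.commutator_le_self H) (le_commutator h2 h3 hirr hA)
  have hperf : commutator H = ⊤ := Subgroup.map_injective H.subtype_injective <| by
    rw [Subgroup.map_subtype_commutator, hHH, ← MonoidHom.range_eq_map, H.range_subtype]
  have hcenter : Subgroup.center H ≠ ⊤ := fun h => by
    have h1 : commutator H = ⊥ := by
      rw [commutator_def, Subgroup.commutator_eq_bot_iff_le_centralizer, Subgroup.coe_top,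
        Subgroup.centralizer_univ]
      exact h.ge
    rw [hperf] at h1
    have hbot : H ≤ ⊥ := fun x hx => Subgroup.mem_bot.2
      (by
        have hm : (⟨x, hx⟩ : H) ∈ (⊥ : Subgroup H) := h1 ▸ Subgroup.mem_top _
        exact congrArg Subtype.val (Subgroup.mem_bot.1 hm))
    obtain ⟨a, ha, rfl⟩ := mem_roots_iff.1 hA
    exact Ecl_ne_bot ha (le_bot_iff.1 ((le_compGrp (self_mem_part hA)).trans hbot))
  have : Nontrivial (H ⧸ Subgroup.center H) := by
    rw [QuotientGroup.nontrivial_iff]; exact hcenter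
  refine ⟨Group.isPerfect_def.2 hperf, ⟨fun Q hQ => ?_⟩⟩
  set N' := Q.comap (QuotientGroup.mk' (Subgroup.center H)) with hN'
  have hN'n : N'.Normal := hQ.comap _
  have hQmap : N'.map (QuotientGroup.mk' (Subgroup.center H)) = Q :=
    Subgroup.map_comap_eq_self_of_surjective (QuotientGroup.mk'_surjective _) Q
  have hN : NormalIn G A (N'.map H.subtype) := by
    rintro g hg _ ⟨x, hx, rfl⟩
    exact ⟨⟨g, hg⟩ * x * ⟨g, hg⟩⁻¹, hN'n.conj_mem x hx _, rfl⟩
  rcases normal_dichotomy h2 h3 hirr hA hN (Subgroup.map_subtype_le _) with h | h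
  · left
    rw [← hQmap, Subgroup.map_eq_bot_iff, QuotientGroup.ker_mk']
    intro x hx
    rw [Subgroup.mem_center_iff]
    exact fun y => Subtype.ext (Subgroup.mem_centralizer_iff.1 (h ⟨x, hx, rfl⟩) y y.2)
  · right
    have htop : N' = ⊤ := (Subgroup.eq_top_iff' N').2 fun x => by
      obtain ⟨y, hy, e⟩ := h x.2
      exact H.subtype_injective e ▸ hy
    rw [← hQmap, htop, Subgroup.map_top_of_surjective _ (QuotientGroup.mk'_surjective _)]

end CfsgLib.QuadPair
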