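import Cfsg.Agent.QuadPair.Simple
import Cfsg.Agent.IsoInv.Basic

/-!
A quadratic pair is a central product of quasisimple groups, each quadratic element lying in one of them.
-/

set_option autoImplicit false
universe u

open Cfsg
open scoped commutatorElement

namespace CfsgLib.QuadPair

variable {k : Type u} [Field k]

/-- A finite family of quasisimple normal subgroups, generated by their quadratic elements, covering all of them. -/
def HasSplit {M : Type u} [AddCommGroup M] [Module k M] (G : Subgroup (LinearMap.GeneralLinearGroup k M)) : Prop :=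
  ∃ S : Set (Subgroup (LinearMap.GeneralLinearGroup k M)), S.Finite ∧
    (∀ H ∈ S, H ≤ G ∧ ∀ g ∈ G, conjBy H g = H) ∧ (∀ H ∈ S, ∀ K ∈ S, H ≠ K → ⁅H, K⁆ = ⊥) ∧
    (⨆ H ∈ S, H) = G ∧
    (∀ H ∈ S, IsQuasisimple H ∧
      Subgroup.closure (quadraticElements G ∩ (H : Set (LinearMap.GeneralLinearGroup k M))) = H) ∧
    ∀ σ ∈ quadraticElements G, ∃ H ∈ S, σ ∈ H

section
variable {M : Type u} [AddCommGroup M] [Module k M] [FiniteDimensional k M]
variable {G A N : Subgroup (LinearMap.GeneralLinearGroup k M)} {b : Module.End k M}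

lemma conjBy_eq_of_forall {H : Subgroup (LinearMap.GeneralLinearGroup k M)}
    (h : ∀ g ∈ G, ∀ x ∈ H, g * x * g⁻¹ ∈ H) {g : LinearMap.GeneralLinearGroup k M} (hg : g ∈ G) :
    conjBy H g = H := by
  refine le_antisymm (fun _ ⟨x, hx, e⟩ => e ▸ h g hg x hx) fun x hx => ⟨g⁻¹ * x * g, ?_, by simp [mul_assoc]⟩
  simpa using h g⁻¹ (inv_mem hg) x hx

/-- `G` normalises each component group. -/
theorem normalises_compGrp (h2 : (2 : k) ≠ 0) (h3 : Nat.card k ≠ 3) (hG : IsQuadraticPair G)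
    (hA : A ∈ quadraticRootSubgroups G) :
    ∀ g ∈ G, ∀ x ∈ compGrp G A, g * x * g⁻¹ ∈ compGrp G A := by
  have hle : G ≤ Subgroup.normalizer (compGrp G A : Set (LinearMap.GeneralLinearGroup k M)) := by
    refine hG.2.ge.trans ((Subgroup.closure_le _).2 ?_)
    intro σ hσ
    obtain ⟨hσ', -⟩ := mem_quadratic_iff.1 hσ
    have := one_add_mem h2 h3 hG.1 hσ'
    rw [dl_injective (dl_one_add hσ'.1) ] at this
    refine (sup_le (iSup₂_le fun B hB => ?_) (inf_le_right.trans ?_) :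
      (⨆ B ∈ quadraticRootSubgroups G, B) ⊔ (G ⊓ Subgroup.centralizer
        ((⨆ B ∈ quadraticRootSubgroups G, B : Subgroup (LinearMap.GeneralLinearGroup k M)) :
          Set (LinearMap.GeneralLinearGroup k M))) ≤ _) this
    · by_cases hBp : B ∈ part G A
      · exact (le_compGrp hBp).trans Subgroup.le_normalizer
      · refine le_trans ?_ (Subgroup.centralizer_le_normalizer _)
        rw [Subgroup.le_centralizer_iff]
        exact iSup₂_le fun C hC => Subgroup.commutator_eq_bot_iff_le_centralizer.1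
          (commutator_eq_bot_of_not_mem h2 h3 hG.1 hC.1 hB (by rwa [part_eq hA hC]))
    · refine (Subgroup.centralizer_le ?_).trans (Subgroup.centralizer_le_normalizer _)
      exact SetLike.coe_subset_coe.2 (biSup_mono fun C hC => hC.1)
  exact fun g hg x hx => (Subgroup.mem_normalizer_iff.1 (hle hg) x).1 hx

/-- A nontrivial subgroup normalised by an irreducible group fixes no nonzero vector. -/
lemma fixed_trivial (hirr : IsIrreducibleFor G) (hne : N ≠ ⊥) (hnorm : ∀ g ∈ G, ∀ h ∈ N, g⁻¹ * h * g ∈ N) {v : M}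
    (hv : ∀ h ∈ N, dl h v = 0) : v = 0 := by
  set U : Submodule k M := ⨅ h ∈ N, LinearMap.ker (dl h) with hU
  have hmemU : ∀ w, w ∈ U ↔ ∀ h ∈ N, dl h w = 0 := fun w => by simp [hU, Submodule.mem_iInf]
  have hinv : ∀ g ∈ G, ∀ w ∈ U, (g : M →ₗ[k] M) w ∈ U := fun g hg w hw => by
    rw [hmemU] at hw ⊢
    intro h hh
    have e : dl h * (g : Module.End k M) = (g : Module.End k M) * dl (g⁻¹ * h * g) := by
      rw [dl, dl, Units.val_mul, Units.val_mul, mul_sub, mul_one, ← mul_assoc, ← mul_assoc, Units.mul_inv, one_mul]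
      noncomm_ring
    show (dl h * (g : Module.End k M)) w = 0
    rw [e, Module.End.mul_apply, hw _ (hnorm g hg h hh), map_zero]
  rcases hirr.2 U hinv with h | h
  · have hvU := (hmemU v).2 hv
    rwa [h, Submodule.mem_bot] at hvU
  · exact absurd ((Subgroup.eq_bot_iff_forall N).2 fun x hx =>
      dl_eq_zero.1 (LinearMap.ext fun w => (hmemU w).1 (h ▸ Submodule.mem_top) x hx)) hne

/-- A member of `gset` lies in a component group or commutes with all minimal elements. -/
theorem gset_dichotomy (h2 : (2 : k) ≠ 0) (h3 : Nat.card k ≠ 3) (hG : IsQuadraticPair G) (hb : b ∈ gset G) :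
    (∃ A ∈ quadraticRootSubgroups G, one_add b hb.1 ∈ compGrp G A) ∨ ∀ a, IsMin G a → a * b = b * a := by
  suffices ∀ n, ∀ (b : Module.End k M) (hb : b ∈ gset G), rk b = n →
      (∃ A ∈ quadraticRootSubgroups G, one_add b hb.1 ∈ compGrp G A) ∨ ∀ a, IsMin G a → a * b = b * a
    from this _ b hb rfl
  intro n
  induction n using Nat.strong_induction_on with
  | _ n ih =>
  intro b hb hn
  by_cases hall : ∀ a, IsMin G a → IsNilpotent (a * b + b * a)
  · exact Or.inr fun a ha => comm_of_all_nilpotent h2 hG.1 hb hall ha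
  push Not at hall
  obtain ⟨a, ha, hs⟩ := hall
  obtain ⟨b1, b0, hb1, hb0, hsum, h10, hrk⟩ := split_off h2 h3 hb ha hs
  have hS : Ecl G b1 ∈ quadraticRootSubgroups G := mem_roots_iff.2 ⟨b1, hb1, rfl⟩
  have hmem1 : one_add b1 hb1.mem.1 ∈ compGrp G (Ecl G b1) :=
    le_compGrp (self_mem_part hS) (one_add_mem_Ecl hb1.mem.1 (self_mem_cls hb1))
  have he : one_add b hb.1 = one_add b1 hb1.mem.1 * one_add b0 hb0.1 := by
    refine dl_injective ?_
    rw [dl_mul, dl_one_add, dl_one_add, dl_one_add, h10, add_zero, hsum]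
  refine Or.inl ⟨_, hS, ?_⟩
  rw [he]
  refine mul_mem hmem1 ?_
  by_cases hsame : one_add b0 hb0.1 ∈ compGrp G (Ecl G b1)
  · exact hsame
  exfalso
  have hcomm : ∀ g ∈ compGrp G (Ecl G b1), g * one_add b0 hb0.1 = one_add b0 hb0.1 * g := by
    rcases ih _ (hn ▸ hrk) b0 hb0 rfl with ⟨A, hA, hm⟩ | hc
    · have hne : part G (Ecl G b1) ≠ part G A := fun e => hsame (by rw [compGrp, e]; exact hm)
      have hbot := Subgroup.commutator_eq_bot_iff_le_centralizer.1 (compGrp_commute h2 h3 hG.1 hS hA hne)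
      exact fun g hg => (Subgroup.mem_centralizer_iff.1 (hbot hg) _ hm).symm
    · have hcent := mem_centralizer_roots (G := G) (g := one_add b0 hb0.1)
        fun a ha => by rw [dl_one_add]; exact (hc a ha).symm
      exact fun g hg => Subgroup.mem_centralizer_iff.1 hcent g
        ((biSup_mono fun C hC => hC.1 : compGrp G (Ecl G b1) ≤ ⨆ C ∈ quadraticRootSubgroups G, C) hg)
  -- every member of the component annihilates `b0`
  have hkill : ∀ B ∈ part G (Ecl G b1), B ≤ Subgroup.centralizer {one_add b0 hb0.1} ∧ ∀ β ∈ B, dl β * b0 = 0 := by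
    intro B hB
    refine ⟨fun g hg => Subgroup.mem_centralizer_singleton_iff.2 (hcomm g (le_compGrp hB hg)), fun β hβ => ?_⟩
    obtain ⟨g, hg, rfl⟩ := part_conjugate hS hB
    obtain ⟨α, hα, rfl⟩ := hβ
    show dl (g * α * g⁻¹) * b0 = 0
    have e : b0 * (g : Module.End k M) = (g : Module.End k M) * b0 := by
      have h := congrArg Units.val (hcomm g hg)
      rw [Units.val_mul, Units.val_mul, val_eq (one_add b0 hb0.1), dl_one_add, mul_add, add_mul, mul_one, one_mul] at h
      exact (add_left_cancel h).symm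
    have hαb : dl α * b0 = 0 :=
      mul_eq_zero_iff_le.2 ((mul_eq_zero_iff_le.1 h10).trans ((mem_Ecl hb1.mem.1).1 hα).2.2)
    have e' : ((g⁻¹ : LinearMap.GeneralLinearGroup k M) : Module.End k M) * b0 =
        b0 * ((g⁻¹ : LinearMap.GeneralLinearGroup k M) : Module.End k M) :=
      ((show Commute b0 (g : Module.End k M) from e).units_inv_right).eq.symm
    rw [dl_conj, mul_assoc _ _ b0, e', ← mul_assoc, mul_assoc (g : Module.End k M), hαb, mul_zero, zero_mul]
  have hzero : ∀ h ∈ compGrp G (Ecl G b1), dl h * b0 = 0 := by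
    intro h hh
    rw [compGrp, iSup_subtype'] at hh
    induction hh using Subgroup.iSup_induction' with
    | hp B x hx => exact (hkill B B.2).2 x hx
    | h1 => rw [dl_one, zero_mul]
    | hmul x y _ _ hx hy => rw [dl_mul, add_mul, add_mul, hx, hy, mul_assoc, hy, mul_zero, add_zero, add_zero]
  have hnorm := normalises_compGrp h2 h3 hG hS
  have hb00 : b0 = 0 := LinearMap.ext fun m => by
    refine fixed_trivial hG.1 (N := compGrp G (Ecl G b1)) ?_ (fun g hg h hh => by
      simpa using hnorm g⁻¹ (inv_mem hg) h hh) fun h hh => LinearMap.congr_fun (hzero h hh) m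
    exact fun e => Ecl_ne_bot hb1 (le_bot_iff.1 (e ▸ le_compGrp (self_mem_part hS)))
  exact hsame ((dl_eq_zero.1 (by rw [dl_one_add, hb00]) : one_add b0 hb0.1 = 1) ▸ one_mem _)

lemma gset_mem_of_mem {σ : LinearMap.GeneralLinearGroup k M} (hσ : σ ∈ quadraticElements G) :
    ∀ τ ∈ scalarFamily σ, τ = 1 ∨ τ ∈ quadraticElements G := by
  intro τ hτ
  obtain ⟨hg, h0⟩ := mem_quadratic_iff.1 hσ
  rw [scalarFamily_eq] at hτ
  obtain ⟨c, hc⟩ := hτ
  by_cases hc0 : c = 0
  · exact Or.inl (dl_eq_zero.1 (by rw [hc, hc0, zero_smul]))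
  · exact Or.inr (mem_quadratic_iff.2 ⟨hc ▸ gset_smul hg c, by rw [hc]; exact smul_ne_zero hc0 h0⟩)

end

set_option maxHeartbeats 1000000 in
/-- The splitting. -/
theorem hasSplit (h2 : (2 : k) ≠ 0) (h3 : Nat.card k ≠ 3) {M : Type u} [AddCommGroup M] [Module k M]
    [FiniteDimensional k M] {G : Subgroup (LinearMap.GeneralLinearGroup k M)} (hG : IsQuadraticPair G) :
    HasSplit G := by
  suffices ∀ (n : ℕ) (M : Type u) [AddCommGroup M] [Module k M] [FiniteDimensional k M]
      (G : Subgroup (LinearMap.GeneralLinearGroup k M)), Module.finrank k M = n → IsQuadraticPair G → HasSplit G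
    from this _ M G rfl hG
  intro n
  induction n using Nat.strong_induction_on with
  | _ n ih =>
  intro M _ _ _ G hn hG
  classical
  by_cases hempty : quadraticElements G = ∅
  · refine ⟨∅, Set.finite_empty, by simp, by simp, ?_, by simp, by simp [hempty]⟩
    rw [← hG.2, hempty]; simp
  obtain ⟨a, ha⟩ : ∃ a, IsMin G a := by
    have hne : ∃ r, ∃ a, a ∈ gset G ∧ a ≠ 0 ∧ rk a = r := by
      obtain ⟨σ, hσ⟩ := Set.nonempty_iff_ne_empty.2 hempty
      obtain ⟨h1, h1'⟩ := mem_quadratic_iff.1 hσ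
      exact ⟨_, _, h1, h1', rfl⟩
    obtain ⟨a, h1, h1', hr⟩ := Nat.find_spec hne
    exact ⟨a, h1, h1', fun b hb hb0 => hr ▸ Nat.find_min' hne ⟨b, hb, hb0, rfl⟩⟩
  set Q := {σ | σ ∈ quadraticElements G ∧ ∀ c, IsMin G c → c * dl σ = dl σ * c} with hQ
  set G' := Subgroup.closure Q with hG'
  have hG'le : G' ≤ G := (Subgroup.closure_le _).2 fun σ hσ => hσ.1.1
  have hQcomm : ∀ g ∈ G', ∀ c, IsMin G c → c * dl g = dl g * c := by
    intro g hg
    induction hg using Subgroup.closure_induction with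
    | mem x hx => exact hx.2
    | one => intro c _; rw [dl_one, mul_zero, zero_mul]
    | mul x y _ _ hx hy =>
      intro c hc
      have e1 : Commute c (dl x) := hx c hc
      have e2 : Commute c (dl y) := hy c hc
      rw [dl_mul]
      exact ((e1.add_right e2).add_right (e1.mul_right e2)).eq
    | inv x _ hx =>
      intro c hc
      have e1 : Commute c (x : Module.End k M) := by
        rw [val_eq]; exact (Commute.one_right c).add_right (hx c hc)
      exact ((e1.units_inv_right).sub_right (Commute.one_right c)).eq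
  have hQconj : ∀ g ∈ G, ∀ σ ∈ Q, g * σ * g⁻¹ ∈ Q := by
    intro g hg σ hσ
    obtain ⟨h1, h1'⟩ := mem_quadratic_iff.1 hσ.1
    refine ⟨mem_quadratic_iff.2 ⟨by rw [← cj_dl]; exact gset_conj h1 hg,
      by rw [← cj_dl]; exact fun e => h1' (cj_injective g (e.trans (map_zero _).symm))⟩, fun c hc => ?_⟩
    have := congrArg (cj g) (hσ.2 _ (isMin_cj hc (inv_mem hg)))
    rwa [map_mul, map_mul, cj_cj, mul_inv_cancel, cj_one, cj_dl] at this
  have hG'conj : ∀ g ∈ G, ∀ x ∈ G', g * x * g⁻¹ ∈ G' := by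
    intro g hg x hx
    have hle : G'.map (MulAut.conj g).toMonoidHom ≤ G' := by
      rw [hG', MonoidHom.map_closure]
      exact Subgroup.closure_mono (by rintro _ ⟨σ, hσ, rfl⟩; exact hQconj g hg σ hσ)
    exact hle ⟨x, hx, rfl⟩
  have hdich : ∀ σ ∈ quadraticElements G,
      (∃ A ∈ quadraticRootSubgroups G, σ ∈ compGrp G A) ∨ σ ∈ Q := by
    intro σ hσ
    obtain ⟨h1, -⟩ := mem_quadratic_iff.1 hσ
    rcases gset_dichotomy h2 h3 hG h1 with h | h
    · exact Or.inl (dl_injective (dl_one_add h1.1) ▸ h)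
    · exact Or.inr ⟨hσ, h⟩
  have hroot : ∀ g ∈ G', g ∈ Subgroup.centralizer
      ((⨆ A ∈ quadraticRootSubgroups G, A : Subgroup (LinearMap.GeneralLinearGroup k M)) :
        Set (LinearMap.GeneralLinearGroup k M)) :=
    fun g hg => mem_centralizer_roots fun c hc => (hQcomm g hg c hc).symm
  have hcompcomm : ∀ A ∈ quadraticRootSubgroups G, ∀ x ∈ compGrp G A, ∀ g ∈ G', x * g = g * x :=
    fun A _ x hx g hg => Subgroup.mem_centralizer_iff.1 (hroot g hg) x
      ((biSup_mono fun C hC => hC.1 : compGrp G A ≤ ⨆ C ∈ quadraticRootSubgroups G, C) hx)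
  -- a minimal invariant subspace for `G'`
  have hexW : ∃ d, ∃ W : Submodule k M, W ≠ ⊥ ∧ (∀ g ∈ G', ∀ w ∈ W, (g : M →ₗ[k] M) w ∈ W) ∧
      Module.finrank k W = d := by
    refine ⟨_, ⊤, ?_, fun _ _ _ _ => Submodule.mem_top, rfl⟩
    intro e
    obtain ⟨m, hm⟩ := hG.1.1
    exact hm ((Submodule.mem_bot k).1 (e ▸ Submodule.mem_top (R := k) (x := m)))
  obtain ⟨W, hW0, hWinv, hWd⟩ := Nat.find_spec hexW
  have hWmin : ∀ U : Submodule k M, U ≤ W → (∀ g ∈ G', ∀ w ∈ U, (g : M →ₗ[k] M) w ∈ U) → U = ⊥ ∨ U = W := by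
    intro U hU hUinv
    by_cases h0 : U = ⊥
    · exact Or.inl h0
    · exact Or.inr (Submodule.eq_of_le_of_finrank_le hU (hWd ▸ Nat.find_min' hexW ⟨U, h0, hUinv, rfl⟩))
  -- restriction to `W` is faithful
  have hlift : ∀ E : Module.End k M, (∀ g ∈ G', ∀ w ∈ W, cj g E w = 0) →
      (∀ A ∈ quadraticRootSubgroups G, ∀ x ∈ compGrp G A, cj x E = E) → E = 0 := by
    intro E hEW hEc
    set F : Submodule k M := ⨅ g ∈ G', LinearMap.ker (cj g E) with hF
    have hmemF : ∀ v, v ∈ F ↔ ∀ g ∈ G', cj g E v = 0 := fun v => by simp [hF, Submodule.mem_iInf]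
    have key : ∀ (g : LinearMap.GeneralLinearGroup k M) (x : Module.End k M) (v : M),
        cj g⁻¹ x v = 0 → x ((g : M →ₗ[k] M) v) = 0 := by
      intro g x v h
      have := congrArg (g : M →ₗ[k] M) h
      rw [map_zero] at this
      rw [← this, cj_apply, inv_inv]
      show x ((g : M →ₗ[k] M) v) = ((g : Module.End k M) * (((g⁻¹ : LinearMap.GeneralLinearGroup k M) : Module.End k M) * x * (g : Module.End k M))) v
      rw [← mul_assoc, ← mul_assoc, Units.mul_inv, one_mul]
      rfl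
    have hgen : ∀ g ∈ G, ∀ v ∈ F, (g : M →ₗ[k] M) v ∈ F := by
      intro g hg
      rw [← hG.2] at hg
      induction hg using Subgroup.closure_induction'' with
      | one => intro v hv; exact hv
      | mem σ hσ =>
        intro v hv
        rw [hmemF] at hv ⊢
        intro h hh
        refine key σ _ v ?_
        rw [cj_cj]
        rcases hdich σ hσ with ⟨A, hA, hσA⟩ | hσQ
        · have e : σ⁻¹ * h = h * σ⁻¹ := hcompcomm A hA _ (inv_mem hσA) h hh
          rw [e, ← cj_cj, hEc A hA _ (inv_mem hσA)]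
          exact hv h hh
        · exact hv _ (mul_mem (inv_mem (Subgroup.subset_closure hσQ)) hh)
      | inv_mem σ hσ =>
        intro v hv
        rw [hmemF] at hv ⊢
        intro h hh
        refine key σ⁻¹ _ v ?_
        rw [cj_cj, inv_inv]
        rcases hdich σ hσ with ⟨A, hA, hσA⟩ | hσQ
        · have e : σ * h = h * σ := hcompcomm A hA _ hσA h hh
          rw [e, ← cj_cj, hEc A hA _ hσA]
          exact hv h hh
        · exact hv _ (mul_mem (Subgroup.subset_closure hσQ) hh)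
      | mul x y _ _ hx hy =>
        intro v hv
        rw [Units.val_mul]
        exact hx _ (hy v hv)
    rcases hG.1.2 F hgen with h | h
    · refine absurd ?_ hW0
      rw [← le_bot_iff, ← h]
      exact fun w hw => (hmemF w).2 fun g hg => hEW g hg w hw
    · refine LinearMap.ext fun v => ?_
      have := (hmemF v).1 (h ▸ Submodule.mem_top) 1 (one_mem _)
      rwa [cj_one] at this
  have hlift' : ∀ E : Module.End k M, (∀ g ∈ G', (∀ w ∈ W, cj g E w = 0) ∨ ∀ w ∈ W, E w = 0) →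
      (∀ A ∈ quadraticRootSubgroups G, ∀ x ∈ compGrp G A, cj x E = E) → E = 0 := by
    intro E hE hEc
    refine hlift E (fun g hg w hw => ?_) hEc
    rcases hE g hg with h | h
    · exact h w hw
    · show (g : M →ₗ[k] M) (E (((g⁻¹ : LinearMap.GeneralLinearGroup k M) : M →ₗ[k] M) w)) = 0
      rw [h _ (hWinv _ (inv_mem hg) w hw), map_zero]
  have hfix : ∀ g ∈ G', ∀ A ∈ quadraticRootSubgroups G, ∀ x ∈ compGrp G A, cj x (dl g) = dl g := by
    intro g hg A hA x hx
    rw [cj_dl, hcompcomm A hA x hx g hg, mul_inv_cancel_right]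
  let res : G' → Module.End k W := fun g => (g.1 : M →ₗ[k] M).restrict fun w hw => hWinv g.1 g.2 w hw
  let ρ : G' →* LinearMap.GeneralLinearGroup k W := MonoidHom.toHomUnits
    { toFun := res
      map_one' := LinearMap.ext fun _ => rfl
      map_mul' := fun _ _ => LinearMap.ext fun _ => rfl }
  have hρ : ∀ (g : G') (w : W), ((dl (ρ g)) w : M) = dl g.1 w := fun _ _ => rfl
  have hρinj : Function.Injective ρ := by
    rw [injective_iff_map_eq_one]
    intro g hg
    refine Subtype.ext (dl_eq_zero.1 (hlift' _ (fun _ _ => Or.inr fun w hw => ?_) (hfix g.1 g.2)))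
    rw [show dl g.1 w = ((dl (ρ g)) ⟨w, hw⟩ : M) from (hρ g ⟨w, hw⟩).symm, hg, dl_one]
    rfl
  set G1 := ρ.range with hG1
  have hquad : ∀ g : G', ρ g ∈ quadraticElements G1 → g.1 ∈ quadraticElements G := by
    intro g hg
    obtain ⟨⟨hsq, hsc⟩, hne⟩ := mem_quadratic_iff.1 hg
    refine mem_quadratic_iff.2 ⟨⟨hlift' _ (fun _ _ => Or.inr fun w hw => ?_) ?_, fun c => ?_⟩, fun e => hne ?_⟩
    · exact congrArg Subtype.val (LinearMap.congr_fun hsq ⟨w, hw⟩)
    · intro A hA x hx; rw [map_mul, hfix g.1 g.2 A hA x hx]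
    · obtain ⟨_, ⟨g', rfl⟩, e⟩ := hsc c
      refine ⟨g'.1, hG'le g'.2, sub_eq_zero.1 (hlift' _ (fun _ _ => Or.inr fun w hw => ?_) ?_)⟩
      · exact sub_eq_zero.2 (congrArg Subtype.val (LinearMap.congr_fun e ⟨w, hw⟩))
      · intro A hA x hx; rw [map_sub, map_smul, hfix g'.1 g'.2 A hA x hx, hfix g.1 g.2 A hA x hx]
    · refine LinearMap.ext fun w => Subtype.ext ?_
      rw [hρ, e]; rfl
  have hquad' : ∀ (σ : LinearMap.GeneralLinearGroup k M) (hσ : σ ∈ Q),
      ρ ⟨σ, Subgroup.subset_closure hσ⟩ ∈ quadraticElements G1 := by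
    intro σ hσ
    obtain ⟨hg, hne⟩ := mem_quadratic_iff.1 hσ.1
    refine mem_quadratic_iff.2 ⟨⟨LinearMap.ext fun w => Subtype.ext ?_, fun c => ?_⟩, fun e => ?_⟩
    · exact LinearMap.congr_fun hg.1 w
    · obtain ⟨τ, hτ, e⟩ := hg.2 c
      have hτG' : τ ∈ G' := by
        rcases gset_mem_of_mem hσ.1 τ (by rw [scalarFamily_eq]; exact ⟨c, e⟩) with h | h
        · rw [h]; exact one_mem _
        · refine Subgroup.subset_closure ⟨h, fun d hd => ?_⟩
          rw [e, mul_smul_comm, smul_mul_assoc, hσ.2 d hd]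
      refine ⟨ρ ⟨τ, hτG'⟩, ⟨_, rfl⟩, LinearMap.ext fun w => Subtype.ext ?_⟩
      rw [hρ, e]; rfl
    · refine hne (hlift' _ (fun _ _ => Or.inr fun w hw => ?_) (hfix σ (Subgroup.subset_closure hσ)))
      exact congrArg Subtype.val (LinearMap.congr_fun e ⟨w, hw⟩)
  have hG1pair : IsQuadraticPair G1 := by
    refine ⟨⟨?_, fun U hU => ?_⟩, le_antisymm ((Subgroup.closure_le _).2 fun x hx => hx.1) ?_⟩
    · obtain ⟨w, hw, h0⟩ := (Submodule.ne_bot_iff W).1 hW0
      exact ⟨⟨w, hw⟩, fun e => h0 (congrArg Subtype.val e)⟩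
    · rcases hWmin (U.map W.subtype) (Submodule.map_subtype_le W U) (by
        rintro g hg _ ⟨u, hu, rfl⟩
        exact ⟨_, hU _ ⟨⟨g, hg⟩, rfl⟩ u hu, rfl⟩) with h | h
      · exact Or.inl (Submodule.map_injective_of_injective W.subtype_injective (by rw [h, Submodule.map_bot]))
      · exact Or.inr (Submodule.map_injective_of_injective W.subtype_injective
          (by rw [h, Submodule.map_top, Submodule.range_subtype]))
    · rintro _ ⟨⟨g, hg⟩, rfl⟩
      induction hg using Subgroup.closure_induction with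
      | mem x hx => exact Subgroup.subset_closure (hquad' x hx)
      | one => exact (map_one ρ).symm ▸ one_mem _
      | mul x y hx hy ihx ihy =>
        rw [show (⟨x * y, _⟩ : G') = ⟨x, hx⟩ * ⟨y, hy⟩ from rfl, map_mul]
        exact mul_mem ihx ihy
      | inv x hx ihx =>
        rw [show (⟨x⁻¹, _⟩ : G') = (⟨x, hx⟩ : G')⁻¹ from rfl, map_inv]
        exact inv_mem ihx
  have hdim : Module.finrank k W < n := by
    rw [← hn]
    refine Submodule.finrank_lt fun hWtop => ?_
    have hker : ∀ g ∈ G', ∀ w ∈ LinearMap.ker a, (g : M →ₗ[k] M) w ∈ LinearMap.ker a := by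
      intro g hg w hw
      rw [LinearMap.mem_ker] at hw ⊢
      show (a * (g : Module.End k M)) w = 0
      rw [val_eq g, mul_add, mul_one, hQcomm g hg a ha, LinearMap.add_apply, Module.End.mul_apply, hw, map_zero,
        add_zero]
    rcases hWmin (LinearMap.ker a) (hWtop ▸ le_top) hker with h | h
    · refine ha.ne (LinearMap.ext fun m => ?_)
      exact (Submodule.mem_bot k).1 (h ▸ (LinearMap.congr_fun ha.mem.1 m : a (a m) = 0))
    · exact ha.ne (LinearMap.ker_eq_top.1 (h.trans hWtop))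
  obtain ⟨S1, hS1f, hS1n, hS1c, hS1sup, hS1q, hS1cov⟩ := ih _ hdim W G1 rfl hG1pair
  let e : G' ≃* G1 := MonoidHom.ofInjective hρinj
  set ι : G1 →* LinearMap.GeneralLinearGroup k M := G'.subtype.comp e.symm.toMonoidHom
  have hιinj : Function.Injective ι := G'.subtype_injective.comp e.symm.injective
  have hι : ∀ y : G1, ∃ g : G', g.1 = ι y ∧ ρ g = y.1 := fun y =>
    ⟨e.symm y, rfl, congrArg Subtype.val (e.apply_symm_apply y)⟩
  have hι' : ∀ g : G', ι ⟨ρ g, ⟨g, rfl⟩⟩ = g.1 := fun g => by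
    obtain ⟨g', e1, e2⟩ := hι ⟨ρ g, ⟨g, rfl⟩⟩
    rw [← e1, hρinj e2]
  set lift := fun H : Subgroup (LinearMap.GeneralLinearGroup k W) => (H.subgroupOf G1).map ι
  have hliftle : ∀ H, lift H ≤ G' := fun H => by rintro _ ⟨y, -, rfl⟩; exact (e.symm y).2
  have hle1 : ∀ H ∈ S1, H ≤ G1 := fun H hH => (hS1n H hH).1
  have hcompS : (compGrp G '' quadraticRootSubgroups G).Finite := by
    have h := finite_parts h2 h3 hG.1
    rw [show compGrp G = (fun P => ⨆ B ∈ P, B) ∘ part G from rfl, Set.image_comp]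
    exact (Set.toFinite _).image _
  refine ⟨compGrp G '' quadraticRootSubgroups G ∪ lift '' S1, hcompS.union (hS1f.image _), ?_, ?_, ?_, ?_, ?_⟩
  · rintro _ (⟨A, hA, rfl⟩ | ⟨H, hH, rfl⟩)
    · exact ⟨compGrp_le A, fun g hg => conjBy_eq_of_forall (normalises_compGrp h2 h3 hG hA) hg⟩
    refine ⟨(hliftle H).trans hG'le, fun g hg => conjBy_eq_of_forall ?_ hg⟩
    intro g hg
    rw [← hG.2] at hg
    induction hg using Subgroup.closure_induction'' with
    | one => intro x hx; simpa using hx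
    | mem σ hσ =>
      rintro _ ⟨y, hy, rfl⟩
      rcases hdich σ hσ with ⟨A, hA, hσA⟩ | hσQ
      · rw [hcompcomm A hA σ hσA _ (hliftle H ⟨y, hy, rfl⟩), mul_inv_cancel_right]; exact ⟨y, hy, rfl⟩
      · set z : G1 := ⟨ρ ⟨σ, Subgroup.subset_closure hσQ⟩, ⟨_, rfl⟩⟩
        refine ⟨z * y * z⁻¹, ?_, by rw [map_mul, map_mul, map_inv, hι']⟩
        have := (hS1n H hH).2 z z.2
        exact this.le ⟨y.1, hy, rfl⟩
    | inv_mem σ hσ =>
      rintro _ ⟨y, hy, rfl⟩
      rcases hdich σ hσ with ⟨A, hA, hσA⟩ | hσQ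
      · rw [hcompcomm A hA _ (inv_mem hσA) _ (hliftle H ⟨y, hy, rfl⟩), mul_inv_cancel_right]; exact ⟨y, hy, rfl⟩
      · set z : G1 := ⟨ρ ⟨σ, Subgroup.subset_closure hσQ⟩, ⟨_, rfl⟩⟩
        refine ⟨z⁻¹ * y * z, ?_, by rw [map_mul, map_mul, map_inv, hι', inv_inv]⟩
        have := (hS1n H hH).2 z⁻¹.1 (z⁻¹).2
        have h' := this.le ⟨y.1, hy, rfl⟩
        simpa [Subgroup.mem_subgroupOf] using h'
    | mul g h _ _ ihg ihh =>
      intro x hx
      have := ihg _ (ihh x hx)
      simpa [mul_assoc] using this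
  · rintro _ (⟨A, hA, rfl⟩ | ⟨H, hH, rfl⟩) _ (⟨B, hB, rfl⟩ | ⟨K, hK, rfl⟩) hne
    · exact compGrp_commute h2 h3 hG.1 hA hB fun e => hne (by rw [compGrp, compGrp, e])
    · exact CfsgLib.RootGroups.commutator_eq_bot_iff.2 fun x hx y hy => hcompcomm A hA x hx y (hliftle K hy)
    · exact CfsgLib.RootGroups.commutator_eq_bot_iff.2 fun x hx y hy => (hcompcomm B hB y hy x (hliftle H hx)).symm
    · show ⁅(H.subgroupOf G1).map ι, (K.subgroupOf G1).map ι⁆ = ⊥
      rw [← Subgroup.map_commutator, commutator_subgroupOf (hle1 H hH) (hle1 K hK),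
        hS1c H hH K hK (fun e => hne (by rw [e])), Subgroup.bot_subgroupOf, Subgroup.map_bot]
  · refine le_antisymm (iSup₂_le ?_) ?_
    · rintro _ (⟨A, hA, rfl⟩ | ⟨H, hH, rfl⟩)
      · exact compGrp_le A
      · exact (hliftle H).trans hG'le
    · conv_lhs => rw [← hG.2]
      rw [Subgroup.closure_le]
      intro σ hσ
      rcases hdich σ hσ with ⟨A, hA, hσA⟩ | hσQ
      · exact le_iSup₂ (f := fun H _ => H) (compGrp G A) (Or.inl ⟨A, hA, rfl⟩) hσA
      · obtain ⟨H, hH, hm⟩ := hS1cov _ (hquad' σ hσQ)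
        exact le_iSup₂ (f := fun H _ => H) (lift H) (Or.inr ⟨H, hH, rfl⟩)
          ⟨⟨_, hle1 H hH hm⟩, hm, hι' ⟨σ, Subgroup.subset_closure hσQ⟩⟩
  · rintro _ (⟨A, hA, rfl⟩ | ⟨H, hH, rfl⟩)
    · refine ⟨isQuasisimple_compGrp h2 h3 hG.1 hA, le_antisymm ((Subgroup.closure_le _).2 fun x hx => hx.2) ?_⟩
      refine iSup₂_le fun B hB β hβ => ?_
      by_cases hβ1 : β = 1
      · rw [hβ1]; exact one_mem _
      obtain ⟨b, hb, rfl⟩ := mem_roots_iff.1 hB.1
      exact Subgroup.subset_closure ⟨mem_quadratic_iff.2 ⟨((mem_Ecl hb.mem.1).1 hβ).1, fun h => hβ1 (dl_eq_zero.1 h)⟩,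
        le_compGrp hB hβ⟩
    · obtain ⟨hq, hcl⟩ := hS1q H hH
      refine ⟨CfsgLib.IsoInv.isQuasisimple_of_equiv ((Subgroup.subgroupOfEquivOfLe (hle1 H hH)).symm.trans
        ((H.subgroupOf G1).equivMapOfInjective ι hιinj)) hq, le_antisymm ((Subgroup.closure_le _).2 fun x hx => hx.2) ?_⟩
      rintro _ ⟨⟨y, hy⟩, hyH, rfl⟩
      suffices hsuff : H ≤ ((Subgroup.closure (quadraticElements G ∩
          (lift H : Set (LinearMap.GeneralLinearGroup k M)))).comap ι).map G1.subtype by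
        obtain ⟨z, hz, ez⟩ := hsuff hyH
        exact (G1.subtype_injective ez : z = ⟨y, hy⟩) ▸ hz
      refine hcl.ge.trans ((Subgroup.closure_le _).2 ?_)
      rintro x ⟨hx, hxH⟩
      refine ⟨⟨x, hle1 H hH hxH⟩, Subgroup.subset_closure ⟨?_, ⟨_, hxH, rfl⟩⟩, rfl⟩
      obtain ⟨g, e1, e2⟩ := hι ⟨x, hle1 H hH hxH⟩
      rw [← e1]
      exact hquad g (e2.symm ▸ hx)
  · intro σ hσ
    rcases hdich σ hσ with ⟨A, hA, hσA⟩ | hσQ
    · exact ⟨_, Or.inl ⟨A, hA, rfl⟩, hσA⟩
    · obtain ⟨H, hH, hm⟩ := hS1cov _ (hquad' σ hσQ)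
      exact ⟨lift H, Or.inr ⟨H, hH, rfl⟩, ⟨_, hle1 H hH hm⟩, hm, hι' ⟨σ, Subgroup.subset_closure hσQ⟩⟩

end CfsgLib.QuadPair
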