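import Mathlib
import Cfsg.Prelude.Def_RootSubgroups

/-!
Unipotent subgroups of `GL(M)` through the nilpotent algebras spanned by the endomorphisms `g - 1`.
-/

set_option autoImplicit false

open Cfsg

namespace CfsgLib.QuadPair

variable {k : Type*} [Field k] {M : Type*} [AddCommGroup M] [Module k M]

local notation "GL" => LinearMap.GeneralLinearGroup k M
local notation "𝔼" => Module.End k M

/-- The endomorphism `g - 1`. -/
def dl (g : LinearMap.GeneralLinearGroup k M) : Module.End k M := (g : Module.End k M) - 1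

/-- The span of the endomorphisms `g - 1`, `g ∈ H`. -/
def alg (H : Subgroup (LinearMap.GeneralLinearGroup k M)) : Submodule k (Module.End k M) :=
  Submodule.span k (dl '' (H : Set (LinearMap.GeneralLinearGroup k M)))

lemma dl_mem {H : Subgroup GL} {g : GL} (hg : g ∈ H) : dl g ∈ alg H := Submodule.subset_span ⟨g, hg, rfl⟩

lemma dl_one : dl (1 : GL) = 0 := sub_self _

lemma val_eq (g : GL) : (g : 𝔼) = 1 + dl g := (add_sub_cancel _ _).symm

lemma dl_mul (g h : GL) : dl (g * h) = dl g + dl h + dl g * dl h := by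
  rw [dl, dl, dl, Units.val_mul]; noncomm_ring

lemma dl_eq_zero {g : GL} : dl g = 0 ↔ g = 1 :=
  ⟨fun h => Units.ext (sub_eq_zero.1 h), fun h => h ▸ dl_one⟩

lemma dl_injective : Function.Injective (dl : GL → 𝔼) := fun _ _ h => Units.ext (sub_left_inj.1 h)

lemma dl_inv_eq (g : GL) : dl g⁻¹ = -((g⁻¹ : GL) : 𝔼) * dl g := by
  rw [dl, dl, neg_mul, mul_sub, mul_one, Units.inv_mul, neg_sub]

lemma dl_conj (g h : GL) : dl (g * h * g⁻¹) = (g : 𝔼) * dl h * ((g⁻¹ : GL) : 𝔼) := by
  rw [dl, dl, Units.val_mul, Units.val_mul, mul_sub, mul_one, sub_mul, Units.mul_inv]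

lemma alg_mul (H : Subgroup GL) : alg H * alg H ≤ alg H := by
  rw [alg, Submodule.span_mul_span, Submodule.span_le]
  rintro _ ⟨_, ⟨g, hg, rfl⟩, _, ⟨h, hh, rfl⟩, rfl⟩
  show dl g * dl h ∈ alg H
  have e : dl g * dl h = dl (g * h) - dl g - dl h := by rw [dl_mul]; abel
  rw [e]
  exact sub_mem (sub_mem (dl_mem (mul_mem hg hh)) (dl_mem hg)) (dl_mem hh)

lemma alg_mono {H K : Subgroup GL} (h : H ≤ K) : alg H ≤ alg K :=
  Submodule.span_mono (Set.image_mono h)

lemma map_dl (l : List GL) : (l.map fun g => (g : M →ₗ[k] M) - 1) = l.map dl := by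
  induction l with
  | nil => rfl
  | cons a l ih => simpa [dl] using ih

lemma isUnipotentOn_iff {H : Subgroup GL} : IsUnipotentOn H ↔ ∃ n, alg H ^ n = ⊥ := by
  refine exists_congr fun n => ?_
  rw [eq_bot_iff, alg, Submodule.span_pow, Submodule.span_le]
  constructor
  · intro h x hx
    rw [SetLike.mem_coe, Submodule.mem_bot]
    obtain ⟨f, rfl⟩ := Set.mem_pow.1 hx
    choose g hg hfg using fun i => (f i).2
    have := h (List.ofFn g) (by simpa [List.forall_mem_ofFn_iff] using hg) (List.length_ofFn)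
    rw [map_dl, List.map_ofFn] at this
    have heq : (fun i => ((f i : ↑(dl '' (H : Set GL))) : 𝔼)) = dl ∘ g := funext fun i => (hfg i).symm
    exact (congrArg (fun u => (List.ofFn u).prod) heq).trans this
  · intro h l hl hlen
    subst hlen
    refine (Submodule.mem_bot k).1 (h (Set.mem_pow.2 ⟨fun i => ⟨dl l[i], l[i], hl _ (List.getElem_mem _), rfl⟩, ?_⟩))
    rw [map_dl]
    congr 1
    exact List.ext_getElem (by simp) fun i h1 h2 => by simp

/-- The elements `g` with `g - 1 ∈ N`, for a nilpotent subalgebra `N`. -/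
def grp (N : Submodule k (Module.End k M)) (hN : N * N ≤ N) (hn : ∃ n, N ^ n = ⊥) :
    Subgroup (LinearMap.GeneralLinearGroup k M) where
  carrier := {g | dl g ∈ N}
  one_mem' := by simp [dl_one]
  mul_mem' {g h} hg hh := by
    show dl (g * h) ∈ N
    rw [dl_mul]; exact N.add_mem (N.add_mem hg hh) (hN (Submodule.mul_mem_mul hg hh))
  inv_mem' {g} hg := by
    obtain ⟨n, hn⟩ := hn
    show dl g⁻¹ ∈ N
    set x : 𝔼 := dl g with hx
    have hnil : (-x) ^ (n + 1) = 0 := by
      have : (-x) ^ n = 0 := (Submodule.mem_bot k).1 (hn ▸ Submodule.pow_mem_pow N (N.neg_mem hg) n)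
      rw [pow_succ, this, zero_mul]
    have e : ((g⁻¹ : GL) : 𝔼) = ∑ i ∈ Finset.range (n + 1), (-x) ^ i := by
      have h1 := mul_neg_geom_sum (-x) (n + 1)
      rw [hnil, sub_zero, sub_neg_eq_add, ← val_eq] at h1
      exact Units.inv_eq_of_mul_eq_one_right h1
    show ((g⁻¹ : GL) : 𝔼) - 1 ∈ N
    rw [e, Finset.sum_range_succ', pow_zero, add_sub_cancel_right]
    refine Submodule.sum_mem N fun i _ => ?_
    clear * - hN hg
    induction i with
    | zero => simpa using N.neg_mem hg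
    | succ i ih => rw [pow_succ]; exact hN (Submodule.mul_mem_mul ih (N.neg_mem hg))

lemma mem_grp {N : Submodule k (Module.End k M)} {hN : N * N ≤ N} {hn : ∃ n, N ^ n = ⊥} {g : GL} :
    g ∈ grp N hN hn ↔ dl g ∈ N := Iff.rfl

lemma alg_closure_le {S : Set GL} {N : Submodule k 𝔼} (hN : N * N ≤ N) (hn : ∃ n, N ^ n = ⊥)
    (h : ∀ g ∈ S, dl g ∈ N) : alg (Subgroup.closure S) ≤ N := by
  rw [alg, Submodule.span_le]
  rintro _ ⟨g, hg, rfl⟩
  exact (Subgroup.closure_le (grp N hN hn)).2 h hg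

lemma pow_le_pow_of_le {N N' : Submodule k 𝔼} (h : N ≤ N') : ∀ n, N ^ n ≤ N' ^ n
  | 0 => le_rfl
  | n + 1 => by rw [pow_succ, pow_succ]; exact mul_le_mul' (pow_le_pow_of_le h n) h

lemma unipotent_of_alg_le {H : Subgroup GL} {N : Submodule k 𝔼} (hn : ∃ n, N ^ n = ⊥) (h : alg H ≤ N) :
    IsUnipotentOn H := by
  obtain ⟨n, hn⟩ := hn
  exact isUnipotentOn_iff.2 ⟨n, le_bot_iff.1 (hn ▸ pow_le_pow_of_le h n)⟩

lemma unipotent_closure {S : Set GL} {N : Submodule k 𝔼} (hN : N * N ≤ N) (hn : ∃ n, N ^ n = ⊥)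
    (h : ∀ g ∈ S, dl g ∈ N) : IsUnipotentOn (Subgroup.closure S) :=
  unipotent_of_alg_le hn (alg_closure_le hN hn h)

lemma unipotent_mono {H K : Subgroup GL} (h : H ≤ K) (hK : IsUnipotentOn K) : IsUnipotentOn H :=
  let ⟨n, hn⟩ := hK; ⟨n, fun l hl => hn l fun g hg => h (hl g hg)⟩

lemma unipotent_bot : IsUnipotentOn (⊥ : Subgroup GL) :=
  ⟨1, fun l hl h1 => by
    obtain ⟨g, rfl⟩ := List.length_eq_one_iff.1 h1
    have := Subgroup.mem_bot.1 (hl g (by simp))
    simp [this]⟩

/-- A unipotent group normalised by a unipotent group generates a unipotent group with it. -/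
lemma unipotent_sup {D X : Subgroup GL} (hD : IsUnipotentOn D) (hX : IsUnipotentOn X)
    (hnorm : X ≤ Subgroup.normalizer (D : Set GL)) : IsUnipotentOn (D ⊔ X) := by
  obtain ⟨n, hn⟩ := isUnipotentOn_iff.1 hD
  obtain ⟨m, hm⟩ := isUnipotentOn_iff.1 hX
  set A := alg D
  set B := alg X
  have hBA : B * A ≤ A + A * B := by
    show alg X * alg D ≤ _
    rw [alg, alg, Submodule.span_mul_span, Submodule.span_le]
    rintro _ ⟨_, ⟨x, hx, rfl⟩, _, ⟨d, hd, rfl⟩, rfl⟩
    show dl x * dl d ∈ A + A * B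
    set d' := x * d * x⁻¹ with hd'
    have hd'D : d' ∈ D := (Subgroup.mem_normalizer_iff.1 (hnorm hx) d).1 hd
    have e : dl x * dl d = dl d' * dl x + (dl d' - dl d) := by
      have e1 : dl d' * (x : 𝔼) = (x : 𝔼) * dl d := by
        rw [hd', dl_conj, mul_assoc, Units.inv_mul, mul_one]
      rw [val_eq x] at e1
      calc dl x * dl d = (1 + dl x) * dl d - dl d := by noncomm_ring
        _ = _ := by rw [← e1]; noncomm_ring
    rw [e]
    exact Submodule.mem_sup.2 ⟨_, sub_mem (dl_mem hd'D) (dl_mem hd), _,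
      Submodule.mul_mem_mul (dl_mem hd'D) (dl_mem hx), add_comm _ _⟩
  have hAA : A * A ≤ A := alg_mul D
  have hBB : B * B ≤ B := alg_mul X
  set J := A + A * B with hJ
  have hBJ : B * J ≤ J := by
    rw [hJ, mul_add, ← mul_assoc]
    refine sup_le hBA ((mul_le_mul' hBA le_rfl).trans ?_)
    rw [add_mul, mul_assoc]
    exact sup_le le_sup_right ((mul_le_mul' le_rfl hBB).trans le_sup_right)
  have hJB : J * B ≤ J := by
    rw [hJ, add_mul, mul_assoc]
    exact sup_le le_sup_right ((mul_le_mul' le_rfl hBB).trans le_sup_right)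
  have hAJ : A * J ≤ J := by
    rw [hJ, mul_add, ← mul_assoc]
    exact sup_le (hAA.trans le_sup_left) ((mul_le_mul' hAA le_rfl).trans le_sup_right)
  have hJJ : J * J ≤ J := by
    conv_lhs => arg 1; rw [hJ]
    rw [add_mul, mul_assoc]
    exact sup_le hAJ ((mul_le_mul' le_rfl hBJ).trans hAJ)
  have hJpow : ∀ i, J ^ (i + 1) ≤ A ^ i * J := by
    intro i
    induction i with
    | zero => simp
    | succ i ih =>
      rw [pow_succ J (i + 1), pow_succ A i]
      refine (mul_le_mul' ih le_rfl).trans ?_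
      rw [mul_assoc, mul_assoc]
      refine mul_le_mul' le_rfl ?_
      conv_lhs => arg 1; rw [hJ]
      rw [add_mul, mul_assoc]
      exact sup_le le_rfl (mul_le_mul' le_rfl hBJ)
  set S := J + B with hS
  have hSS : S * S ≤ S := by
    rw [hS, Submodule.add_eq_sup, Submodule.sup_mul, Submodule.mul_sup, Submodule.mul_sup]
    exact sup_le (sup_le (hJJ.trans le_sup_left) (hJB.trans le_sup_left))
      (sup_le (hBJ.trans le_sup_left) (hBB.trans le_sup_right))
  have hSpow : ∀ i, S ^ (i + 1) ≤ J + B ^ (i + 1) := by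
    intro i
    induction i with
    | zero => simp [hS]
    | succ i ih =>
      rw [pow_succ S (i + 1)]
      refine (mul_le_mul' ih le_rfl).trans ?_
      have hBi : ∀ j, B ^ (j + 1) ≤ B := fun j => by
        induction j with
        | zero => simp
        | succ j ihj => rw [pow_succ]; exact (mul_le_mul' ihj le_rfl).trans hBB
      rw [hS, add_mul J (B ^ (i + 1)), mul_add J J B, mul_add (B ^ (i + 1)) J B, ← pow_succ]
      exact sup_le (sup_le (hJJ.trans le_sup_left) (hJB.trans le_sup_left))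
        (sup_le ((mul_le_mul' (hBi i) le_rfl).trans (hBJ.trans le_sup_left)) le_sup_right)
  have hSn : ∃ r, S ^ r = ⊥ := by
    refine ⟨(m + 1) * (n + 1), ?_⟩
    rw [pow_mul]
    have h1 : S ^ (m + 1) ≤ J := by
      refine (hSpow m).trans (sup_le le_rfl ?_)
      rw [pow_succ, hm, Submodule.bot_mul]
      exact bot_le
    refine le_bot_iff.1 ((pow_le_pow_of_le h1 (n + 1)).trans ((hJpow n).trans ?_))
    rw [hn, Submodule.bot_mul]
  rw [Subgroup.sup_eq_closure]
  refine unipotent_closure hSS hSn ?_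
  rintro g (hg | hg)
  · exact (le_sup_left.trans le_sup_left : A ≤ S) (dl_mem hg)
  · exact (le_sup_right : B ≤ S) (dl_mem hg)

/-- The normaliser condition in a unipotent group. -/
lemma exists_mem_normalizer {X P : Subgroup GL} (hX : IsUnipotentOn X) (hPX : P < X) :
    ∃ g ∈ X, g ∉ P ∧ g ∈ Subgroup.normalizer (P : Set GL) := by
  classical
  obtain ⟨n, hn⟩ := isUnipotentOn_iff.1 hX
  have hex : ∃ i, ∀ g ∈ X, dl g ∈ alg X ^ (i + 1) → g ∈ P := by
    refine ⟨n, fun g _ hg => ?_⟩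
    rw [pow_succ, hn, Submodule.bot_mul, Submodule.mem_bot, dl_eq_zero] at hg
    exact hg ▸ P.one_mem
  obtain ⟨g0, hg0X, hg0P⟩ := SetLike.exists_of_lt hPX
  have hpos : Nat.find hex ≠ 0 := fun h0 => by
    have := Nat.find_spec hex
    rw [h0] at this
    exact hg0P (this g0 hg0X (by rw [zero_add, pow_one]; exact dl_mem hg0X))
  obtain ⟨j, hj⟩ := Nat.exists_eq_succ_of_ne_zero hpos
  have hmin := Nat.find_min hex (m := j) (by omega)
  push Not at hmin
  obtain ⟨g, hgX, hgN, hgP⟩ := hmin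
  refine ⟨g, hgX, hgP, ?_⟩
  have spec := Nat.find_spec hex
  rw [hj] at spec
  have key : ∀ h : GL, h ∈ X → dl h ∈ alg X ^ (j + 1) → ∀ p ∈ P, h * p * h⁻¹ ∈ P := by
    intro h hhX hh p hp
    set c := h * p * h⁻¹ * p⁻¹ with hc
    have hcX : c ∈ X := mul_mem (mul_mem (mul_mem hhX (hPX.le hp)) (inv_mem hhX)) (inv_mem (hPX.le hp))
    have e : dl c = (dl h * dl p - dl p * dl h) * (1 + dl (h⁻¹ * p⁻¹)) := by
      have e1 : dl h * dl p - dl p * dl h = ((h * p : GL) : 𝔼) - ((p * h : GL) : 𝔼) := by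
        rw [Units.val_mul, Units.val_mul, dl, dl]; noncomm_ring
      rw [e1, ← val_eq, sub_mul, ← Units.val_mul, ← Units.val_mul, dl]
      congr 1
      rw [show p * h * (h⁻¹ * p⁻¹) = 1 by group]; rfl
    have hbr : dl h * dl p - dl p * dl h ∈ alg X ^ (j + 1 + 1) := by
      refine sub_mem ?_ ?_
      · rw [pow_succ]; exact Submodule.mul_mem_mul hh (dl_mem (hPX.le hp))
      · rw [pow_succ']; exact Submodule.mul_mem_mul (dl_mem (hPX.le hp)) hh
    have hcP : c ∈ P := by
      refine spec c hcX ?_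
      rw [e, mul_add, mul_one]
      refine add_mem hbr ?_
      have h2 : alg X ^ (j + 1 + 1) * alg X ≤ alg X ^ (j + 1 + 1) := by
        rw [pow_succ _ (j + 1), mul_assoc]
        exact mul_le_mul' le_rfl (alg_mul X)
      exact h2 (Submodule.mul_mem_mul hbr (dl_mem (mul_mem (inv_mem hhX) (inv_mem (hPX.le hp)))))
    have : c * p ∈ P := mul_mem hcP hp
    simpa [hc] using this
  have hgi : dl g⁻¹ ∈ alg X ^ (j + 1) := by
    rw [dl_inv_eq, val_eq, neg_mul, add_mul, one_mul]
    refine neg_mem (add_mem hgN ?_)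
    have h2 : alg X * alg X ^ (j + 1) ≤ alg X ^ (j + 1) := by
      rw [pow_succ', ← mul_assoc]
      exact mul_le_mul' (alg_mul X) le_rfl
    exact h2 (Submodule.mul_mem_mul (dl_mem (inv_mem hgX)) hgN)
  rw [Subgroup.mem_normalizer_iff]
  intro p
  refine ⟨key g hgX hgN p, fun h => ?_⟩
  have := key g⁻¹ (inv_mem hgX) hgi _ h
  simpa [mul_assoc] using this

end CfsgLib.QuadPair
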